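import Cfsg.Agent.Lib.SelfCentE8.Gamma

/-!
# The level of `V[2]` in `V`
-/

set_option autoImplicit false
set_option linter.unusedSectionVars false

namespace Cfsg.Agent.Lib.SelfCentE8.Level

open Cfsg.Agent.Lib.TwoFusion.SecRank Cfsg.Agent.Lib.SelfCentE8.Setup Cfsg.Agent.Lib.SelfCentE8.Count
open Cfsg.Agent.Lib.SelfCentE8.TCore Cfsg.Agent.Lib.SelfCentE8.TCount Cfsg.Agent.Lib.SelfCentE8.Gamma
open Mod

variable {V : Type*} [AddCommGroup V]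

/-- `V[2]` lies in `2^k V` but not in `2^(k+1) V`. -/
structure Lev (V : Type*) [AddCommGroup V] (k : ℕ) : Prop where
  le : ∀ w : V, (2 : ℕ) • w = 0 → w ∈ (Dbl (2 ^ k) : AddSubgroup V)
  ex : ∃ e : V, (2 : ℕ) • e = 0 ∧ e ∉ (Dbl (2 ^ (k + 1)) : AddSubgroup V)

lemma exists_lev [Finite V] {M : ℕ} (hM : ∀ v : V, (2 ^ M : ℕ) • v = 0) (hne : ∃ e : V, (2 : ℕ) • e = 0 ∧ e ≠ 0) :
    ∃ k, Lev V k := by
  classical
  obtain ⟨e₀, he₀, hne₀⟩ := hne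
  have hex : ∃ k, ¬ ∀ w : V, (2 : ℕ) • w = 0 → w ∈ (Dbl (2 ^ (k + 1)) : AddSubgroup V) := by
    refine ⟨M, fun h => hne₀ ?_⟩
    obtain ⟨u, hu⟩ := h e₀ he₀
    rw [← hu]
    change (2 ^ (M + 1) : ℕ) • u = 0
    rw [pow_succ, mul_comm, mul_nsmul', hM, smul_zero]
  obtain ⟨k, hk, hmin⟩ : ∃ k, (¬ ∀ w : V, (2 : ℕ) • w = 0 → w ∈ (Dbl (2 ^ (k + 1)) : AddSubgroup V)) ∧
      ∀ j, j < k → ∀ w : V, (2 : ℕ) • w = 0 → w ∈ (Dbl (2 ^ (j + 1)) : AddSubgroup V) := by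
    refine ⟨Nat.find hex, Nat.find_spec hex, fun j hj => ?_⟩
    have := Nat.find_min hex hj
    push Not at this
    exact this
  push Not at hk
  refine ⟨k, ?_, hk⟩
  cases k with
  | zero =>
    intro w _
    exact ⟨w, by simp⟩
  | succ j => exact hmin j (by omega)

lemma Tor_le {k : ℕ} (hL : ∀ w : V, (2 : ℕ) • w = 0 → w ∈ (Dbl (2 ^ k) : AddSubgroup V)) :
    ∀ j, j ≤ k → ∀ u : V, (2 ^ j : ℕ) • u = 0 → u ∈ (Dbl 2 : AddSubgroup V) := by
  intro j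
  induction j with
  | zero =>
    intro _ u hu
    simp only [pow_zero, one_smul] at hu
    rw [hu]
    exact zero_mem _
  | succ j ih =>
    intro hj u hu
    have h1 : (2 : ℕ) • ((2 ^ j : ℕ) • u) = 0 := by
      rw [← hu, pow_succ, mul_comm, mul_nsmul']
    obtain ⟨v, hv⟩ := hL _ h1
    have hv' : (2 ^ k : ℕ) • v = (2 ^ j : ℕ) • u := hv
    obtain ⟨i, rfl⟩ : ∃ i, k = j + (i + 1) := ⟨k - j - 1, by omega⟩
    have h2 : (2 ^ j : ℕ) • (u - (2 ^ (i + 1) : ℕ) • v) = 0 := by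
      rw [smul_sub, ← hv', ← mul_nsmul', ← pow_add, sub_eq_zero]
    have h3 := ih (by omega) _ h2
    have h4 : (2 ^ (i + 1) : ℕ) • v ∈ (Dbl 2 : AddSubgroup V) := ⟨(2 ^ i : ℕ) • v, by
      change (2 : ℕ) • (2 ^ i : ℕ) • v = _
      rw [← mul_nsmul', pow_succ, mul_comm]⟩
    have e : u = (u - (2 ^ (i + 1) : ℕ) • v) + (2 ^ (i + 1) : ℕ) • v := by abel
    rw [e]
    exact (Dbl 2).add_mem h3 h4

lemma inj_level {k : ℕ} (h : Lev V k) {u : V} (hu : (2 ^ k : ℕ) • u ∈ (Dbl (2 ^ (k + 1)) : AddSubgroup V)) :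
    u ∈ (Dbl 2 : AddSubgroup V) := by
  obtain ⟨t, ht⟩ := hu
  have ht' : (2 ^ (k + 1) : ℕ) • t = (2 ^ k : ℕ) • u := ht
  have h1 : (2 ^ k : ℕ) • (u - (2 : ℕ) • t) = 0 := by
    rw [smul_sub, ← ht', ← mul_nsmul', pow_succ, sub_eq_zero]
  have h2 := Tor_le h.le k le_rfl _ h1
  have e : u = (u - (2 : ℕ) • t) + (2 : ℕ) • t := by abel
  rw [e]
  exact (Dbl 2).add_mem h2 ⟨t, rfl⟩

/-- A subgroup with at most one involution is cyclic. -/
lemma exists_gen [Finite V] {M : ℕ} (hM : ∀ v : V, (2 ^ M : ℕ) • v = 0) (C : AddSubgroup V) {z : V}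
    (hC : ∀ t ∈ C, (2 : ℕ) • t = 0 → t = 0 ∨ t = z) : ∃ c ∈ C, ∀ u ∈ C, ∃ n : ℤ, u = n • c := by
  have hf2 : Fact (Nat.Prime 2) := ⟨Nat.prime_two⟩
  by_cases hcyc : IsCyclic (Multiplicative C)
  · obtain ⟨g, hg⟩ := hcyc.exists_generator
    refine ⟨((Multiplicative.toAdd g : C) : V), (Multiplicative.toAdd g : C).2, fun u hu => ?_⟩
    obtain ⟨n, hn⟩ := Subgroup.mem_zpowers_iff.1 (hg (Multiplicative.ofAdd (⟨u, hu⟩ : C)))
    refine ⟨n, ?_⟩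
    have h1 := congrArg Multiplicative.toAdd hn
    have h2 := congrArg Subtype.val h1
    simp only [toAdd_zpow, toAdd_ofAdd, AddSubgroup.coe_zsmul] at h2
    exact h2.symm
  · exfalso
    have hp : IsPGroup 2 (Multiplicative C) := by
      intro g
      refine ⟨M, ?_⟩
      apply Multiplicative.toAdd.injective
      apply Subtype.ext
      simp [hM]
    obtain ⟨x, y, hx, hy, hxy⟩ := Cfsg.Agent.Lib.PGroups.NormalRankTwo.exists_two_independent_of_comm hp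
      (fun a b => mul_comm a b) hcyc
    have hx0 : ((Multiplicative.toAdd x : C) : V) ≠ 0 := by
      intro h
      have h1 : x = 1 := by
        apply Multiplicative.toAdd.injective
        exact Subtype.ext h
      rw [h1, orderOf_one] at hx
      omega
    have hx2 : (2 : ℕ) • ((Multiplicative.toAdd x : C) : V) = 0 := by
      have h1 := pow_orderOf_eq_one x
      rw [hx] at h1
      have h2 := congrArg (fun w : Multiplicative C => ((Multiplicative.toAdd w : C) : V)) h1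
      simpa using h2
    have hy2' : (2 : ℕ) • ((Multiplicative.toAdd y : C) : V) = 0 := by
      have h2 := congrArg (fun w : Multiplicative C => ((Multiplicative.toAdd w : C) : V)) hy
      simpa using h2
    have hxz := (hC _ (Multiplicative.toAdd x : C).2 hx2).resolve_left hx0
    apply hxy
    rcases hC _ (Multiplicative.toAdd y : C).2 hy2' with h | h
    · have : y = 1 := by
        apply Multiplicative.toAdd.injective
        exact Subtype.ext h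
      rw [this]
      exact one_mem _
    · have : y = x := by
        apply Multiplicative.toAdd.injective
        exact Subtype.ext (h.trans hxz.symm)
      rw [this]
      exact Subgroup.mem_zpowers x

lemma tor_cover [Finite V] (hW : Nat.card (Tor 2 : AddSubgroup V) = 4) {p q : V} (hp2 : (2 : ℕ) • p = 0)
    (hq2 : (2 : ℕ) • q = 0) (hp0 : p ≠ 0) (hq0 : q ≠ 0) (hpq : p ≠ q) {w : V} (hw : (2 : ℕ) • w = 0) :
    w = 0 ∨ w = p ∨ w = q ∨ w = p + q := by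
  have h2 : ∀ g : (Tor 2 : AddSubgroup V), g + g = 0 := by
    intro g
    apply Subtype.ext
    have : (2 : ℕ) • (g : V) = 0 := g.2
    rw [AddSubgroup.coe_add, ← two_nsmul]
    exact this
  have := klein_cover hW h2 (p := ⟨p, hp2⟩) (q := ⟨q, hq2⟩) (fun h => hp0 (congrArg Subtype.val h))
    (fun h => hq0 (congrArg Subtype.val h)) (fun h => hpq (congrArg Subtype.val h)) ⟨w, hw⟩
  rcases this with h | h | h | h
  · exact Or.inl (congrArg Subtype.val h)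
  · exact Or.inr (Or.inl (congrArg Subtype.val h))
  · exact Or.inr (Or.inr (Or.inl (congrArg Subtype.val h)))
  · exact Or.inr (Or.inr (Or.inr (congrArg Subtype.val h)))

lemma odd_mul_eq_zero {M : ℕ} (hM : ∀ v : V, (2 ^ M : ℕ) • v = 0) {c : V} {n : ℤ} (h : c = (2 * n) • c) :
    c = 0 := by
  have h1 : ∀ j : ℕ, c = ((2 * n) ^ j) • c := by
    intro j
    induction j with
    | zero => simp
    | succ j ih =>
      calc c = (2 * n) ^ j • c := ih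
        _ = (2 * n) ^ j • ((2 * n) • c) := by rw [← h]
        _ = _ := by rw [smul_smul, pow_succ]
  have h2 := h1 M
  have h3 : ((2 : ℤ) ^ M) • (n ^ M • c) = 0 := by
    have := hM (n ^ M • c)
    rwa [← natCast_zsmul, Nat.cast_pow, Nat.cast_ofNat] at this
  rw [h2, mul_pow, ← smul_smul, h3]

variable {S : Type*} [Group S] {D : Mod S V}

/-- Data attached to `τ` trivial on `V/2V`, moving `V[2]`. -/
structure LD (D : Mod S V) (k : ℕ) (τ : S) (z e c p : V) : Prop where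
  z0 : z ≠ 0
  z2 : (2 : ℕ) • z = 0
  zC : z ∈ (Dbl (2 ^ (k + 1)) : AddSubgroup V)
  e2 : (2 : ℕ) • e = 0
  eC : e ∉ (Dbl (2 ^ (k + 1)) : AddSubgroup V)
  cov : ∀ w : V, (2 : ℕ) • w = 0 → w = 0 ∨ w = z ∨ w = e ∨ w = z + e
  zfix : ∀ g, D.ρ g z = z
  τe : D.ρ τ e = e + z
  cC : c ∈ (Dbl (2 ^ (k + 1)) : AddSubgroup V)
  cp : c = (2 : ℕ) • p
  pP : p ∈ (Dbl (2 ^ k) : AddSubgroup V)
  gen : ∀ u ∈ (Dbl (2 ^ (k + 1)) : AddSubgroup V), ∃ n : ℤ, u = n • c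
  dec : ∀ p' ∈ (Dbl (2 ^ k) : AddSubgroup V), ∃ n : ℤ, ∃ w : V, (2 : ℕ) • w = 0 ∧ p' = n • p + w
  τp : ∃ n : ℤ, D.ρ τ p = p + n • c

lemma δ_τ_mem {k : ℕ} {τ : S} (hτ1 : τ ∈ S1 D) {p : V} (hp : p ∈ (Dbl (2 ^ k) : AddSubgroup V)) :
    D.δ τ p ∈ (Dbl (2 ^ (k + 1)) : AddSubgroup V) := by
  obtain ⟨v, rfl⟩ := hp
  obtain ⟨u, hu⟩ := mem_S1.1 hτ1 v
  refine ⟨u, ?_⟩
  change (2 ^ (k + 1) : ℕ) • u = D.δ τ ((2 ^ k : ℕ) • v)
  rw [D.δ_nsmul, ← hu, ← mul_nsmul', pow_succ]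

lemma exists_LD [Finite V] {k : ℕ} (L : Lev V k) (hW : Nat.card (Tor 2 : AddSubgroup V) = 4) {M : ℕ}
    (hM : ∀ v : V, (2 ^ M : ℕ) • v = 0) {τ : S} (hτ1 : τ ∈ S1 D) (hτ2 : τ ∉ X D) :
    ∃ z e c p, LD D k τ z e c p := by
  obtain ⟨e₀, he₀2, he₀C⟩ := L.ex
  have hCinv := D.inv_Dbl (2 ^ (k + 1))
  obtain ⟨e, he2, hz0⟩ : ∃ e : V, (2 : ℕ) • e = 0 ∧ D.δ τ e ≠ 0 := by
    by_contra hall
    push Not at hall
    refine hτ2 (mem_X.2 (fun w hw => ?_))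
    have := hall w hw
    rwa [δ_def, sub_eq_zero] at this
  set z := D.δ τ e with hz
  have hzC : z ∈ (Dbl (2 ^ (k + 1)) : AddSubgroup V) := δ_τ_mem hτ1 (L.le e he2)
  have hz2 : (2 : ℕ) • z = 0 := by
    rw [hz, ← D.δ_nsmul, he2, D.δ_zero]
  have he₀0 : e₀ ≠ 0 := fun h => he₀C (h ▸ zero_mem _)
  have hze₀ : z ≠ e₀ := fun h => he₀C (h ▸ hzC)
  have hcov₀ := fun w (hw : (2 : ℕ) • w = 0) => tor_cover hW hz2 he₀2 hz0 he₀0 hze₀ hw
  have hI : ∀ t ∈ (Dbl (2 ^ (k + 1)) : AddSubgroup V), (2 : ℕ) • t = 0 → t = 0 ∨ t = z := by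
    intro t ht ht2
    rcases hcov₀ t ht2 with h | h | h | h
    · exact Or.inl h
    · exact Or.inr h
    · exact absurd (h ▸ ht) he₀C
    · exfalso
      apply he₀C
      have : e₀ = t - z := by rw [h]; abel
      rw [this]
      exact AddSubgroup.sub_mem _ ht hzC
  have hzfix : ∀ g, D.ρ g z = z := by
    intro g
    have h1 : D.ρ g z ∈ (Dbl (2 ^ (k + 1)) : AddSubgroup V) := hCinv g z hzC
    have h2 : (2 : ℕ) • D.ρ g z = 0 := by rw [← map_nsmul, hz2, map_zero]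
    rcases hI _ h1 h2 with h | h
    · exact absurd (D.ρ_inj g (h.trans (map_zero _).symm)) hz0
    · exact h
  have heC : e ∉ (Dbl (2 ^ (k + 1)) : AddSubgroup V) := by
    intro h
    rcases hI e h he2 with h' | h'
    · rw [h', D.δ_zero] at hz
      exact hz0 hz
    · have : z = 0 := by
        rw [hz, δ_def, h', hzfix, sub_self]
      exact hz0 this
  have hze : z ≠ e := fun h => heC (h ▸ hzC)
  have he0 : e ≠ 0 := fun h => heC (h ▸ zero_mem _)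
  obtain ⟨c, hcC, hgen⟩ := exists_gen hM _ hI
  obtain ⟨v, hv⟩ := hcC
  have hv' : (2 ^ (k + 1) : ℕ) • v = c := hv
  have hcp : c = (2 : ℕ) • ((2 ^ k : ℕ) • v) := by
    rw [← hv', ← mul_nsmul', pow_succ, mul_comm]
  have hdec : ∀ p' ∈ (Dbl (2 ^ k) : AddSubgroup V), ∃ n : ℤ, ∃ w : V, (2 : ℕ) • w = 0 ∧ p' = n • ((2 ^ k : ℕ) • v) + w := by
    rintro _ ⟨t, rfl⟩
    change ∃ n : ℤ, ∃ w : V, (2 : ℕ) • w = 0 ∧ (2 ^ k : ℕ) • t = n • ((2 ^ k : ℕ) • v) + w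
    obtain ⟨n, hn⟩ := hgen ((2 ^ (k + 1) : ℕ) • t) ⟨t, rfl⟩
    refine ⟨n, (2 ^ k : ℕ) • t - n • ((2 ^ k : ℕ) • v), ?_, by abel⟩
    rw [smul_sub, ← mul_nsmul', ← pow_succ', hn, hcp, smul_comm, sub_self]
  refine ⟨z, e, c, (2 ^ k : ℕ) • v, hz0, hz2, hzC, he2, heC,
    fun w hw => tor_cover hW hz2 he2 hz0 he0 hze hw, hzfix, ?_, ⟨v, hv⟩, hcp, ⟨v, rfl⟩, hgen, hdec, ?_⟩
  · rw [hz, δ_def]; abel
  · obtain ⟨n, hn⟩ := hgen _ (δ_τ_mem hτ1 (p := (2 ^ k : ℕ) • v) ⟨v, rfl⟩)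
    refine ⟨n, ?_⟩
    rw [← hn, δ_def]; abel

/-- The commutator of `τ` and `g`. -/
lemma G2 [Finite V] {k : ℕ} (L : Lev V k) (hW : Nat.card (Tor 2 : AddSubgroup V) = 4) {M : ℕ}
    (hM : ∀ v : V, (2 ^ M : ℕ) • v = 0) {τ g : S} (hτ1 : τ ∈ S1 D) (hτ2 : τ ∉ X D) (hg1 : g ∈ X D)
    (hg2 : g ∉ S1 D) : ∃ p ∈ (Dbl (2 ^ k) : AddSubgroup V), D.ρ τ (D.ρ g p) ≠ D.ρ g (D.ρ τ p) := by
  obtain ⟨z, e, c, p, H⟩ := exists_LD L hW hM hτ1 hτ2
  refine ⟨p, H.pP, ?_⟩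
  intro hcomm
  have hCinv := D.inv_Dbl (2 ^ (k + 1))
  have hPinv := D.inv_Dbl (2 ^ k)
  -- `δ g p ∉ C`
  have h1 : D.δ g p ∉ (Dbl (2 ^ (k + 1)) : AddSubgroup V) := by
    intro hin
    apply hg2
    refine mem_S1.2 (fun v => ?_)
    have hv : (2 ^ k : ℕ) • D.δ g v ∈ (Dbl (2 ^ (k + 1)) : AddSubgroup V) := by
      rw [← D.δ_nsmul]
      obtain ⟨n, w, hw, he⟩ := H.dec ((2 ^ k : ℕ) • v) ⟨v, rfl⟩
      rw [he, D.δ_add]
      have hw' : D.δ g w = 0 := by rw [δ_def, mem_X.1 hg1 w hw, sub_self]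
      rw [hw', add_zero]
      have : D.δ g (n • p) = n • D.δ g p := by
        simp only [δ_def, map_zsmul, smul_sub]
      rw [this]
      exact AddSubgroup.zsmul_mem _ hin n
    exact inj_level L hv
  -- decomposition of `δ g p`
  have hδP : D.δ g p ∈ (Dbl (2 ^ k) : AddSubgroup V) := (Dbl (2 ^ k)).sub_mem (hPinv g p H.pP) H.pP
  obtain ⟨l, w₁, hw₁, hl⟩ := H.dec _ hδP
  have hcC := H.cC
  have hzp : ∀ n : ℤ, n • c = (2 * n) • p := by
    intro n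
    rw [H.cp, two_nsmul, two_mul, add_zsmul, smul_add]
  have h2pC : ∀ n : ℤ, ((2 : ℤ) * n) • p ∈ (Dbl (2 ^ (k + 1)) : AddSubgroup V) := by
    intro n
    rw [← hzp]
    exact AddSubgroup.zsmul_mem _ hcC n
  -- `l` is even
  have hleven : Even l := by
    by_contra hodd
    rw [Int.not_even_iff_odd] at hodd
    obtain ⟨l', rfl⟩ := hodd
    -- `g p` is in `C + w₁`
    have h3 : D.ρ g p = ((2 : ℤ) * (l' + 1)) • p + w₁ := by
      rw [D.ρ_eq, hl]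
      simp only [mul_add, add_zsmul, mul_one, one_zsmul]
      abel
    have h4 : D.ρ g⁻¹ w₁ = w₁ := by
      have := mem_X.1 ((X D).inv_mem hg1) w₁ hw₁
      exact this
    have h5 : p = D.ρ g⁻¹ (((2 : ℤ) * (l' + 1)) • p) + w₁ := by
      have := congrArg (D.ρ g⁻¹) h3
      rwa [D.ρ_inv_ρ, map_add, h4] at this
    have h6 : D.ρ g⁻¹ (((2 : ℤ) * (l' + 1)) • p) ∈ (Dbl (2 ^ (k + 1)) : AddSubgroup V) :=
      hCinv _ _ (h2pC _)
    obtain ⟨n, hn⟩ := H.gen _ h6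
    have h7 : c = (2 * n) • c := by
      calc c = (2 : ℕ) • p := H.cp
        _ = (2 : ℕ) • (n • c + w₁) := by rw [← hn, ← h5]
        _ = (2 : ℕ) • (n • c) + (2 : ℕ) • w₁ := by rw [smul_add]
        _ = (2 * n) • c := by
          rw [hw₁, add_zero, ← natCast_zsmul, ← mul_zsmul']
          simp [mul_comm]
    have h8 := odd_mul_eq_zero hM h7
    obtain ⟨n₀, hn₀⟩ := H.gen _ H.zC
    rw [h8, smul_zero] at hn₀
    exact H.z0 hn₀
  obtain ⟨l', hl'⟩ := hleven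
  have hw₁C : w₁ ∉ (Dbl (2 ^ (k + 1)) : AddSubgroup V) := by
    intro h
    apply h1
    rw [hl, hl', ← two_mul]
    exact AddSubgroup.add_mem _ (h2pC _) h
  -- normal forms
  obtain ⟨n₀, hn₀⟩ := H.gen _ H.zC
  obtain ⟨n₁, hn₁⟩ := H.τp
  have hgp : ∃ L : ℤ, D.ρ g p = (1 + 2 * L) • p + e := by
    rcases H.cov w₁ hw₁ with h | h | h | h
    · exact absurd (h ▸ zero_mem _) hw₁C
    · exact absurd (h ▸ H.zC) hw₁C
    · refine ⟨l', ?_⟩
      rw [D.ρ_eq, hl, hl', h]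
      module
    · refine ⟨l' + n₀, ?_⟩
      rw [D.ρ_eq, hl, hl', h, hn₀, hzp]
      module
  obtain ⟨L', hL'⟩ := hgp
  have hτp : D.ρ τ p = (1 + 2 * n₁) • p := by
    rw [hn₁, hzp, add_zsmul, one_zsmul]
  have h9 : D.ρ τ (D.ρ g p) = (1 + 2 * L') • ((1 + 2 * n₁) • p) + (e + z) := by
    rw [hL', map_add, map_zsmul, hτp, H.τe]
  have h10 : D.ρ g (D.ρ τ p) = (1 + 2 * n₁) • ((1 + 2 * L') • p + e) := by
    rw [hτp, map_zsmul, hL']
  have he1 : (1 + 2 * n₁) • e = e := by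
    have : e + e = 0 := by rw [← two_nsmul]; exact H.e2
    have h' : (1 + 2 * n₁) • e = e + n₁ • (e + e) := by module
    rw [h', this, smul_zero, add_zero]
  rw [h9, h10, smul_add, he1, smul_comm] at hcomm
  have h11 : z = 0 := by
    have h12 := add_left_cancel hcomm
    simpa using h12
  exact H.z0 h11

end Cfsg.Agent.Lib.SelfCentE8.Level
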