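import Cfsg.Agent.Lib.SelfCentE8.Sel2
import Cfsg.Agent.Lib.Involutions2.NormalFour
import Cfsg.Agent.Lib.PGroups.MaxAbelian

/-!
# Self-centralizing `E₈` and no normal `E₈`: sectional rank at most 4
-/

set_option autoImplicit false
set_option linter.unusedSectionVars false

namespace Cfsg.Agent.Lib.SelfCentE8.R2

open Cfsg.Agent.Lib.TwoFusion.SecRank Cfsg.Agent.Lib.SelfCentE8.Setup Cfsg.Agent.Lib.SelfCentE8.Count
open Cfsg.Agent.Lib.SelfCentE8.TCore Cfsg.Agent.Lib.SelfCentE8.Level Cfsg.Agent.Lib.SelfCentE8.N1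
open Mod

variable {S : Type*} [Group S]

/-- A commutative group structure on an abelian subgroup. -/
@[reducible] def commOf (B : Subgroup S) (hc : ∀ x ∈ B, ∀ y ∈ B, x * y = y * x) : CommGroup B :=
  { (inferInstance : Group B) with
    mul_comm := fun x y => Subtype.ext (hc x x.2 y y.2) }

/-- The module of an abelian normal self-centralizing subgroup. -/
def modOf (B : Subgroup S) (hn : B.Normal) (hc : ∀ x ∈ B, ∀ y ∈ B, x * y = y * x)
    (hcent : ∀ x, (∀ b ∈ B, x * b = b * x) → x ∈ B) :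
    @Mod S (Additive B) _ (@Additive.addCommGroup B (commOf B hc)) :=
  letI := commOf B hc
  { ι := fun v => ((Additive.toMul v : B) : S)
    ι_add := fun _ _ => rfl
    ι_inj := fun _ _ h => Additive.toMul.injective (Subtype.ext h)
    ρ := fun x =>
      { toFun := fun v => Additive.ofMul ⟨x * ((Additive.toMul v : B) : S) * x⁻¹, hn.conj_mem _ (Additive.toMul v).2 x⟩
        map_zero' := by
          apply Additive.toMul.injective
          apply Subtype.ext
          change x * 1 * x⁻¹ = 1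
          group
        map_add' := by
          intro u v
          apply Additive.toMul.injective
          apply Subtype.ext
          change x * (((Additive.toMul u : B) : S) * ((Additive.toMul v : B) : S)) * x⁻¹ =
            (x * ((Additive.toMul u : B) : S) * x⁻¹) * (x * ((Additive.toMul v : B) : S) * x⁻¹)
          group }
    conj := fun _ _ => rfl
    cent := by
      intro x hx
      have h1 : x ∈ B := by
        apply hcent
        intro b hb
        have h2 := hx (Additive.ofMul ⟨b, hb⟩)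
        have h3 : x * b * x⁻¹ = b := congrArg (fun v : Additive B => ((Additive.toMul v : B) : S)) h2
        calc x * b = (x * b * x⁻¹) * x := by group
          _ = b * x := by rw [h3]
      exact ⟨Additive.ofMul ⟨x, h1⟩, rfl⟩ }

/-- A normal four-group from the central pair. -/
lemma exists_normal_four [Finite S] (hS : IsPGroup 2 S) (A : Subgroup S) (hA2 : ∀ a ∈ A, a * a = 1)
    (hA8 : Nat.card A = 8) : ∃ W : Subgroup S, W.Normal ∧ Nat.card W = 4 ∧ ∀ x ∈ W, x * x = 1 := by
  obtain ⟨w, v, hw1, hv1, hvw, hw2, hv2, hwc, hvc⟩ := Cfsg.Agent.Lib.Involutions2.NormalFour.exists_central_pair hS A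
    (by omega) (fun e he => by rw [sq]; exact hA2 e he)
  rw [sq] at hw2 hv2
  have hcomm : w * v = v * w := (hwc v).symm
  have e1 : w * (v * w) = v := by rw [← mul_assoc, hcomm, mul_assoc, hw2, mul_one]
  have e2 : v * (v * w) = w := by rw [← mul_assoc, hv2, one_mul]
  have e3 : v * w * w = v := by rw [mul_assoc, hw2, mul_one]
  have e4 : v * w * v = w := by rw [← hcomm, mul_assoc, hv2, mul_one]
  have e5 : v * w * (v * w) = 1 := by rw [← mul_assoc, e4, hw2]
  let W : Subgroup S :=
    { carrier := {x | x = 1 ∨ x = w ∨ x = v ∨ x = v * w}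
      mul_mem' := by
        rintro x y (rfl | rfl | rfl | rfl) (rfl | rfl | rfl | rfl) <;>
          simp only [one_mul, mul_one, Set.mem_ofPred_eq, hw2, hv2, hcomm, e1, e2, e3, e4, e5, true_or, or_true]
      one_mem' := Or.inl rfl
      inv_mem' := by
        rintro x (rfl | rfl | rfl | rfl)
        · simp
        · rw [inv_eq_of_mul_eq_one_left hw2]; exact Or.inr (Or.inl rfl)
        · rw [inv_eq_of_mul_eq_one_left hv2]; exact Or.inr (Or.inr (Or.inl rfl))
        · rw [inv_eq_of_mul_eq_one_left e5]; exact Or.inr (Or.inr (Or.inr rfl)) }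
  refine ⟨W, ?_, ?_, ?_⟩
  · constructor
    rintro x (rfl | rfl | rfl | rfl) g
    · left; group
    · right; left
      rw [hwc g]
      group
    · rcases hvc g with h | h
      · right; right; left; exact h
      · right; right; right; exact h
    · have e : g * (v * w) * g⁻¹ = (g * v * g⁻¹) * w := by
        have h5 : g⁻¹ * w = w * g⁻¹ := hwc g⁻¹
        calc g * (v * w) * g⁻¹ = g * v * (w * g⁻¹) := by group
          _ = g * v * (g⁻¹ * w) := by rw [h5]
          _ = _ := by group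
      rw [e]
      rcases hvc g with h | h
      · right; right; right; rw [h]
      · right; right; left; rw [h, e3]
  · have h0 : Nat.card W = ({1, w, v, v * w} : Set S).ncard := Nat.card_coe_set_eq _
    have h1 : v ≠ v * w := fun h => hw1 (mul_eq_left.1 h.symm)
    have h2 : w ∉ ({v, v * w} : Set S) := by
      rintro (h | h)
      · exact hvw h.symm
      · exact hv1 (mul_eq_right.1 h.symm)
    have h3 : (1 : S) ∉ ({w, v, v * w} : Set S) := by
      rintro (h | h | h)
      · exact hw1 h.symm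
      · exact hv1 h.symm
      · apply hvw
        have h4 : v * w = w * w := by rw [← h, hw2]
        exact mul_right_cancel h4
    rw [h0, Set.ncard_insert_of_notMem h3, Set.ncard_insert_of_notMem h2, Set.ncard_pair h1]
  · rintro x (rfl | rfl | rfl | rfl)
    · simp
    · exact hw2
    · exact hv2
    · exact e5

/-- The main step: a maximal normal abelian subgroup above `N`. -/
theorem main_step [Finite S] (hS : IsPGroup 2 S) (A : Subgroup S) (hA2 : ∀ a ∈ A, a * a = 1) (hA8 : Nat.card A = 8)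
    (hAc : ∀ x, (∀ a ∈ A, x * a = a * x) → x ∈ A) (hE8 : NoE8 S) (N W : Subgroup S) (hNn : N.Normal)
    (hNc : ∀ x ∈ N, ∀ y ∈ N, x * y = y * x) (hWN : W ≤ N) (hW4 : Nat.card W = 4) (hWel : ∀ w ∈ W, w * w = 1)
    (hZ : (∀ w ∈ W, ∃ u ∈ N, u * u = w) ∨ NoZ44 S) : SecBd 4 S := by
  classical
  haveI : Fact (Nat.Prime 2) := ⟨Nat.prime_two⟩
  let PP : Subgroup S → Prop := fun B => B.Normal ∧ ∀ x ∈ B, ∀ y ∈ B, x * y = y * x
  obtain ⟨B, hNB, hBmax⟩ := Finite.exists_le_maximal (p := PP) (a := N) ⟨hNn, hNc⟩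
  obtain ⟨hBn, hBc⟩ := hBmax.prop
  have hCB : Subgroup.centralizer (B : Set S) = B := by
    haveI := hBn
    apply Cfsg.Agent.Lib.PGroups.MaxAbelian.centralizer_eq_of_maximal hS B ⟨⟨fun x y => Subtype.ext (hBc x x.2 y y.2)⟩⟩
    intro B' hB'n hB'c hle
    refine le_antisymm (hBmax.2 ⟨hB'n, ?_⟩ hle) hle
    intro x hx y hy
    exact congrArg Subtype.val (hB'c.is_comm.comm ⟨x, hx⟩ ⟨y, hy⟩)
  have hcent : ∀ x, (∀ b ∈ B, x * b = b * x) → x ∈ B := by
    intro x hx
    rw [← SetLike.mem_coe, ← hCB, SetLike.mem_coe, Subgroup.mem_centralizer_iff]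
    intro b hb
    exact (hx b hb).symm
  letI := commOf B hBc
  let D := modOf B hBn hBc hcent
  have hΩn : (Bsub D (Tor 2)).Normal := by
    constructor
    rintro _ ⟨t, ht, rfl⟩ g
    exact ⟨D.ρ g t, D.inv_Tor 2 g t ht, D.conj g t⟩
  have hΩel : ∀ x ∈ Bsub D (Tor 2), x * x = 1 := by
    rintro _ ⟨t, ht, rfl⟩
    rw [← D.ι_add, ← two_nsmul, show (2 : ℕ) • t = 0 from ht, D.ι_zero]
  have h4 := hE8 _ hΩn hΩel
  have hWΩ : W ≤ Bsub D (Tor 2) := by
    intro w hw
    have hwB : w ∈ B := hNB (hWN hw)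
    refine ⟨Additive.ofMul ⟨w, hwB⟩, ?_, rfl⟩
    change (2 : ℕ) • Additive.ofMul (⟨w, hwB⟩ : B) = 0
    apply D.ι_eq_one.1
    rw [two_nsmul, D.ι_add]
    exact hWel w hw
  have hΩ4 : Nat.card (Bsub D (Tor 2)) = 4 := by
    have := Subgroup.card_le_of_le hWΩ
    omega
  have hcard : Nat.card (Tor 2 : AddSubgroup (Additive B)) = 4 := by
    rw [← hΩ4, card_Bsub]
  have hΩW : Bsub D (Tor 2) = W := (Subgroup.eq_of_le_of_card_ge hWΩ (by omega)).symm
  obtain ⟨M, hM⟩ := exists_exp D hS
  have hne : ∃ e : Additive B, (2 : ℕ) • e = 0 ∧ e ≠ 0 := by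
    by_contra h
    push Not at h
    have h1 : (Tor 2 : AddSubgroup (Additive B)) = ⊥ := by
      rw [eq_bot_iff]
      intro w hw
      exact h w hw
    rw [h1, AddSubgroup.card_bot] at hcard
    omega
  obtain ⟨k, L⟩ := exists_lev hM hne
  by_cases hk : 1 ≤ k
  · exact Cfsg.Agent.Lib.SelfCentE8.Sel2.secBd_of_Mod hS hcard A hA2 hA8 hAc L hk D
  · obtain rfl : k = 0 := by omega
    rcases hZ with hZ | hZ
    · exfalso
      obtain ⟨e, he2, he⟩ := L.ex
      have h1 : D.ι e ∈ W := by
        rw [← hΩW]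
        exact ⟨e, he2, rfl⟩
      obtain ⟨u, huN, hu⟩ := hZ _ h1
      apply he
      refine ⟨Additive.ofMul ⟨u, hNB huN⟩, ?_⟩
      change (2 ^ (0 + 1) : ℕ) • Additive.ofMul (⟨u, hNB huN⟩ : B) = e
      apply D.ι_inj
      rw [← hu]
      simp only [zero_add, pow_one]
      rw [two_nsmul, D.ι_add]
      rfl
    · exact secBd_N1 D hS hcard L hE8 hZ

/-- **R2**: no normal `E₈`. -/
theorem main [Finite S] (hS : IsPGroup 2 S) (A : Subgroup S) (hA2 : ∀ a ∈ A, a * a = 1) (hA8 : Nat.card A = 8)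
    (hAc : ∀ x, (∀ a ∈ A, x * a = a * x) → x ∈ A) (hE8 : NoE8 S) : SecBd 4 S := by
  by_cases hZ : NoZ44 S
  · obtain ⟨W, hWn, hW4, hWel⟩ := exists_normal_four hS A hA2 hA8
    refine main_step hS A hA2 hA8 hAc hE8 W W hWn ?_ le_rfl hW4 hWel (Or.inr hZ)
    intro x hx y hy
    exact Cfsg.Agent.Lib.TwoFusion.SelfCentE16.comm_of_el hWel hx hy
  · unfold NoZ44 at hZ
    push Not at hZ
    obtain ⟨N, hNn, hNc, W, hWN, hW4, hWel, hsq⟩ := hZ
    exact main_step hS A hA2 hA8 hAc hE8 N W hNn hNc hWN hW4 hWel (Or.inl hsq)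

end Cfsg.Agent.Lib.SelfCentE8.R2
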