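import Cfsg.Agent.Lib.SelfCentE8.Setup
import Cfsg.Agent.Lib.TwoFusion.SelfCentE16

/-!
# Counting tools for sections
-/

set_option autoImplicit false

namespace Cfsg.Agent.Lib.SelfCentE8.Count

open Cfsg.Agent.Lib.TwoFusion.SecRank Cfsg.Agent.Lib.SelfCentE8.Setup

section
variable {S : Type*} [Group S] [Finite S]

/-- The basic step: pass to a normal subgroup and its quotient. -/
lemma relIndex_le_sup (N : Subgroup S) [N.Normal] {H K : Subgroup S} (_hKH : K ≤ H) :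
    N.relIndex H ≤ (K ⊔ N).relIndex H * N.relIndex K := by
  have hN : N ≤ K ⊔ N := le_sup_right
  have h1 : (N ⊓ H).relIndex ((K ⊔ N) ⊓ H) * ((K ⊔ N) ⊓ H).relIndex H = (N ⊓ H).relIndex H :=
    Subgroup.relIndex_mul_relIndex _ _ _ (inf_le_inf_right _ hN) inf_le_right
  rw [Subgroup.inf_relIndex_right, Subgroup.inf_relIndex_right] at h1
  have h2 : (N ⊓ H).relIndex ((K ⊔ N) ⊓ H) = N.relIndex ((K ⊔ N) ⊓ H) := by
    have : (N ⊓ H) ⊓ ((K ⊔ N) ⊓ H) = N ⊓ ((K ⊔ N) ⊓ H) := by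
      ext x
      simp only [Subgroup.mem_inf]
      tauto
    rw [← Subgroup.inf_relIndex_right (N ⊓ H), this, Subgroup.inf_relIndex_right]
  have h3 : N.relIndex ((K ⊔ N) ⊓ H) ≤ N.relIndex (K ⊔ N) :=
    Subgroup.relIndex_le_of_le_right inf_le_left Subgroup.index_ne_zero_of_finite
  have h4 : N.relIndex (K ⊔ N) = N.relIndex K := Subgroup.relIndex_sup_right _ _
  rw [← h1, mul_comm, h2]
  exact Nat.mul_le_mul_left _ (h4 ▸ h3)

/-- The main counting step. -/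
lemma card_le_step (N : Subgroup S) [N.Normal] {H K : Subgroup S} (hKH : K ≤ H) {a b : ℕ}
    (ha : Nat.card (N ⊓ H : Subgroup S) ≤ a * Nat.card (N ⊓ K : Subgroup S))
    (hb : (K ⊔ N).relIndex H ≤ b) : Nat.card H ≤ a * b * Nat.card K := by
  rw [card_eq_relIndex_mul_inf N H, card_eq_relIndex_mul_inf N K]
  have h1 := relIndex_le_sup N hKH
  calc N.relIndex H * Nat.card (N ⊓ H : Subgroup S)
      ≤ ((K ⊔ N).relIndex H * N.relIndex K) * (a * Nat.card (N ⊓ K : Subgroup S)) :=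
        Nat.mul_le_mul h1 ha
    _ ≤ (b * N.relIndex K) * (a * Nat.card (N ⊓ K : Subgroup S)) :=
        Nat.mul_le_mul_right _ (Nat.mul_le_mul_right _ hb)
    _ = _ := by ring

lemma relIndex_eq_mul (N : Subgroup S) (H K : Subgroup S) :
    N.relIndex H = N.relIndex ((K ⊔ N) ⊓ H) * (K ⊔ N).relIndex H := by
  have h1 : (N ⊓ H).relIndex ((K ⊔ N) ⊓ H) * ((K ⊔ N) ⊓ H).relIndex H = (N ⊓ H).relIndex H :=
    Subgroup.relIndex_mul_relIndex _ _ _ (inf_le_inf_right _ le_sup_right) inf_le_right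
  rw [Subgroup.inf_relIndex_right, Subgroup.inf_relIndex_right] at h1
  rw [← h1]
  congr 1
  have : (N ⊓ H) ⊓ ((K ⊔ N) ⊓ H) = N ⊓ ((K ⊔ N) ⊓ H) := by
    ext x
    simp only [Subgroup.mem_inf]
    tauto
  rw [← Subgroup.inf_relIndex_right (N ⊓ H), this, Subgroup.inf_relIndex_right]

lemma relIndex_sup_dvd_index (N : Subgroup S) [N.Normal] (H K : Subgroup S) :
    (K ⊔ N).relIndex H ∣ N.index :=
  (Subgroup.relIndex_dvd_of_le_left H le_sup_right).trans (Subgroup.relIndex_dvd_index_of_normal N H)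

/-- A quotient of order at most `8`, nonabelian when of order `8`, has sections of order at most `4`. -/
lemma gamma (hS : IsPGroup 2 S) (T : Subgroup S) [T.Normal] (h8 : T.index ≤ 8)
    (hnc : T.index = 8 → ∃ g₁ g₂, g₁ * g₂ * g₁⁻¹ * g₂⁻¹ ∉ T) {H K : Subgroup S} (hKH : K ≤ H)
    (hc : ∀ x ∈ H, ∀ y ∈ H, x * y * x⁻¹ * y⁻¹ ∈ K) : (K ⊔ T).relIndex H ≤ 4 := by
  by_contra hlt
  push Not at hlt
  have hd := relIndex_sup_dvd_index T H K
  obtain ⟨n, hn⟩ := IsPGroup.iff_card.1 hS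
  have hd2 : T.index ∣ 2 ^ n := hn ▸ Subgroup.index_dvd_card T
  obtain ⟨r, _, hr⟩ := (Nat.dvd_prime_pow Nat.prime_two).1 (hd.trans hd2)
  obtain ⟨i, _, hi⟩ := (Nat.dvd_prime_pow Nat.prime_two).1 hd2
  have hne : T.index ≠ 0 := Subgroup.index_ne_zero_of_finite
  have hle := Nat.le_of_dvd (Nat.pos_of_ne_zero hne) hd
  have h88 : (K ⊔ T).relIndex H = 8 := by
    rw [hr] at hlt ⊢
    have h1 : 2 ^ r ≤ 8 := by omega
    have h2 : r ≤ 3 := by
      by_contra h
      push Not at h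
      have : 2 ^ 4 ≤ 2 ^ r := Nat.pow_le_pow_right (by norm_num) h
      omega
    interval_cases r <;> omega
  have hT8 : T.index = 8 := by omega
  obtain ⟨g₁, g₂, hg⟩ := hnc hT8
  have hT1 := relIndex_eq_mul T H K
  have hT2 : T.relIndex H ∣ T.index := Subgroup.relIndex_dvd_index_of_normal T H
  have hT3 := Nat.le_of_dvd (Nat.pos_of_ne_zero hne) hT2
  rw [h88] at hT1
  have hpos : T.relIndex ((K ⊔ T) ⊓ H) ≠ 0 := Subgroup.index_ne_zero_of_finite
  have hT4 : T.relIndex ((K ⊔ T) ⊓ H) = 1 := by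
    have : 1 ≤ T.relIndex ((K ⊔ T) ⊓ H) := Nat.pos_of_ne_zero hpos
    omega
  have hT5 : T.relIndex H = 8 := by rw [hT1, hT4]
  have hKT : K ≤ T := by
    intro k hk
    have h1 : (K ⊔ T) ⊓ H ≤ T := Subgroup.relIndex_eq_one.1 hT4
    exact h1 ⟨Subgroup.mem_sup_left hk, hKH hk⟩
  have htop : H ⊔ T = ⊤ := by
    have h1 : T.relIndex (H ⊔ T) = 8 := by rw [Subgroup.relIndex_sup_right, hT5]
    have h2 := Subgroup.relIndex_mul_index (le_sup_right : T ≤ H ⊔ T)
    rw [h1, hT8] at h2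
    have h3 : (H ⊔ T).index = 1 := by omega
    exact Subgroup.index_eq_one.1 h3
  have hmem : ∀ g : S, ∃ h ∈ H, ∃ t ∈ T, g = h * t := by
    intro g
    have hg' : g ∈ ((H ⊔ T : Subgroup S) : Set S) := by
      rw [htop]
      exact Subgroup.mem_top g
    rw [Subgroup.mul_normal, Set.mem_mul] at hg'
    obtain ⟨h, hh, t, ht, rfl⟩ := hg'
    exact ⟨h, hh, t, ht, rfl⟩
  obtain ⟨h₁, hh₁, t₁, ht₁, rfl⟩ := hmem g₁
  obtain ⟨h₂, hh₂, t₂, ht₂, rfl⟩ := hmem g₂
  apply hg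
  rw [← QuotientGroup.eq_one_iff]
  have e1 : (QuotientGroup.mk t₁ : S ⧸ T) = 1 := (QuotientGroup.eq_one_iff _).2 ht₁
  have e2 : (QuotientGroup.mk t₂ : S ⧸ T) = 1 := (QuotientGroup.eq_one_iff _).2 ht₂
  have e3 : (QuotientGroup.mk (h₁ * h₂ * h₁⁻¹ * h₂⁻¹) : S ⧸ T) = 1 :=
    (QuotientGroup.eq_one_iff _).2 (hKT (hc _ hh₁ _ hh₂))
  simp only [QuotientGroup.mk_mul, QuotientGroup.mk_inv, e1, e2, mul_one, inv_one] at e3 ⊢
  exact e3

end

section
variable {S V : Type*} [Group S] [AddCommGroup V] (D : Mod S V)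

/-- The pullback of a subgroup to `V`. -/
def pull (H : Subgroup S) : AddSubgroup V where
  carrier := {v | D.ι v ∈ H}
  add_mem' := by
    intro u v hu hv
    change D.ι (u + v) ∈ H
    rw [D.ι_add]
    exact H.mul_mem hu hv
  zero_mem' := by
    change D.ι 0 ∈ H
    rw [D.ι_zero]
    exact H.one_mem
  neg_mem' := by
    intro u hu
    change D.ι (-u) ∈ H
    rw [D.ι_neg]
    exact H.inv_mem hu

lemma mem_pull {H : Subgroup S} {v : V} : v ∈ pull D H ↔ D.ι v ∈ H := Iff.rfl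

lemma card_pull (H : Subgroup S) : Nat.card (pull D H) = Nat.card (D.B ⊓ H : Subgroup S) := by
  refine Nat.card_congr (Equiv.ofBijective (fun v : pull D H => (⟨D.ι v, D.ι_mem v, v.2⟩ : (D.B ⊓ H : Subgroup S))) ⟨?_, ?_⟩)
  · intro u v h
    exact Subtype.ext (D.ι_inj (congrArg Subtype.val h))
  · rintro ⟨x, ⟨v, rfl⟩, hv⟩
    exact ⟨⟨v, hv⟩, rfl⟩

variable [Finite V]

/-- Rank bound: `|B₀| ≤ |V[2]| |K₀|` if `2 B₀ ≤ K₀`. -/
lemma card_le_of_double {B₀ K₀ : AddSubgroup V} (h : ∀ v ∈ B₀, (2 : ℕ) • v ∈ K₀) :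
    Nat.card B₀ ≤ Nat.card (Mod.Tor 2 : AddSubgroup V) * Nat.card K₀ := by
  let f : B₀ →+ K₀ :=
    { toFun := fun v => ⟨(2 : ℕ) • (v : V), h v v.2⟩
      map_zero' := by ext; simp
      map_add' := by intro u v; ext; simp }
  have h1 : Nat.card f.ker ≤ Nat.card (Mod.Tor 2 : AddSubgroup V) := by
    apply Nat.card_le_card_of_injective (fun u : f.ker => (⟨(u : B₀), by
      have := u.2
      rw [AddMonoidHom.mem_ker] at this
      exact congrArg Subtype.val this⟩ : (Mod.Tor 2 : AddSubgroup V)))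
    intro u v huv
    have h0 := congrArg (fun w : (Mod.Tor 2 : AddSubgroup V) => (w : V)) huv
    exact Subtype.ext (Subtype.ext h0)
  have h2 : Nat.card f.ker * Nat.card f.range = Nat.card B₀ := by
    rw [← AddSubgroup.index_ker]
    exact AddSubgroup.card_mul_index _
  have h3 : Nat.card f.range ≤ Nat.card K₀ :=
    Nat.card_le_card_of_injective Subtype.val Subtype.val_injective
  rw [← h2]
  exact Nat.mul_le_mul h1 h3

lemma card_Tor_mul_Dbl : Nat.card (Mod.Tor 2 : AddSubgroup V) * Nat.card (Mod.Dbl 2 : AddSubgroup V) = Nat.card V := by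
  have := AddSubgroup.card_mul_index (nsmulAddMonoidHom 2 : V →+ V).ker
  rw [AddSubgroup.index_ker] at this
  exact this

end

end Cfsg.Agent.Lib.SelfCentE8.Count
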