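import Cfsg.Agent.Lib.SelfCentE8.TCount
import Cfsg.Agent.Lib.PGroups.NormalRankTwo

/-!
# The action on `V[2]` and on `V/2V`
-/

set_option autoImplicit false
set_option linter.unusedSectionVars false

namespace Cfsg.Agent.Lib.SelfCentE8.Gamma

open Cfsg.Agent.Lib.TwoFusion.SecRank Cfsg.Agent.Lib.SelfCentE8.Setup Cfsg.Agent.Lib.SelfCentE8.Count
open Cfsg.Agent.Lib.SelfCentE8.TCore Cfsg.Agent.Lib.SelfCentE8.TCount
open Mod

section generic
variable {S G : Type*} [Group S] [Finite S] [AddCommGroup G] [Finite G]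

/-- A 2-group acting on a group of order 4 has a nonzero fixed vector. -/
lemma exists_fixed (hS : IsPGroup 2 S) (hcard : Nat.card G = 4) (r : S → G → G) (h1 : ∀ g, r 1 g = g)
    (hm : ∀ x y g, r (x * y) g = r x (r y g)) (h0 : ∀ x, r x 0 = 0) : ∃ z : G, z ≠ 0 ∧ ∀ x, r x z = z := by
  classical
  have hf2 : Fact (Nat.Prime 2) := ⟨Nat.prime_two⟩
  let _ : MulAction S G :=
    { smul := r
      one_smul := h1
      mul_smul := hm }
  have hfix : (0 : G) ∈ MulAction.fixedPoints S G := fun x => h0 x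
  have hd : 2 ∣ Nat.card G := by omega
  have _ := Fintype.ofFinite G
  obtain ⟨b, hb, hne⟩ := IsPGroup.exists_fixed_point_of_prime_dvd_card_of_fixed_point hS G hd hfix
  exact ⟨b, hne.symm, fun x => hb x⟩

/-- The kernel of such an action has index at most 2. -/
lemma index_le_two (hS : IsPGroup 2 S) (hcard : Nat.card G = 4) (h2 : ∀ g : G, g + g = 0) (r : S → G → G)
    (h1 : ∀ g, r 1 g = g) (hm : ∀ x y g, r (x * y) g = r x (r y g)) (h0 : ∀ x, r x 0 = 0)
    (ha : ∀ x u v, r x (u + v) = r x u + r x v)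
    (C : Subgroup S) (hC : ∀ x, (∀ g, r x g = g) → x ∈ C) : C.index ≤ 2 := by
  classical
  obtain ⟨z, hz0, hz⟩ := exists_fixed hS hcard r h1 hm h0
  by_cases hex : ∃ e : G, e ≠ 0 ∧ e ≠ z
  · obtain ⟨e, he0, hez⟩ := hex
    have hcov := fun t => klein_cover hcard h2 hz0 he0 hez.symm t
    have hinj : ∀ x u v, r x u = r x v → u = v := by
      intro x u v h
      have := congrArg (r x⁻¹) h
      rwa [← hm, ← hm, inv_mul_cancel, h1, h1] at this
    have hrx : ∀ x, r x e = e ∨ r x e = z + e := by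
      intro x
      rcases hcov (r x e) with h | h | h | h
      · exact absurd (hinj x e 0 (h.trans (h0 x).symm)) he0
      · exact absurd (hinj x e z (h.trans (hz x).symm)) hez
      · exact Or.inl h
      · exact Or.inr h
    have hle := index_le_of_fun C (fun x => decide (r x e = e)) (fun x y hxy => by
      have h3 : r x e = r y e := by
        have h4 : (r x e = e) ↔ (r y e = e) := by simpa using hxy
        rcases hrx x with h | h <;> rcases hrx y with h' | h'
        · rw [h, h']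
        · exfalso
          have : r y e = e := h4.1 h
          rw [this] at h'
          have hz' : z = 0 := by
            have := h'.symm
            simpa using this
          exact hz0 hz'
        · exfalso
          have : r x e = e := h4.2 h'
          rw [this] at h
          have hz' : z = 0 := by
            have := h.symm
            simpa using this
          exact hz0 hz'
        · rw [h, h']
      apply hC
      intro g
      have h5 : r (x⁻¹ * y) e = e := by
        rw [hm, ← h3, ← hm, inv_mul_cancel, h1]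
      have h6 : r (x⁻¹ * y) z = z := hz _
      rcases hcov g with h | h | h | h
      · rw [h, h0]
      · rw [h, h6]
      · rw [h, h5]
      · rw [h, ha, h5, h6])
    simpa using hle
  · push Not at hex
    have hC' : C = ⊤ := by
      rw [eq_top_iff]
      rintro x -
      apply hC
      intro g
      by_cases hg : g = 0
      · rw [hg, h0]
      · rw [hex g hg, hz]
    rw [hC', Subgroup.index_top]
    norm_num

end generic

variable {S V : Type*} [Group S] [AddCommGroup V] {D : Mod S V}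

/-- The action on `V/2V`. -/
def ρQ (D : Mod S V) (x : S) : Q V →+ Q V :=
  QuotientAddGroup.map (Dbl 2) (Dbl 2) (D.ρ x) (fun v hv => D.inv_Dbl 2 x v hv)

@[simp] lemma ρQ_mk (x : S) (v : V) : ρQ D x (mkQ v) = mkQ (D.ρ x v) := rfl

lemma ρQ_one (q : Q V) : ρQ D 1 q = q := by
  obtain ⟨v, rfl⟩ := QuotientAddGroup.mk_surjective q
  change mkQ (D.ρ 1 v) = mkQ v
  rw [D.ρ_one]

lemma ρQ_mul (x y : S) (q : Q V) : ρQ D (x * y) q = ρQ D x (ρQ D y q) := by
  obtain ⟨v, rfl⟩ := QuotientAddGroup.mk_surjective q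
  change mkQ (D.ρ (x * y) v) = mkQ (D.ρ x (D.ρ y v))
  rw [D.ρ_mul]

lemma mem_S1_iff_Q [Finite V] {x : S} : x ∈ S1 D ↔ ∀ q, ρQ D x q = q := by
  constructor
  · intro h q
    obtain ⟨v, rfl⟩ := QuotientAddGroup.mk_surjective q
    change mkQ (D.ρ x v) = mkQ v
    exact mkQ_eq.2 (h v trivial)
  · intro h v _
    exact mkQ_eq.1 (h (mkQ v))

/-- The action on `V[2]`. -/
def ρW (D : Mod S V) (x : S) (w : (Tor 2 : AddSubgroup V)) : (Tor 2 : AddSubgroup V) :=
  ⟨D.ρ x w, D.inv_Tor 2 x w w.2⟩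

section idx
variable [Finite S] [Finite V]

lemma index_X_le (hS : IsPGroup 2 S) (hW : Nat.card (Tor 2 : AddSubgroup V) = 4) : (X D).index ≤ 2 := by
  apply index_le_two hS hW (fun g => Subtype.ext (by
      have : (2 : ℕ) • (g : V) = 0 := g.2
      rw [AddSubgroup.coe_add, ← two_nsmul]; exact this)) (ρW D)
  · intro g; exact Subtype.ext (D.ρ_one _)
  · intro x y g; exact Subtype.ext (D.ρ_mul _ _ _)
  · intro x; exact Subtype.ext (map_zero _)
  · intro x u v; exact Subtype.ext (map_add _ _ _)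
  · intro x h
    refine mem_X.2 (fun w hw => ?_)
    exact congrArg Subtype.val (h ⟨w, hw⟩)

lemma index_S1_le (hS : IsPGroup 2 S) (hW : Nat.card (Tor 2 : AddSubgroup V) = 4) : (S1 D).index ≤ 2 := by
  apply index_le_two hS (card_Q hW) Q_two (fun x q => ρQ D x q) ρQ_one ρQ_mul
  · intro x; exact map_zero _
  · intro x u v; exact map_add _ _ _
  · intro x h
    exact mem_S1_iff_Q.2 h

/-- Sections of `S/T'` when `T'` has index at most 2 in `Y`. -/
lemma gamma_Y (hS : IsPGroup 2 S) (hW : Nat.card (Tor 2 : AddSubgroup V) = 4) (T' : Subgroup S) [T'.Normal]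
    (hT'Y : T' ≤ X D ⊓ S1 D) (hYT : T'.relIndex (X D ⊓ S1 D) ≤ 2)
    (hG2 : ∀ τ ∈ S1 D, τ ∉ X D → ∀ g ∈ X D, g ∉ S1 D → τ * g * τ⁻¹ * g⁻¹ ∉ T') {H K : Subgroup S}
    (hKH : K ≤ H) (hc : ∀ x ∈ H, ∀ y ∈ H, x * y * x⁻¹ * y⁻¹ ∈ K) : (K ⊔ T').relIndex H ≤ 4 := by
  have hX := index_X_le (D := D) hS hW
  have hS1 := index_S1_le (D := D) hS hW
  have hY4 : (X D ⊓ S1 D).index ≤ (X D).index * (S1 D).index := Subgroup.index_inf_le
  have hmul := Subgroup.relIndex_mul_index hT'Y
  have hYpos : (X D ⊓ S1 D).index ≠ 0 := Subgroup.index_ne_zero_of_finite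
  apply gamma hS T'
  · rw [← hmul]
    calc _ ≤ 2 * ((X D).index * (S1 D).index) := Nat.mul_le_mul hYT hY4
      _ ≤ 2 * (2 * 2) := by gcongr
      _ = 8 := by norm_num
  · intro h8
    have hY : (X D ⊓ S1 D).index = 4 := by
      have h1 : (X D ⊓ S1 D).index ≤ 4 := hY4.trans (by
        calc _ ≤ 2 * 2 := Nat.mul_le_mul hX hS1
          _ = 4 := by norm_num)
      rw [← hmul] at h8
      by_contra h2
      have : (X D ⊓ S1 D).index ≤ 3 := by omega
      have : T'.relIndex (X D ⊓ S1 D) * (X D ⊓ S1 D).index ≤ 2 * 3 := Nat.mul_le_mul hYT this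
      omega
    have h1 : ¬ S1 D ≤ X D := by
      intro h
      rw [inf_of_le_right h] at hY
      omega
    have h2 : ¬ X D ≤ S1 D := by
      intro h
      rw [inf_of_le_left h] at hY
      omega
    obtain ⟨τ, hτ1, hτ2⟩ := SetLike.not_le_iff_exists.1 h1
    obtain ⟨g, hg1, hg2⟩ := SetLike.not_le_iff_exists.1 h2
    exact ⟨τ, g, hG2 τ hτ1 hτ2 g hg1 hg2⟩
  · exact hKH
  · exact hc

/-- Variant with `d`. -/
lemma gamma_Y4 (hS : IsPGroup 2 S) (hW : Nat.card (Tor 2 : AddSubgroup V) = 4) (T' : Subgroup S) [T'.Normal]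
    (hT'Y : T' ≤ X D ⊓ S1 D) (hYT : T'.relIndex (X D ⊓ S1 D) ≤ 4)
    (hS1X : S1 D ≤ X D) {y₀ : S} (hG2 : ∀ g, g ∉ S1 D → g * y₀ * g⁻¹ * y₀⁻¹ ∉ T') {H K : Subgroup S}
    (hKH : K ≤ H) (hc : ∀ x ∈ H, ∀ y ∈ H, x * y * x⁻¹ * y⁻¹ ∈ K) : (K ⊔ T').relIndex H ≤ 4 := by
  have hS1 := index_S1_le (D := D) hS hW
  have hY : X D ⊓ S1 D = S1 D := inf_of_le_right hS1X
  rw [hY] at hT'Y hYT
  have hmul := Subgroup.relIndex_mul_index hT'Y
  apply gamma hS T'
  · rw [← hmul]
    calc _ ≤ 4 * 2 := Nat.mul_le_mul hYT hS1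
      _ = 8 := by norm_num
  · intro h8
    have h1 : S1 D ≠ ⊤ := by
      intro h
      rw [h, Subgroup.index_top, mul_one] at hmul
      rw [h] at hYT
      rw [Subgroup.relIndex_top_right] at hYT
      omega
    obtain ⟨g, hg⟩ : ∃ g, g ∉ S1 D := by
      by_contra h
      push Not at h
      exact h1 (eq_top_iff.2 (fun x _ => h x))
    exact ⟨g, y₀, hG2 g hg⟩
  · exact hKH
  · exact hc

end idx

end Cfsg.Agent.Lib.SelfCentE8.Gamma
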