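import Cfsg.Agent.Lib.SelfCentE8.K2

/-!
# The branch `V[2] ≤ 2V`, `V[2] ≰ 4V`, `4V ≠ 0`
-/

set_option autoImplicit false
set_option linter.unusedSectionVars false

namespace Cfsg.Agent.Lib.SelfCentE8.K1

open Cfsg.Agent.Lib.TwoFusion.SecRank Cfsg.Agent.Lib.SelfCentE8.Setup Cfsg.Agent.Lib.SelfCentE8.Count
open Cfsg.Agent.Lib.SelfCentE8.TCore Cfsg.Agent.Lib.SelfCentE8.TCount Cfsg.Agent.Lib.SelfCentE8.Gamma
open Cfsg.Agent.Lib.SelfCentE8.Level Cfsg.Agent.Lib.SelfCentE8.Xhat Cfsg.Agent.Lib.SelfCentE8.K2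
open Mod

variable {S V : Type*} [Group S] [AddCommGroup V] {D : Mod S V}

/-- `D₂ = V[4] + 2V`. -/
def D2 (V : Type*) [AddCommGroup V] : AddSubgroup V := (Tor 4 : AddSubgroup V) ⊔ Dbl 2

lemma inv_D2 : D.Inv (D2 V) := D.inv_sup (D.inv_Tor 4) (D.inv_Dbl 2)

/-- The structure of `V/2V`: `p` is the class of `V[4]`, `q` outside. -/
structure KData (V : Type*) [AddCommGroup V] (f₀ v₀ : V) : Prop where
  f4 : (4 : ℕ) • f₀ = 0
  f2 : f₀ ∉ (Dbl 2 : AddSubgroup V)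
  v2 : v₀ ∉ D2 V

lemma Tor4_le_D2 {f : V} (h : (4 : ℕ) • f = 0) : f ∈ D2 V := AddSubgroup.mem_sup_left h
lemma Dbl2_le_D2 {f : V} (h : f ∈ (Dbl 2 : AddSubgroup V)) : f ∈ D2 V := AddSubgroup.mem_sup_right h

lemma exists_KData [Finite V] {M : ℕ} (hM : ∀ v : V, (2 ^ M : ℕ) • v = 0)
    (hW2 : ∀ w : V, (2 : ℕ) • w = 0 → ∃ u, (2 : ℕ) • u = w) (L : Lev V 1) (h4 : ∃ v : V, (4 : ℕ) • v ≠ 0) :
    ∃ f₀ v₀ : V, KData V f₀ v₀ := by
  obtain ⟨e, he, heC⟩ := L.ex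
  obtain ⟨f₀, hf₀⟩ := hW2 e he
  have hf4 : (4 : ℕ) • f₀ = 0 := by
    rw [← he, ← hf₀, ← mul_nsmul']
  have hf2 : f₀ ∉ (Dbl 2 : AddSubgroup V) := by
    rintro ⟨t, ht⟩
    have ht' : (2 : ℕ) • t = f₀ := ht
    apply heC
    refine ⟨t, ?_⟩
    change (2 ^ (1 + 1) : ℕ) • t = e
    rw [← hf₀, ← ht', ← mul_nsmul']
    norm_num
  refine ⟨f₀, ?_⟩
  by_contra hall
  push Not at hall
  have hv : ∀ v : V, v ∈ D2 V := by
    intro v
    by_contra h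
    exact hall v ⟨hf4, hf2, h⟩
  have hstep : ∀ v : V, ∃ u, (4 : ℕ) • v = (8 : ℕ) • u := by
    intro v
    obtain ⟨f, hf, d, ⟨u, hu⟩, rfl⟩ := AddSubgroup.mem_sup.1 (hv v)
    have hu' : (2 : ℕ) • u = d := hu
    have hf' : (4 : ℕ) • f = 0 := hf
    refine ⟨u, ?_⟩
    rw [smul_add, hf', zero_add, ← hu', ← mul_nsmul']
  have iter : ∀ j : ℕ, ∀ v : V, ∃ u, (4 : ℕ) • v = (2 ^ j * 4 : ℕ) • u := by
    intro j
    induction j with
    | zero => exact fun v => ⟨v, by simp⟩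
    | succ j ih =>
      intro v
      obtain ⟨u, hu⟩ := ih v
      obtain ⟨u', hu'⟩ := hstep u
      refine ⟨u', ?_⟩
      rw [hu, mul_nsmul', hu', ← mul_nsmul']
      congr 1
      rw [pow_succ]
      ring
  obtain ⟨v, hv4⟩ := h4
  obtain ⟨u, hu⟩ := iter M v
  apply hv4
  rw [hu, mul_nsmul', hM]

section kd
variable [Finite V] {f₀ v₀ : V} (hW : Nat.card (Tor 2 : AddSubgroup V) = 4) (Kd : KData V f₀ v₀)
include hW Kd

lemma kd_cover (u : V) : mkQ u = 0 ∨ mkQ u = mkQ f₀ ∨ mkQ u = mkQ v₀ ∨ mkQ u = mkQ f₀ + mkQ v₀ := by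
  have hp : mkQ f₀ ≠ 0 := fun h => Kd.f2 (mkQ_eq_zero.1 h)
  have hq : mkQ v₀ ≠ 0 := fun h => Kd.v2 (Dbl2_le_D2 (mkQ_eq_zero.1 h))
  have hpq : mkQ f₀ ≠ mkQ v₀ := by
    intro h
    have h1 := mkQ_eq.1 h.symm
    apply Kd.v2
    have e : v₀ = (v₀ - f₀) + f₀ := by abel
    rw [e]
    exact (D2 V).add_mem (Dbl2_le_D2 h1) (Tor4_le_D2 Kd.f4)
  exact klein_cover (card_Q hW) Q_two hp hq hpq (mkQ u)

lemma mem_D2_iff {u : V} : u ∈ D2 V ↔ mkQ u = 0 ∨ mkQ u = mkQ f₀ := by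
  constructor
  · intro h
    have hf := Tor4_le_D2 Kd.f4
    rcases kd_cover hW Kd u with h1 | h1 | h1 | h1
    · exact Or.inl h1
    · exact Or.inr h1
    · exfalso
      have h2 := mkQ_eq.1 h1
      apply Kd.v2
      have e : v₀ = u - (u - v₀) := by abel
      rw [e]
      exact (D2 V).sub_mem h (Dbl2_le_D2 h2)
    · exfalso
      rw [← mkQ_add] at h1
      have h2 := mkQ_eq.1 h1
      apply Kd.v2
      have e : v₀ = u - f₀ - (u - (f₀ + v₀)) := by abel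
      rw [e]
      exact (D2 V).sub_mem ((D2 V).sub_mem h hf) (Dbl2_le_D2 h2)
  · rintro (h | h)
    · exact Dbl2_le_D2 (mkQ_eq_zero.1 h)
    · have h2 := mkQ_eq.1 h
      have e : u = (u - f₀) + f₀ := by abel
      rw [e]
      exact (D2 V).add_mem (Dbl2_le_D2 h2) (Tor4_le_D2 Kd.f4)

/-- `D₂` has index two. -/
lemma sub_mem_D2 {u w : V} (hu : u ∉ D2 V) (hw : w ∉ D2 V) : u - w ∈ D2 V := by
  rw [mem_D2_iff hW Kd] at hu hw ⊢
  push Not at hu hw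
  have hQ : mkQ (u - w) = mkQ u + mkQ w := by
    rw [sub_eq_add_neg, mkQ_add, mkQ_neg]
    congr 1
    exact neg_eq_of_add_eq_zero_left (Q_two _)
  rw [hQ]
  rcases kd_cover hW Kd u with h1 | h1 | h1 | h1
  · exact absurd h1 hu.1
  · exact absurd h1 hu.2
  · rcases kd_cover hW Kd w with h2 | h2 | h2 | h2
    · exact absurd h2 hw.1
    · exact absurd h2 hw.2
    · left; rw [h1, h2, Q_two]
    · right
      rw [h1, h2]
      have := Q_two (mkQ v₀)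
      rw [add_comm (mkQ f₀), ← add_assoc, this, zero_add]
  · rcases kd_cover hW Kd w with h2 | h2 | h2 | h2
    · exact absurd h2 hw.1
    · exact absurd h2 hw.2
    · right
      rw [h1, h2, add_assoc, Q_two, add_zero]
    · left; rw [h1, h2, Q_two]

lemma D2_or (u : V) : u ∈ D2 V ∨ u - v₀ ∈ D2 V := by
  by_cases h : u ∈ D2 V
  · exact Or.inl h
  · exact Or.inr (sub_mem_D2 hW Kd h Kd.v2)

lemma mk_eq_of_D2 {u w : V} (hu : u ∈ D2 V) (hu2 : u ∉ (Dbl 2 : AddSubgroup V)) (hw : w ∈ D2 V)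
    (hw2 : w ∉ (Dbl 2 : AddSubgroup V)) : u - w ∈ (Dbl 2 : AddSubgroup V) := by
  rw [mem_D2_iff hW Kd] at hu hw
  have h1 : mkQ u = mkQ f₀ := hu.resolve_left (fun h => hu2 (mkQ_eq_zero.1 h))
  have h2 : mkQ w = mkQ f₀ := hw.resolve_left (fun h => hw2 (mkQ_eq_zero.1 h))
  exact mkQ_eq.1 (h1.trans h2.symm)

end kd

section main
variable [Finite S] [Finite V] {a : S} (C : TC D a) (hL : HL D a) {f₀ v₀ : V} (Kd : KData V f₀ v₀)
include C hL Kd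

omit hL in
lemma mem_S2_of_half {y : S} (hX : y ∈ X D) (h1 : y ∈ S1 D) {u : V} (hu : (2 : ℕ) • u = D.δ y v₀)
    (hu2 : u ∈ D2 V) : y ∈ S2 D := by
  have hD2 : ∀ v ∈ D2 V, D.δ y v ∈ (Dbl 4 ⊔ Tor 2 : AddSubgroup V) := by
    intro v hv
    obtain ⟨f, hf, d, ⟨t, ht⟩, rfl⟩ := AddSubgroup.mem_sup.1 hv
    have ht' : (2 : ℕ) • t = d := ht
    have hf' : (4 : ℕ) • f = 0 := hf
    rw [D.δ_add]
    refine (Dbl 4 ⊔ Tor 2 : AddSubgroup V).add_mem (AddSubgroup.mem_sup_right ?_) (AddSubgroup.mem_sup_left ?_)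
    · change (2 : ℕ) • D.δ y f = 0
      rw [← D.δ_nsmul, δ_def, mem_X.1 hX _ (by rw [← mul_nsmul']; exact hf'), sub_self]
    · rw [← ht', D.δ_nsmul]
      obtain ⟨s, hs⟩ := mem_S1.1 h1 t
      exact ⟨s, by
        change (4 : ℕ) • s = _
        rw [← hs, ← mul_nsmul']⟩
  have hv₀ : D.δ y v₀ ∈ (Dbl 4 ⊔ Tor 2 : AddSubgroup V) := by
    obtain ⟨f, hf, d, ⟨t, ht⟩, hfd⟩ := AddSubgroup.mem_sup.1 hu2
    have ht' : (2 : ℕ) • t = d := ht
    have hf' : (4 : ℕ) • f = 0 := hf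
    rw [← hu, ← hfd, nsmul_add, ← ht', ← mul_nsmul']
    refine (Dbl 4 ⊔ Tor 2 : AddSubgroup V).add_mem (AddSubgroup.mem_sup_right ?_) (AddSubgroup.mem_sup_left ⟨t, rfl⟩)
    change (2 : ℕ) • (2 : ℕ) • f = 0
    rw [← mul_nsmul']
    exact hf'
  intro v _
  rcases D2_or C.hW Kd v with h | h
  · exact hD2 v h
  · have e : v = (v - v₀) + v₀ := by abel
    rw [e, D.δ_add]
    exact (Dbl 4 ⊔ Tor 2 : AddSubgroup V).add_mem (hD2 _ h) hv₀

lemma Tor2_le_D2 {w : V} (hw : (2 : ℕ) • w = 0) : w ∈ D2 V := by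
  obtain ⟨u, hu⟩ := C.hW2 w hw
  exact Dbl2_le_D2 ⟨u, hu⟩

/-- `|Y : T| ≤ 2`. -/
lemma index_Y_T_k1 : (T D).relIndex (X D ⊓ S1 D) ≤ 2 := by
  classical
  have := relIndex_le_of_fun (T D) (X D ⊓ S1 D) (X := Bool)
    (fun y => decide (∃ u, (2 : ℕ) • u = D.δ y v₀ ∧ u ∈ D2 V)) (by
    intro y hy y' hy' hf
    have hiff : (∃ u, (2 : ℕ) • u = D.δ y v₀ ∧ u ∈ D2 V) ↔ (∃ u, (2 : ℕ) • u = D.δ y' v₀ ∧ u ∈ D2 V) := by
      simpa using hf
    obtain ⟨u, hu⟩ := mem_S1.1 hy.2 v₀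
    obtain ⟨u', hu'⟩ := mem_S1.1 hy'.2 v₀
    have hmX := (X D).mul_mem ((X D).inv_mem hy.1) hy'.1
    have hm1 := (S1 D).mul_mem ((S1 D).inv_mem hy.2) hy'.2
    have hδ : (2 : ℕ) • D.ρ y⁻¹ (u' - u) = D.δ (y⁻¹ * y') v₀ := by
      rw [D.δ_mul, D.δ_inv, ← map_nsmul, smul_sub, hu, hu', map_sub]
      abel
    have hsub : u' - u ∈ D2 V := by
      by_cases h1 : u ∈ D2 V
      · have h2 : u' ∈ D2 V := by
          obtain ⟨t, ht, ht2⟩ := hiff.1 ⟨u, hu, h1⟩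
          have h3 : (2 : ℕ) • (u' - t) = 0 := by rw [smul_sub, hu', ht, sub_self]
          have e : u' = (u' - t) + t := by abel
          rw [e]
          exact (D2 V).add_mem (Tor2_le_D2 C hL Kd h3) ht2
        exact (D2 V).sub_mem h2 h1
      · have h2 : u' ∉ D2 V := fun h => h1 (by
          obtain ⟨t, ht, ht2⟩ := hiff.2 ⟨u', hu', h⟩
          have h3 : (2 : ℕ) • (u - t) = 0 := by rw [smul_sub, hu, ht, sub_self]
          have e : u = (u - t) + t := by abel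
          rw [e]
          exact (D2 V).add_mem (Tor2_le_D2 C hL Kd h3) ht2)
        exact sub_mem_D2 C.hW Kd h2 h1
    exact mem_T_of_S2 C hL hmX (mem_S2_of_half C Kd hmX hm1 hδ (inv_D2 _ _ hsub)))
  simpa using this

/-- The property `P`. -/
def PP (D : Mod S V) (a x : S) : Prop := ∃ c, x * a * x⁻¹ * a⁻¹ = D.ι c ∧ c ∈ D2 V

omit hL Kd in
lemma PP_iff {x : S} {c : V} (hc : x * a * x⁻¹ * a⁻¹ = D.ι c) : PP D a x ↔ c ∈ D2 V := by
  constructor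
  · rintro ⟨d, hd, hd2⟩
    have : c = d := D.ι_inj (hc.symm.trans hd)
    rwa [this]
  · intro h
    exact ⟨c, hc, h⟩

omit Kd in
lemma r_le_four (H : Subgroup S) : D.B.relIndex (T D ⊓ H) ≤ 4 := by
  classical
  have hdata : ∀ x ∈ T D ⊓ H, ∃ c, x * a * x⁻¹ * a⁻¹ = D.ι c := by
    intro x hx
    obtain ⟨c, _, hc, _⟩ := T_data C hL hx.1
    exact ⟨c, hc⟩
  have := relIndex_le_of_fun D.B (T D ⊓ H) (X := Q V) (fun x => if hx : x ∈ T D ⊓ H then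
    mkQ (Classical.choose (hdata x hx)) else 0) (by
    intro x hx y hy hf
    simp only [hx, hy, dif_pos] at hf
    have h1 := Classical.choose_spec (hdata x hx)
    have h2 := Classical.choose_spec (hdata y hy)
    exact inv_mul_mem_B C hL hx.1 hy.1 h1 h2 (mkQ_eq.1 hf))
  rwa [card_Q C.hW] at this

lemma r_le_two_a {H : Subgroup S} (hP : ∀ x ∈ T D ⊓ H, PP D a x) : D.B.relIndex (T D ⊓ H) ≤ 2 := by
  classical
  have := relIndex_le_of_fun D.B (T D ⊓ H) (X := Bool)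
    (fun x => decide (∃ c ∈ (Dbl 2 : AddSubgroup V), x * a * x⁻¹ * a⁻¹ = D.ι c)) (by
    intro x hx y hy hf
    have hiff : (∃ c ∈ (Dbl 2 : AddSubgroup V), x * a * x⁻¹ * a⁻¹ = D.ι c) ↔
        (∃ c ∈ (Dbl 2 : AddSubgroup V), y * a * y⁻¹ * a⁻¹ = D.ι c) := by simpa using hf
    obtain ⟨c, hc, hc2⟩ := hP x hx
    obtain ⟨d, hd, hd2⟩ := hP y hy
    refine inv_mul_mem_B C hL hx.1 hy.1 hc hd ?_
    by_cases h1 : c ∈ (Dbl 2 : AddSubgroup V)
    · obtain ⟨d', hd', hd''⟩ := hiff.1 ⟨c, h1, hc⟩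
      have : d = d' := D.ι_inj (hd.symm.trans hd'')
      rw [← this] at hd'
      exact (Dbl 2).sub_mem h1 hd'
    · have h2 : d ∉ (Dbl 2 : AddSubgroup V) := by
        intro h
        obtain ⟨c', hc', hc''⟩ := hiff.2 ⟨d, h, hd⟩
        have : c = c' := D.ι_inj (hc.symm.trans hc'')
        rw [← this] at hc'
        exact h1 hc'
      exact mk_eq_of_D2 C.hW Kd hc2 h1 hd2 h2)
  simpa using this

lemma r_le_two_b {H : Subgroup S} (hE : ∀ z ∈ T D ⊓ H, z ∉ D.B → ¬ PP D a z) : D.B.relIndex (T D ⊓ H) ≤ 2 := by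
  classical
  have := relIndex_le_of_fun D.B (T D ⊓ H) (X := Bool) (fun x => decide (PP D a x)) (by
    intro x hx y hy hf
    have hiff : PP D a x ↔ PP D a y := by simpa using hf
    by_cases h1 : PP D a x
    · have hxB : x ∈ D.B := by
        by_contra h
        exact hE x hx h h1
      have hyB : y ∈ D.B := by
        by_contra h
        exact hE y hy h (hiff.1 h1)
      exact D.B.mul_mem (D.B.inv_mem hxB) hyB
    · have h2 : ¬ PP D a y := fun h => h1 (hiff.2 h)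
      have hm : x⁻¹ * y ∈ T D ⊓ H := (T D ⊓ H).mul_mem ((T D ⊓ H).inv_mem hx) hy
      by_contra hnot
      apply hE _ hm hnot
      obtain ⟨c, _, hc, _⟩ := T_data C hL hx.1
      obtain ⟨d, _, hd, _⟩ := T_data C hL hy.1
      have hc' : x⁻¹ * a * x⁻¹⁻¹ * a⁻¹ = D.ι (- D.ρ x⁻¹ c) := by
        rw [D.ι_neg, ← D.conj, ← hc]
        group
      have h3 := c_mul hc' hd
      refine ⟨_, h3, ?_⟩
      have hc2 : c ∉ D2 V := fun h => h1 ⟨c, hc, h⟩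
      have hd2 : d ∉ D2 V := fun h => h2 ⟨d, hd, h⟩
      have h4 := sub_mem_D2 C.hW Kd hd2 hc2
      have e : D.ρ x⁻¹ d + -D.ρ x⁻¹ c = D.ρ x⁻¹ (d - c) := by rw [map_sub]; abel
      rw [e]
      exact inv_D2 _ _ h4)
  simpa using this

lemma one_lt_Im {K : Subgroup S} {q : Q V} (hq : q ∈ Im D K) (h0 : q ≠ 0) : 2 ≤ Nat.card (Im D K) := by
  have h1 : Nontrivial (Im D K) := ⟨⟨⟨q, hq⟩, 0, fun h => h0 (congrArg Subtype.val h)⟩⟩
  exact Finite.one_lt_card_iff_nontrivial.2 h1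

/-- The image contains the class of the square. -/
lemma mk_sq_mem_Im {H K : Subgroup S} (hs : ∀ x ∈ H, x * x ∈ K) {x : S} (hx : x ∈ H) {b : V} (hb : x * x = D.ι b) :
    mkQ b ∈ Im D K :=
  ⟨b, by
    change D.ι b ∈ K
    rw [← hb]
    exact hs x hx, rfl⟩

/-- Elements outside `P` have squares outside `D₂`. -/
lemma sq_not_mem {x : S} (hx : x ∈ T D) (hP : ¬ PP D a x) {b : V} (hb : x * x = D.ι b) : b ∉ D2 V := by
  obtain ⟨c, b', hc, hb', h4⟩ := T_data C hL hx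
  have e : b' = b := D.ι_inj (hb'.symm.trans hb)
  subst e
  intro h
  apply hP
  refine ⟨c, hc, ?_⟩
  have e2 : c = b' - (b' - c) := by abel
  rw [e2]
  exact (D2 V).sub_mem h (Tor4_le_D2 h4)

/-- Always `r ≤ 2 |Im|`. -/
lemma r_le_two_Im {H K : Subgroup S} (hs : ∀ x ∈ H, x * x ∈ K) :
    D.B.relIndex (T D ⊓ H) ≤ 2 * Nat.card (Im D K) := by
  by_cases hE : ∀ x ∈ T D ⊓ H, PP D a x
  · have h1 := r_le_two_a C hL Kd hE
    have h2 : 1 ≤ Nat.card (Im D K) := Nat.card_pos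
    omega
  · push Not at hE
    obtain ⟨x, hx, hPx⟩ := hE
    obtain ⟨b, hb⟩ := D.mem_B.1 (sq_mem_B C hL (T_le_X C hx.1) (T_le_S2 C hx.1))
    have h3 := sq_not_mem C hL Kd hx.1 hPx hb
    have h4 := one_lt_Im C hL Kd (mk_sq_mem_Im C hL Kd hs hx.2 hb)
      (fun h => h3 (Dbl2_le_D2 (mkQ_eq_zero.1 h)))
    have h5 := r_le_four C hL H
    omega

/-- Without reflections `r ≤ |Im|`. -/
lemma r_le_Im (hNR : ∀ x ∈ T D, x ∉ D.B → ∀ b, x * x = D.ι b → b ∉ (Dbl 2 : AddSubgroup V))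
    {H K : Subgroup S} (hs : ∀ x ∈ H, x * x ∈ K) : D.B.relIndex (T D ⊓ H) ≤ Nat.card (Im D K) := by
  classical
  have hW := C.hW
  by_cases hE1 : ∀ x ∈ T D ⊓ H, PP D a x
  · by_cases hE2 : ∀ z ∈ T D ⊓ H, z ∉ D.B → ¬ PP D a z
    · -- `H₁ ≤ B`
      have hle : T D ⊓ H ≤ D.B := by
        intro x hx
        by_contra h
        exact hE2 x hx h (hE1 x hx)
      rw [Subgroup.relIndex_eq_one.2 hle]
      exact Nat.card_pos
    · push Not at hE2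
      obtain ⟨z, hz, hzB, hzP⟩ := hE2
      obtain ⟨b, hb⟩ := D.mem_B.1 (sq_mem_B C hL (T_le_X C hz.1) (T_le_S2 C hz.1))
      have hb2 := hNR z hz.1 hzB b hb
      have h1 := r_le_two_a C hL Kd hE1
      have h2 := one_lt_Im C hL Kd (mk_sq_mem_Im C hL Kd hs hz.2 hb) (fun h => hb2 (mkQ_eq_zero.1 h))
      omega
  · push Not at hE1
    obtain ⟨x, hx, hPx⟩ := hE1
    obtain ⟨b, hb⟩ := D.mem_B.1 (sq_mem_B C hL (T_le_X C hx.1) (T_le_S2 C hx.1))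
    have h3 := sq_not_mem C hL Kd hx.1 hPx hb
    have hmk := mk_sq_mem_Im C hL Kd hs hx.2 hb
    by_cases hE2 : ∀ z ∈ T D ⊓ H, z ∉ D.B → ¬ PP D a z
    · have h1 := r_le_two_b C hL Kd hE2
      have h2 := one_lt_Im C hL Kd hmk (fun h => h3 (Dbl2_le_D2 (mkQ_eq_zero.1 h)))
      omega
    · push Not at hE2
      obtain ⟨z, hz, hzB, hzP⟩ := hE2
      obtain ⟨b', hb'⟩ := D.mem_B.1 (sq_mem_B C hL (T_le_X C hz.1) (T_le_S2 C hz.1))
      have hb2 := hNR z hz.1 hzB b' hb'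
      have hmk' := mk_sq_mem_Im C hL Kd hs hz.2 hb'
      -- `b' ∈ D₂ ∖ 2V`
      obtain ⟨c, b₁, hc, hb₁, h4⟩ := T_data C hL hz.1
      have e : b₁ = b' := D.ι_inj (hb₁.symm.trans hb')
      subst e
      have hc2 : c ∈ D2 V := (PP_iff C hc).1 hzP
      have hb₁2 : b₁ ∈ D2 V := by
        have e2 : b₁ = (b₁ - c) + c := by abel
        rw [e2]
        exact (D2 V).add_mem (Tor4_le_D2 h4) hc2
      have hp : mkQ b₁ = mkQ f₀ := ((mem_D2_iff hW Kd).1 hb₁2).resolve_left (fun h => hb2 (mkQ_eq_zero.1 h))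
      rw [hp] at hmk'
      -- `Im` is everything
      have hb3 : mkQ b = mkQ v₀ ∨ mkQ b = mkQ f₀ + mkQ v₀ := by
        have h5 := (mem_D2_iff hW Kd (u := b)).not.1 h3
        push Not at h5
        rcases kd_cover hW Kd b with h6 | h6 | h6 | h6
        · exact absurd h6 h5.1
        · exact absurd h6 h5.2
        · exact Or.inl h6
        · exact Or.inr h6
      have hq : mkQ v₀ ∈ Im D K := by
        rcases hb3 with h6 | h6
        · exact h6 ▸ hmk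
        · have : mkQ v₀ = mkQ f₀ + (mkQ f₀ + mkQ v₀) := by
            rw [← add_assoc, Q_two, zero_add]
          rw [this]
          exact AddSubgroup.add_mem _ hmk' (h6 ▸ hmk)
      have htop : Im D K = ⊤ := by
        rw [eq_top_iff]
        rintro r -
        obtain ⟨u, rfl⟩ := QuotientAddGroup.mk_surjective r
        rcases kd_cover hW Kd u with h6 | h6 | h6 | h6
        · exact (show QuotientAddGroup.mk u = (0 : Q V) from h6) ▸ zero_mem _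
        · exact (show QuotientAddGroup.mk u = mkQ f₀ from h6) ▸ hmk'
        · exact (show QuotientAddGroup.mk u = mkQ v₀ from h6) ▸ hq
        · exact (show QuotientAddGroup.mk u = mkQ f₀ + mkQ v₀ from h6) ▸ AddSubgroup.add_mem _ hmk' hq
      rw [htop, AddSubgroup.card_top, card_Q hW]
      exact r_le_four C hL H

end main

section comm
variable [Finite S] [Finite V] {a : S} (C : TC D a)
include C

/-- `T` acts commutatively. -/
lemma T_comm {x t : S} (hx : x ∈ T D) (ht : t ∈ T D) (v : V) :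
    D.ρ x (D.ρ t v) = D.ρ t (D.ρ x v) := by
  have hxX := T_le_X C hx
  have htX := T_le_X C ht
  rw [D.ρ_eq t v, D.ρ_eq x v, map_add, map_add, mem_X.1 hxX _ (mem_T.1 ht v), mem_X.1 htX _ (mem_T.1 hx v),
    D.ρ_eq t v, D.ρ_eq x v]
  abel

/-- The commutator of elements of `T` is in `V[4]`. -/
lemma comm_T {x t : S} (hx : x ∈ T D) (ht : t ∈ T D) :
    ∃ r : V, x * t * x⁻¹ * t⁻¹ = D.ι r ∧ (4 : ℕ) • r = 0 := by
  obtain ⟨r, hr⟩ : ∃ r, x * t * x⁻¹ * t⁻¹ = D.ι r := by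
    apply D.cent
    intro v
    simp only [ρ_mul]
    rw [T_comm C hx ht]
    simp
  refine ⟨r, hr, ?_⟩
  obtain ⟨p, hp⟩ := exists_c_of_S2 C (T_le_X C hx) (T_le_S2 C hx)
  obtain ⟨q, hq⟩ := exists_c_of_S2 C (T_le_X C ht) (T_le_S2 C ht)
  have ainv := a_inv C.toInv2
  have hx' : a * x * a⁻¹ = D.ι (-p) * x := by
    rw [D.ι_neg, ← hp]
    group
  have ht' : a * t * a⁻¹ = D.ι (-q) * t := by
    rw [D.ι_neg, ← hq]
    group
  have hρ : D.ρ (x * t * x⁻¹) p = D.ρ t p := by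
    have e : x * t * x⁻¹ = D.ι r * t := by
      rw [← hr]
      group
    rw [e, D.ρ_mul, D.ρ_ι]
  have key : D.ι (D.ρ a r) = D.ι (-p + D.ρ x (-q) + D.ρ t p + r + q) := by
    calc D.ι (D.ρ a r) = a * D.ι r * a⁻¹ := (D.conj a r).symm
      _ = (a * x * a⁻¹) * (a * t * a⁻¹) * (a * x * a⁻¹)⁻¹ * (a * t * a⁻¹)⁻¹ := by
        rw [← hr]; group
      _ = D.ι (-p) * x * (D.ι (-q) * t) * (D.ι (-p) * x)⁻¹ * (D.ι (-q) * t)⁻¹ := by rw [hx', ht']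
      _ = D.ι (-p) * (x * D.ι (-q) * x⁻¹) * (x * t * x⁻¹ * D.ι p * (x * t * x⁻¹)⁻¹) * (x * t * x⁻¹ * t⁻¹) * D.ι q := by
        simp only [D.ι_neg]
        group
      _ = D.ι (-p) * D.ι (D.ρ x (-q)) * D.ι (D.ρ (x * t * x⁻¹) p) * D.ι r * D.ι q := by
        rw [D.conj, D.conj, hr]
      _ = _ := by
        rw [hρ]
        simp only [D.ι_add]
  have h1 := D.ι_inj key
  have h2 : D.ρ a r - r = D.δ t p - D.δ x q := by
    rw [h1, δ_def, δ_def, map_neg]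
    abel
  have h3 := two_θ C.toInv2 r
  have h4 : (2 : ℕ) • (D.ρ a r - r) = 0 := by
    rw [h2, smul_sub, mem_T.1 ht p, mem_T.1 hx q, sub_zero]
  have e : (4 : ℕ) • r = (2 : ℕ) • (D.ρ a r + r) - (2 : ℕ) • (D.ρ a r - r) := by
    simp only [nsmul_add, nsmul_sub]
    rw [show (4 : ℕ) = 2 + 2 from rfl, add_nsmul]
    abel
  rw [e, h3, h4, sub_zero]

/-- `[g, a] ∈ T`. -/
lemma comm_a_mem_T (g : S) : g * a * g⁻¹ * a⁻¹ ∈ T D := by
  refine mem_T.2 (fun v => ?_)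
  rw [← D.δ_nsmul, δ_def, sub_eq_zero]
  simp only [ρ_mul]
  rw [a_inv C.toInv2, ρ_a_two C.toInv2 v, map_neg, map_neg, map_nsmul, ρ_a_two C.toInv2]
  simp

end comm

section refl
variable [Finite S] [Finite V] {a : S} (C : TC D a) (hL : HL D a) {f₀ v₀ : V} (Kd : KData V f₀ v₀)
include C hL Kd

/-- The reflection case. -/
lemma reflection (h4 : ∃ v : V, (4 : ℕ) • v ≠ 0) {x₀ : S} (hx₀ : x₀ ∈ T D) (hx₀B : x₀ ∉ D.B) {b₀ : V}
    (hb₀ : x₀ * x₀ = D.ι b₀) (hb₀2 : b₀ ∈ (Dbl 2 : AddSubgroup V)) (g : S) : g ∈ X D ∧ g ∈ S1 D := by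
  classical
  obtain ⟨M, hM⟩ := exists_exp D C.hS
  have hW := C.hW
  obtain ⟨c₀, b, hc₀, hb, h5⟩ := T_data C hL hx₀
  have e : b = b₀ := D.ι_inj (hb.symm.trans hb₀)
  subst e
  have hx₀X := T_le_X C hx₀
  have hx₀2 := T_le_S2 C hx₀
  have hc₀D : c₀ ∈ D2 V := by
    have e2 : c₀ = b - (b - c₀) := by abel
    rw [e2]
    exact (D2 V).sub_mem (Dbl2_le_D2 hb₀2) (Tor4_le_D2 h5)
  have hc₀2 : c₀ ∉ (Dbl 2 : AddSubgroup V) := fun h => hx₀B (mem_B_of_c C hL hx₀X hx₀2 hc₀ h)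
  -- the element `e₀`
  set e₀ := D.δ x₀ c₀ with he₀
  have he₀2 : (2 : ℕ) • e₀ = 0 := mem_T.1 hx₀ c₀
  have he₀v : e₀ = (2 : ℕ) • b - (2 : ℕ) • c₀ := by
    have h1 := square_rel C.toInv2 hc₀ hb
    obtain ⟨t, ht⟩ := hb₀2
    have ht' : (2 : ℕ) • t = b := ht
    have h2 := ρ_a_two C.toInv2 t
    rw [ht'] at h2
    rw [h2] at h1
    have h3 : e₀ = -((2 : ℕ) • c₀) - (-b - b) := by rw [h1]; abel
    rw [h3]
    abel
  have he₀4 : e₀ ∉ (Dbl 4 : AddSubgroup V) := by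
    rintro ⟨s, hs⟩
    have hs' : (4 : ℕ) • s = e₀ := hs
    obtain ⟨t, ht⟩ := hb₀2
    have ht' : (2 : ℕ) • t = b := ht
    apply hc₀2
    have h1 : (2 : ℕ) • (c₀ - (2 : ℕ) • t + (2 : ℕ) • s) = 0 := by
      have h2 : (2 : ℕ) • c₀ = (2 : ℕ) • b - (4 : ℕ) • s := by
        rw [hs', he₀v]; abel
      have h3 : (2 : ℕ) • b = (4 : ℕ) • t := by rw [← ht', ← mul_nsmul']
      have e2 : (2 : ℕ) • (c₀ - (2 : ℕ) • t + (2 : ℕ) • s) = (2 : ℕ) • c₀ - (4 : ℕ) • t + (4 : ℕ) • s := by abel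
      rw [e2, h2, h3]
      abel
    obtain ⟨u, hu⟩ := C.hW2 _ h1
    refine ⟨u + t - s, ?_⟩
    change (2 : ℕ) • (u + t - s) = c₀
    rw [nsmul_sub, nsmul_add, hu]
    abel
  -- a nonzero element of `V[2] ∩ 4V`
  obtain ⟨v, hv⟩ := h4
  have hex : ∃ t, (2 ^ t : ℕ) • ((4 : ℕ) • v) = 0 := ⟨M, hM _⟩
  obtain ⟨t', ht'0, ht'⟩ : ∃ t', (2 ^ t' : ℕ) • ((4 : ℕ) • v) ≠ 0 ∧ (2 ^ (t' + 1) : ℕ) • ((4 : ℕ) • v) = 0 := by
    have h1 : Nat.find hex ≠ 0 := by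
      intro h
      have := Nat.find_spec hex
      rw [h] at this
      simp at this
      exact hv this
    obtain ⟨t', ht'⟩ := Nat.exists_eq_succ_of_ne_zero h1
    refine ⟨t', Nat.find_min hex (by omega), ?_⟩
    have := Nat.find_spec hex
    rw [ht'] at this
    exact this
  set z₁ : V := (2 ^ t' : ℕ) • ((4 : ℕ) • v) with hz₁
  have hz₁0 : z₁ ≠ 0 := ht'0
  have hz₁2 : (2 : ℕ) • z₁ = 0 := by
    rw [hz₁, ← mul_nsmul', ← pow_succ']
    exact ht'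
  have hz₁4 : z₁ ∈ (Dbl 4 : AddSubgroup V) := ⟨(2 ^ t' : ℕ) • v, by
    change (4 : ℕ) • (2 ^ t' : ℕ) • v = z₁
    rw [hz₁, smul_comm]⟩
  have he₀0 : e₀ ≠ 0 := fun h => he₀4 (h ▸ zero_mem _)
  have hze : z₁ ≠ e₀ := fun h => he₀4 (h ▸ hz₁4)
  have hcov := fun w (hw : (2 : ℕ) • w = 0) => tor_cover hW hz₁2 he₀2 hz₁0 he₀0 hze hw
  -- `g` fixes `z₁`
  have hgz : D.ρ g z₁ = z₁ := by
    have h1 : D.ρ g z₁ ∈ (Dbl 4 : AddSubgroup V) := D.inv_Dbl 4 g _ hz₁4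
    rcases hcov (D.ρ g z₁) (by rw [← map_nsmul, hz₁2, map_zero]) with h | h | h | h
    · exact absurd (D.ρ_inj g (h.trans (map_zero _).symm)) hz₁0
    · exact h
    · exact absurd (h ▸ h1) he₀4
    · exfalso
      apply he₀4
      have e2 : e₀ = D.ρ g z₁ - z₁ := by rw [h]; abel
      rw [e2]
      exact (Dbl 4).sub_mem h1 hz₁4
  -- the conjugate of `x₀`
  have hx' : g * x₀ * g⁻¹ ∈ T D := T_normal.conj_mem x₀ hx₀ g
  obtain ⟨c', hc'⟩ := exists_c_of_S2 C (T_le_X C hx') (T_le_S2 C hx')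
  have hy := comm_a_mem_T C g
  obtain ⟨r, hr, hr4⟩ := comm_T C hx' hy
  have hrel : D.ρ g c₀ = r + D.ρ (g * a * g⁻¹ * a⁻¹) c' := by
    apply D.ι_inj
    rw [D.ι_add, ← D.conj g c₀, ← D.conj _ c', ← hr, ← hc', ← hc₀]
    group
  have hc'D : c' ∈ D2 V := by
    have h1 : D.ρ g c₀ ∈ D2 V := inv_D2 _ _ hc₀D
    have h2 : (2 : ℕ) • D.δ (g * a * g⁻¹ * a⁻¹) c' = 0 := mem_T.1 hy c'
    have e2 : c' = D.ρ g c₀ - r - D.δ (g * a * g⁻¹ * a⁻¹) c' := by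
      rw [hrel, D.ρ_eq _ c']; abel
    rw [e2]
    exact (D2 V).sub_mem ((D2 V).sub_mem h1 (Tor4_le_D2 hr4)) (Tor2_le_D2 C hL Kd h2)
  have hc'2 : c' ∉ (Dbl 2 : AddSubgroup V) := by
    intro h
    have h1 := mem_B_of_c C hL (T_le_X C hx') (T_le_S2 C hx') hc' h
    apply hx₀B
    have h2 := D.B_normal.conj_mem _ h1 g⁻¹
    have e2 : g⁻¹ * (g * x₀ * g⁻¹) * g⁻¹⁻¹ = x₀ := by group
    rwa [e2] at h2
  have hB := inv_mul_mem_B C hL hx₀ hx' hc₀ hc' (mk_eq_of_D2 hW Kd hc₀D hc₀2 hc'D hc'2)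
  -- `g` commutes with `δ₀`
  have hcomm : ∀ u, D.ρ g (D.δ x₀ u) = D.δ x₀ (D.ρ g u) := by
    intro u
    have h1 := D.mem_B_iff.1 hB (D.ρ g u)
    rw [D.ρ_mul, D.ρ_mul, D.ρ_mul, D.ρ_inv_ρ] at h1
    have h2 : D.ρ x₀ (D.ρ g u) = D.ρ g (D.ρ x₀ u) := by
      have := congrArg (D.ρ x₀) h1
      rw [D.ρ_ρ_inv] at this
      exact this.symm
    rw [δ_def, δ_def, map_sub, h2]
  -- classes
  have hgc₀ : D.ρ g c₀ ∈ D2 V := inv_D2 _ _ hc₀D
  have hgc₀2 : D.ρ g c₀ ∉ (Dbl 2 : AddSubgroup V) := by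
    intro h
    apply hc₀2
    have := D.inv_Dbl 2 g⁻¹ _ h
    rwa [D.ρ_inv_ρ] at this
  have hδ2 : ∀ u ∈ (Dbl 2 : AddSubgroup V), D.δ x₀ u = 0 := by
    rintro _ ⟨t, rfl⟩
    change D.δ x₀ ((2 : ℕ) • t) = 0
    rw [D.δ_nsmul]
    exact mem_T.1 hx₀ t
  have hge : D.ρ g e₀ = e₀ := by
    rw [he₀, hcomm]
    have h1 := hδ2 _ (mk_eq_of_D2 hW Kd hgc₀ hgc₀2 hc₀D hc₀2)
    rw [D.δ_sub, sub_eq_zero] at h1
    exact h1
  have hgX : g ∈ X D := by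
    refine mem_X.2 (fun w hw => ?_)
    rcases hcov w hw with h | h | h | h
    · rw [h, map_zero]
    · rw [h, hgz]
    · rw [h, hge]
    · rw [h, map_add, hgz, hge]
  refine ⟨hgX, mem_S1.2 (fun u => ?_)⟩
  have hD : D.δ g u ∈ D2 V := by
    by_cases h : u ∈ D2 V
    · exact (D2 V).sub_mem (inv_D2 _ _ h) h
    · apply sub_mem_D2 hW Kd _ h
      intro h'
      apply h
      have := inv_D2 (D := D) g⁻¹ _ h'
      rwa [D.ρ_inv_ρ] at this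
  by_contra hnot
  push Not at hnot
  have hnot' : D.δ g u ∉ (Dbl 2 : AddSubgroup V) := by
    rintro ⟨t, ht⟩
    exact hnot t ht
  have h1 := hδ2 _ (mk_eq_of_D2 hW Kd hD hnot' hc₀D hc₀2)
  rw [D.δ_sub, ← he₀, sub_eq_zero] at h1
  have h2 : D.δ x₀ (D.δ g u) = 0 := by
    rw [D.δ_def g u, D.δ_sub, ← hcomm, mem_X.1 hgX _ (mem_T.1 hx₀ u), sub_self]
  rw [h2] at h1
  exact he₀0 h1.symm

end refl

theorem secBd_k1 [Finite S] [Finite V] {a : S} (C : TC D a) (hL : HL D a) (L : Lev V 1)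
    (h4 : ∃ v : V, (4 : ℕ) • v ≠ 0) : SecBd 4 S := by
  classical
  obtain ⟨M, hM⟩ := exists_exp D C.hS
  obtain ⟨f₀, v₀, Kd⟩ := exists_KData hM C.hW2 L h4
  intro H K hKH hc hs
  by_cases hNR : ∀ x ∈ T D, x ∉ D.B → ∀ b, x * x = D.ι b → b ∉ (Dbl 2 : AddSubgroup V)
  · have h1 := T_count C hs (t := 1) (by simpa using r_le_Im C hL Kd hNR hs)
    have h2 : (K ⊔ T D).relIndex H ≤ 4 :=
      gamma_Y C.hS C.hW (T D) (T_le_Y C) (index_Y_T_k1 C hL Kd)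
        (fun τ hτ1 hτ2 g hg1 hg2 => comm_not_T C L (by omega) hM hτ1 hτ2 hg1 hg2) hKH hc
    have := card_le_step (T D) hKH (a := 4 * 1) h1 h2
    simpa using this
  · push Not at hNR
    obtain ⟨x₀, hx₀, hx₀B, b₀, hb₀, hb₀2⟩ := hNR
    have hall := reflection C hL Kd h4 hx₀ hx₀B hb₀ hb₀2
    have h1 := T_count C hs (t := 2) (r_le_two_Im C hL Kd hs)
    have hY : X D ⊓ S1 D = ⊤ := by
      rw [eq_top_iff]
      rintro g -
      exact hall g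
    have h0 := index_Y_T_k1 C hL Kd
    rw [hY, Subgroup.relIndex_top_right] at h0
    have h2 : (K ⊔ T D).relIndex H ≤ 2 := by
      have h3 := relIndex_sup_dvd_index (T D) H K
      have hne : (T D).index ≠ 0 := Subgroup.index_ne_zero_of_finite
      exact (Nat.le_of_dvd (Nat.pos_of_ne_zero hne) h3).trans h0
    have := card_le_step (T D) hKH (a := 4 * 2) h1 h2
    simpa using this

end Cfsg.Agent.Lib.SelfCentE8.K1
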