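import Cfsg.Agent.Lib.SelfCentE8.Xhat

/-!
# The branch `V[2] ≤ 4V`
-/

set_option autoImplicit false
set_option linter.unusedSectionVars false

namespace Cfsg.Agent.Lib.SelfCentE8.K2

open Cfsg.Agent.Lib.TwoFusion.SecRank Cfsg.Agent.Lib.SelfCentE8.Setup Cfsg.Agent.Lib.SelfCentE8.Count
open Cfsg.Agent.Lib.SelfCentE8.TCore Cfsg.Agent.Lib.SelfCentE8.TCount Cfsg.Agent.Lib.SelfCentE8.Gamma
open Cfsg.Agent.Lib.SelfCentE8.Level Cfsg.Agent.Lib.SelfCentE8.Xhat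
open Mod

variable {S V : Type*} [Group S] [AddCommGroup V] {D : Mod S V} [Finite S] [Finite V] {a : S}

lemma T_le_Y (C : TC D a) : T D ≤ X D ⊓ S1 D :=
  le_inf (T_le_X C) ((T_le_S2 C).trans (S2_le_S1 C))

/-- `[τ, g] ∉ T`. -/
lemma comm_not_T (C : TC D a) {k : ℕ} (L : Lev V k) (hk : 1 ≤ k) {M : ℕ} (hM : ∀ v : V, (2 ^ M : ℕ) • v = 0)
    {τ g : S} (hτ1 : τ ∈ S1 D) (hτ2 : τ ∉ X D) (hg1 : g ∈ X D) (hg2 : g ∉ S1 D) :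
    τ * g * τ⁻¹ * g⁻¹ ∉ T D := by
  intro hT
  obtain ⟨p, ⟨v, hv⟩, hne⟩ := G2 L C.hW hM hτ1 hτ2 hg1 hg2
  apply hne
  apply comm_on_two C hT
  obtain ⟨j, rfl⟩ : ∃ j, k = j + 1 := ⟨k - 1, by omega⟩
  refine ⟨(2 ^ j : ℕ) • v, ?_⟩
  have hv' : (2 ^ (j + 1) : ℕ) • v = p := hv
  change (2 : ℕ) • (2 ^ j : ℕ) • v = p
  rw [← hv', ← mul_nsmul', ← pow_succ']

theorem secBd_k2 (C : TC D a) (hL : HL D a) {k : ℕ} (L : Lev V k) (hk : 2 ≤ k) : SecBd 4 S := by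
  classical
  obtain ⟨M, hM⟩ := exists_exp D C.hS
  have hΩ : ∀ f : V, (4 : ℕ) • f = 0 → f ∈ (Dbl 2 : AddSubgroup V) := by
    intro f hf
    exact Tor_le L.le 2 hk f (by simpa using hf)
  intro H K hKH hc hs
  have h1 := T_count C hs (t := 1) (by simpa using hr_Ω C hL hΩ hs)
  have h2 : (K ⊔ T D).relIndex H ≤ 4 := by
    by_cases hex : ∀ y ∈ X D ⊓ S1 D, (∀ q, XQ D y q = 0) ∨ ∀ q, XQ D y q = q
    · exact gamma_Y C.hS C.hW (T D) (T_le_Y C) (index_Y_T_two C hL hΩ hex)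
        (fun τ hτ1 hτ2 g hg1 hg2 => comm_not_T C L (by omega) hM hτ1 hτ2 hg1 hg2) hKH hc
    · push Not at hex
      obtain ⟨y₀, hy₀, ⟨q₁, hq₁⟩, ⟨q₂, hq₂⟩⟩ := hex
      have h0 : ¬ ∀ q, XQ D y₀ q = 0 := fun h => hq₁ (h q₁)
      have hI : ¬ ∀ q, XQ D y₀ q = q := fun h => hq₂ (h q₂)
      exact gamma_Y4 C.hS C.hW (T D) (T_le_Y C) (index_Y_T_four C hL hΩ hy₀ h0 hI)
        (S1_le_X C hL hΩ L hk hM hy₀ h0 hI) (fun g hg => comm_not_mem_T C hL hΩ hy₀ h0 hI hg) hKH hc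
  have := card_le_step (T D) hKH (a := 4 * 1) h1 h2
  simpa using this

end Cfsg.Agent.Lib.SelfCentE8.K2
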