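import Cfsg.Agent.Lib.SelfCentE8.R3Types

/-!
# Normal `E₈`: the branch `|A : C_A(E)| = 4`
-/

set_option autoImplicit false

namespace Cfsg.Agent.Lib.SelfCentE8.R3T2

open Subgroup
open Cfsg.Agent.Lib.SelfCentE8.Tools49
open Cfsg.Agent.Lib.SelfCentE8.R4
open Cfsg.Agent.Lib.SelfCentE8.R3Basic
open Cfsg.Agent.Lib.SelfCentE8.R3Types
open Cfsg.Agent.Lib.TwoFusion.SecRank

variable {S : Type*} [Group S] {A E : Subgroup S}

section
variable [hn : E.Normal] [Finite S] (h : Hyp3 A E) (t : T2 A E) {z : S}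
  (hz : z ∈ A ⊓ E) (hz1 : z ≠ 1)
include h t hz hz1

lemma mem_Z {ζ : S} : ζ ∈ A ⊓ E ↔ ζ = 1 ∨ ζ = z := by
  constructor
  · intro hζ
    by_cases h1 : ζ = 1
    · exact Or.inl h1
    · exact Or.inr (eq_of_card_two t.card2 hζ h1 hz hz1)
  · rintro (rfl | rfl)
    · exact one_mem _
    · exact hz

/-- The image of `1 + x`. -/
lemma img {x : S} (hx : x ∈ A) (hxE : x ∉ E) {e : S} (he : e ∈ E) :
    e * (x * e * x⁻¹) = 1 ∨ e * (x * e * x⁻¹) = z := by
  have hxx : x * x = 1 := h.hA2 x hx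
  have hxi : x⁻¹ = x := inv_eq_of_mul_eq_one_left hxx
  by_cases heW : e ∈ fix E x
  · left
    rw [mem_fix] at heW
    rw [heW.2, mul_inv_cancel_right]
    exact h.hE2 e he
  right
  obtain ⟨b, hb, hbE, hgen, hfix⟩ := t.gen x hx hxE
  have hbb : b * b = 1 := h.hA2 b hb
  have hxb : x * b = b * x := cA h hx hb
  -- `W` has index two
  have hidx : ((fix E x).subgroupOf E).index = 2 := by
    have h1 := ((fix E x).subgroupOf E).card_mul_index
    have h2 : Nat.card ((fix E x).subgroupOf E) = 4 := by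
      rw [← t.fix4 x hx hxE]
      exact Nat.card_congr (Subgroup.subgroupOfEquivOfLe fix_le).toEquiv
    rw [h2, h.hE8] at h1
    omega
  have hxe : x * e * x⁻¹ ∈ E := conj_mem x he
  set c := e * (x * e * x⁻¹) with hc
  have hcE : c ∈ E := E.mul_mem he hxe
  have hc1 : c ≠ 1 := by
    intro h0
    apply heW
    rw [mem_fix]
    refine ⟨he, ?_⟩
    have h1 : x * e * x⁻¹ = e := by
      have h2 := eq_inv_of_mul_eq_one_right h0
      rw [h2, inv_eq_self h.hE2 he]
    calc x * e = x * e * x⁻¹ * x := by group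
      _ = _ := by rw [h1]
  -- `c` is fixed by `x`
  have hcx : x * c * x⁻¹ = c := by
    have h2 : x * (x * e * x⁻¹) * x⁻¹ = e := by
      rw [hxi]
      calc x * (x * e * x) * x = (x * x) * e * (x * x) := by group
        _ = e := by rw [hxx]; group
    calc x * c * x⁻¹ = (x * e * x⁻¹) * (x * (x * e * x⁻¹) * x⁻¹) := by rw [hc]; group
      _ = (x * e * x⁻¹) * e := by rw [h2]
      _ = c := (cE h he hxe).symm
  -- `c` is fixed by `b`
  have hWinv : ∀ v, v ∈ fix E x → b * v * b⁻¹ ∈ fix E x := conj_fix hxb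
  have hbe : b * e * b⁻¹ ∉ fix E x := by
    intro h1
    apply heW
    have h2 := hWinv _ h1
    have hbi : b⁻¹ = b := inv_eq_of_mul_eq_one_left hbb
    have h3 : b * (b * e * b⁻¹) * b⁻¹ = e := by
      rw [hbi]
      calc b * (b * e * b) * b = (b * b) * e * (b * b) := by group
        _ = e := by rw [hbb]; group
    rwa [h3] at h2
  have hbeE : b * e * b⁻¹ ∈ E := conj_mem b he
  have hcb : b * c * b⁻¹ = c := by
    have h1 := (Subgroup.mul_mem_iff_of_index_two hidx (a := ⟨b * e * b⁻¹, hbeE⟩)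
      (b := ⟨e, he⟩)).2 (by
        rw [Subgroup.mem_subgroupOf, Subgroup.mem_subgroupOf]
        exact iff_of_false hbe heW)
    rw [Subgroup.mem_subgroupOf] at h1
    have h2 : (b * e * b⁻¹) * e ∈ fix E x := h1
    set ζ := (b * e * b⁻¹) * e with hζ
    have h3 : b * e * b⁻¹ = ζ * e := by
      calc b * e * b⁻¹ = (b * e * b⁻¹) * (e * e) := by rw [h.hE2 e he, mul_one]
        _ = ((b * e * b⁻¹) * e) * e := (mul_assoc _ _ _).symm
    have hζx : x * ζ * x⁻¹ = ζ := by
      rw [(mem_fix.1 h2).2]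
      group
    have hxbi : x * b⁻¹ = b⁻¹ * x := by
      calc x * b⁻¹ = b⁻¹ * (b * x) * b⁻¹ := by group
        _ = b⁻¹ * (x * b) * b⁻¹ := by rw [hxb]
        _ = _ := by group
    have h4 : b * (x * e * x⁻¹) * b⁻¹ = ζ * (x * e * x⁻¹) := by
      have h5 : b * (x * e * x⁻¹) * b⁻¹ = x * (b * e * b⁻¹) * x⁻¹ := by
        calc b * (x * e * x⁻¹) * b⁻¹ = (b * x) * e * x⁻¹ * b⁻¹ := by group
          _ = (x * b) * e * x⁻¹ * b⁻¹ := by rw [hxb]
          _ = (x * b) * e * (b * x)⁻¹ := by group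
          _ = (x * b) * e * (x * b)⁻¹ := by rw [hxb]
          _ = _ := by group
      rw [h5, h3]
      calc x * (ζ * e) * x⁻¹ = (x * ζ * x⁻¹) * (x * e * x⁻¹) := by group
        _ = _ := by rw [hζx]
    have hζE : ζ ∈ E := fix_le h2
    calc b * c * b⁻¹ = (b * e * b⁻¹) * (b * (x * e * x⁻¹) * b⁻¹) := by rw [hc]; group
      _ = (ζ * e) * (ζ * (x * e * x⁻¹)) := by rw [h3, h4]
      _ = ζ * (e * ζ) * (x * e * x⁻¹) := by group
      _ = ζ * (ζ * e) * (x * e * x⁻¹) := by rw [cE h he hζE]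
      _ = (ζ * ζ) * (e * (x * e * x⁻¹)) := by group
      _ = c := by rw [h.hE2 ζ hζE, one_mul]
  have hcZ : c ∈ A ⊓ E := by
    rw [← hfix, mem_fix, mem_fix]
    refine ⟨⟨hcE, ?_⟩, ?_⟩
    · calc x * c = x * c * x⁻¹ * x := by group
        _ = _ := by rw [hcx]
    · calc b * c = b * c * b⁻¹ * b := by group
        _ = _ := by rw [hcb]
  exact ((mem_Z h t hz hz1).1 hcZ).resolve_left hc1

/-- `z` is in the image of `1 + x`. -/
lemma exists_img {x : S} (hx : x ∈ A) (hxE : x ∉ E) : ∃ g ∈ E, z = g * (x * g * x⁻¹) := by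
  obtain ⟨e, he, heW⟩ : ∃ e ∈ E, e ∉ fix E x := by
    by_contra hc
    push Not at hc
    have h1 := Subgroup.card_le_of_le (show E ≤ fix E x from hc)
    rw [h.hE8, t.fix4 x hx hxE] at h1
    omega
  refine ⟨e, he, ?_⟩
  rcases img h t hz hz1 hx hxE he with h1 | h1
  · exfalso
    apply heW
    rw [mem_fix]
    refine ⟨he, ?_⟩
    have h3 : x * e * x⁻¹ = e := by
      have h2 := eq_inv_of_mul_eq_one_right h1
      rw [h2, inv_eq_self h.hE2 he]
    calc x * e = x * e * x⁻¹ * x := by group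
      _ = _ := by rw [h3]
  · exact h1.symm

/-- Killing a commutator in `A ⊓ E` by an element of `E`. -/
lemma kill1 {x y : S} (hx : x ∈ A) (hxE : x ∉ E) (hy : y * x * y⁻¹ * x⁻¹ ∈ A ⊓ E) :
    ∃ g ∈ E, (g * y) * x = x * (g * y) := by
  rcases (mem_Z h t hz hz1).1 hy with h1 | h1
  · refine ⟨1, E.one_mem, ?_⟩
    rw [one_mul]
    calc y * x = (y * x * y⁻¹ * x⁻¹) * x * y := by group
      _ = _ := by rw [h1, one_mul]
  · obtain ⟨g, hg, hgz⟩ := exists_img h t hz hz1 hx hxE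
    refine ⟨g, hg, ?_⟩
    refine kill h.hE2 hg (e := z) ?_ hgz
    rw [← h1]
    group

/-- Killing the second commutator by an element of `C_E(x)`. -/
lemma kill2 {x b y : S} (hx : x ∈ A) (hxE : x ∉ E) (hb : b ∈ A)
    (hfix : fix (fix E x) b = A ⊓ E) (hy : y * b * y⁻¹ * b⁻¹ ∈ A ⊓ E) :
    ∃ g ∈ fix E x, (g * y) * b = b * (g * y) := by
  rcases (mem_Z h t hz hz1).1 hy with h1 | h1
  · refine ⟨1, one_mem _, ?_⟩
    rw [one_mul]
    calc y * b = (y * b * y⁻¹ * b⁻¹) * b * y := by group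
      _ = _ := by rw [h1, one_mul]
  · have hc : Nat.card (fix E x) = Nat.card (fix (fix E x) b) ^ 2 := by
      rw [hfix, t.fix4 x hx hxE, t.card2]
      norm_num
    obtain ⟨g, hg, hgz⟩ := exists_of_card_eq (W := fix E x) (x := b)
      (fun w hw => h.hE2 w (fix_le hw)) (conj_fix (cA h hx hb)) (h.hA2 b hb) hc
      (by rw [hfix]; exact hz)
    refine ⟨g, hg, ?_⟩
    refine kill h.hE2 (fix_le hg) (e := z) ?_ hgz
    rw [← h1]
    group

/-- `H1`-type lemma: if `y` centralizes `E` and both commutators lie in `A ⊓ E`, then `y ∈ E`. -/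
lemma mem_E_of_comm {a b y : S} (ha : a ∈ A) (haE : a ∉ E) (hb : b ∈ A) (hbE : b ∉ E)
    (hgen : ∀ T : Subgroup S, T ≤ A → A ⊓ E ≤ T → a ∈ T → b ∈ T → T = A)
    (hfix : fix (fix E a) b = A ⊓ E) (hyE : ∀ e ∈ E, y * e = e * y)
    (h1 : y * a * y⁻¹ * a⁻¹ ∈ A ⊓ E) (h2 : y * b * y⁻¹ * b⁻¹ ∈ A ⊓ E) : y ∈ E := by
  obtain ⟨g, hg, hga⟩ := kill1 h t hz hz1 ha haE h1
  set y₁ := g * y with hy₁
  have hy₁E : ∀ e ∈ E, y₁ * e = e * y₁ := by
    intro e he
    calc g * y * e = g * (y * e) := by group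
      _ = g * (e * y) := by rw [hyE e he]
      _ = (g * e) * y := by group
      _ = (e * g) * y := by rw [cE h hg he]
      _ = _ := mul_assoc _ _ _
  have hG : y₁ * b * y₁⁻¹ * b⁻¹ ∈ A ⊓ E := by
    have h3 : y₁ * b * y₁⁻¹ * b⁻¹ = (y * b * y⁻¹ * b⁻¹) * (g * (b * g * b⁻¹)) := by
      have hgi : g⁻¹ = g := inv_eq_self h.hE2 hg
      have hbgE : b * g * b⁻¹ ∈ E := conj_mem b hg
      have hcE : y * b * y⁻¹ * b⁻¹ ∈ E := h2.2
      calc y₁ * b * y₁⁻¹ * b⁻¹ = g * (y * b * y⁻¹ * b⁻¹) * (b * g⁻¹ * b⁻¹) := by rw [hy₁]; group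
        _ = g * (y * b * y⁻¹ * b⁻¹) * (b * g * b⁻¹) := by rw [hgi]
        _ = (y * b * y⁻¹ * b⁻¹) * g * (b * g * b⁻¹) := by rw [cE h hg hcE]
        _ = _ := by group
    rw [h3]
    refine (A ⊓ E).mul_mem h2 ?_
    rcases img h t hz hz1 hb hbE hg with h4 | h4
    · rw [h4]
      exact one_mem _
    · rw [h4]
      exact hz
  obtain ⟨g', hg', hg'b⟩ := kill2 h t hz hz1 ha haE hb hfix hG
  have hg'E : g' ∈ E := fix_le hg'
  set y₂ := g' * y₁ with hy₂
  have hy₂a : y₂ * a = a * y₂ := by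
    have h5 : g' * a = a * g' := ((mem_fix.1 hg').2).symm
    calc g' * y₁ * a = g' * (y₁ * a) := by group
      _ = g' * (a * y₁) := by rw [hga]
      _ = (g' * a) * y₁ := by group
      _ = (a * g') * y₁ := by rw [h5]
      _ = _ := mul_assoc _ _ _
  have hy₂E : ∀ e ∈ E, y₂ * e = e * y₂ := by
    intro e he
    calc g' * y₁ * e = g' * (y₁ * e) := by group
      _ = g' * (e * y₁) := by rw [hy₁E e he]
      _ = (g' * e) * y₁ := by group
      _ = (e * g') * y₁ := by rw [cE h hg'E he]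
      _ = _ := mul_assoc _ _ _
  let T : Subgroup S := A ⊓ centralizer ({y₂} : Set S)
  have hT : T = A := by
    refine hgen T inf_le_left ?_ ⟨ha, ?_⟩ ⟨hb, ?_⟩
    · intro ζ hζ
      exact ⟨hζ.1, mem_centralizer_singleton_iff.2 (hy₂E ζ hζ.2).symm⟩
    · exact mem_centralizer_singleton_iff.2 hy₂a.symm
    · exact mem_centralizer_singleton_iff.2 hg'b.symm
  have hy₂A : y₂ ∈ A := by
    refine h.hC y₂ (fun x hx => ?_)
    have : x ∈ T := by rw [hT]; exact hx
    exact (mem_centralizer_singleton_iff.1 this.2).symm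
  have hy₂E' := t.central y₂ hy₂A hy₂E
  have hfin : y = g⁻¹ * (g'⁻¹ * y₂) := by
    rw [hy₂, hy₁]
    group
  rw [hfin]
  exact E.mul_mem (E.inv_mem hg) (E.mul_mem (E.inv_mem hg'E) hy₂E')

/-- The commutator `[y₀, x]` is not in `A ⊓ E`. -/
lemma w_not_mem {y₀ u : S} (hy : Y0 E y₀ u) (hu : u = z) {x : S} (hx : x ∈ A) (hxE : x ∉ E) :
    y₀ * x * y₀⁻¹ * x⁻¹ ∉ A ⊓ E := by
  intro hw
  obtain ⟨g, hg, hgx⟩ := kill1 h t hz hz1 hx hxE hw
  obtain ⟨b, hb, hbE, hgen, hfix⟩ := t.gen x hx hxE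
  set y := g * y₀ with hydef
  have hyE : ∀ e ∈ E, y * e = e * y := by
    intro e he
    calc g * y₀ * e = g * (y₀ * e) := by group
      _ = g * (e * y₀) := by rw [hy.comm e he]
      _ = (g * e) * y₀ := by group
      _ = (e * g) * y₀ := by rw [cE h hg he]
      _ = _ := mul_assoc _ _ _
  have hyy : y * y = z := by
    calc g * y₀ * (g * y₀) = g * (y₀ * g) * y₀ := by group
      _ = g * (g * y₀) * y₀ := by rw [hy.comm g hg]
      _ = (g * g) * (y₀ * y₀) := by group
      _ = z := by rw [h.hE2 g hg, one_mul, hy.sq, hu]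
  -- second commutator
  have hbm : y * b * y⁻¹ * b⁻¹ ∈ E := by
    have h1 : y * b * y⁻¹ * b⁻¹ = g * (y₀ * b * y₀⁻¹ * b⁻¹) * (b * g⁻¹ * b⁻¹) := by
      rw [hydef]
      group
    rw [h1]
    have h2 : y₀ * b * y₀⁻¹ * b⁻¹ ∈ E := by
      have h3 := E.inv_mem (hy.conj b)
      have h4 : (b * y₀ * b⁻¹ * y₀⁻¹)⁻¹ = y₀ * b * y₀⁻¹ * b⁻¹ := by group
      rwa [h4] at h3
    exact E.mul_mem (E.mul_mem hg h2) (conj_mem b (E.inv_mem hg))
  have hfb := comm_mem_fix3 h hb hbm
  have hfx : y * b * y⁻¹ * b⁻¹ ∈ fix E x := by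
    rw [mem_fix]
    refine ⟨hbm, ?_⟩
    have hbx : x * b = b * x := cA h hx hb
    have hk : y * x = x * y := hgx
    have hki : y⁻¹ * x = x * y⁻¹ := by
      calc y⁻¹ * x = y⁻¹ * (x * y) * y⁻¹ := by group
        _ = y⁻¹ * (y * x) * y⁻¹ := by rw [hk]
        _ = _ := by group
    have hbi : b⁻¹ * x = x * b⁻¹ := by
      calc b⁻¹ * x = b⁻¹ * (x * b) * b⁻¹ := by group
        _ = b⁻¹ * (b * x) * b⁻¹ := by rw [hbx]
        _ = _ := by group
    calc x * (y * b * y⁻¹ * b⁻¹) = (x * y) * b * y⁻¹ * b⁻¹ := by group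
      _ = y * (x * b) * y⁻¹ * b⁻¹ := by rw [← hk]; group
      _ = y * b * (x * y⁻¹) * b⁻¹ := by rw [hbx]; group
      _ = y * b * y⁻¹ * (x * b⁻¹) := by rw [← hki]; group
      _ = y * b * y⁻¹ * (b⁻¹ * x) := by rw [hbi]
      _ = _ := by group
  have hbZ : y * b * y⁻¹ * b⁻¹ ∈ A ⊓ E := by
    rw [← hfix, mem_fix]
    exact ⟨hfx, (mem_fix.1 hfb).2⟩
  obtain ⟨g', hg', hg'b⟩ := kill2 h t hz hz1 hx hxE hb hfix hbZ
  have hg'E : g' ∈ E := fix_le hg'
  set y' := g' * y with hy'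
  have hy'E : ∀ e ∈ E, y' * e = e * y' := by
    intro e he
    calc g' * y * e = g' * (y * e) := by group
      _ = g' * (e * y) := by rw [hyE e he]
      _ = (g' * e) * y := by group
      _ = (e * g') * y := by rw [cE h hg'E he]
      _ = _ := mul_assoc _ _ _
  have hy'x : y' * x = x * y' := by
    have h5 : g' * x = x * g' := ((mem_fix.1 hg').2).symm
    calc g' * y * x = g' * (y * x) := by group
      _ = g' * (x * y) := by rw [hgx]
      _ = (g' * x) * y := by group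
      _ = (x * g') * y := by rw [h5]
      _ = _ := mul_assoc _ _ _
  let T : Subgroup S := A ⊓ centralizer ({y'} : Set S)
  have hT : T = A := by
    refine hgen T inf_le_left ?_ ⟨hx, ?_⟩ ⟨hb, ?_⟩
    · intro ζ hζ
      exact ⟨hζ.1, mem_centralizer_singleton_iff.2 (hy'E ζ hζ.2).symm⟩
    · exact mem_centralizer_singleton_iff.2 hy'x.symm
    · exact mem_centralizer_singleton_iff.2 hg'b.symm
  have hy'A : y' ∈ A := by
    refine h.hC y' (fun x hx => ?_)
    have : x ∈ T := by rw [hT]; exact hx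
    exact (mem_centralizer_singleton_iff.1 this.2).symm
  have h6 := h.hA2 y' hy'A
  have h7 : y' * y' = z := by
    calc g' * y * (g' * y) = g' * (y * g') * y := by group
      _ = g' * (g' * y) * y := by rw [hyE g' hg'E]
      _ = (g' * g') * (y * y) := by group
      _ = z := by rw [h.hE2 g' hg'E, one_mul, hyy]
  exact hz1 (h7.symm.trans h6)

/-- The whole branch. -/
theorem branch2 (hS : IsPGroup 2 S) {y₀ u : S} (hy : Y0 E y₀ u) : SecBd 4 S := by
  classical
  haveI : Fact (Nat.Prime 2) := ⟨Nat.prime_two⟩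
  have huZ : u ∈ A ⊓ E := mem_inf3 h hy.uE (fun a _ => (hy.central a).symm)
  have hu : u = z := eq_of_card_two t.card2 huZ hy.u1 hz hz1
  have hsq : y₀ * y₀ = z := hy.sq.trans hu
  have hzE : z ∈ E := hz.2
  have hzz : z * z = 1 := h.hE2 z hzE
  have hzc : ∀ g, g * z = z * g := by
    intro g
    rw [← hu]
    exact hy.central g
  have hBn := normal_B hy
  set B := E ⊔ zpowers y₀ with hB
  have hEB : E ≤ B := le_sup_left
  have hy₀B : y₀ ∈ B := (le_sup_right : zpowers y₀ ≤ B) (mem_zpowers y₀)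
  have hw := fun {x : S} (hx : x ∈ A) (hxE : x ∉ E) => w_not_mem h t hz hz1 hy hu hx hxE
  have hinvmem : ∀ x y, x * y * x⁻¹ * y⁻¹ ∈ E → y * x * y⁻¹ * x⁻¹ ∈ E := by
    intro x y hy'
    have h1 := E.inv_mem hy'
    have h2 : (x * y * x⁻¹ * y⁻¹)⁻¹ = y * x * y⁻¹ * x⁻¹ := by group
    rwa [h2] at h1
  -- properties of `w_x`
  have hwE : ∀ x, y₀ * x * y₀⁻¹ * x⁻¹ ∈ E := fun x => hinvmem x y₀ (hy.conj x)
  have hxy₀ : ∀ x, x * y₀ * x⁻¹ = (y₀ * x * y₀⁻¹ * x⁻¹) * y₀ := by
    intro x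
    have h1 : x * y₀ * x⁻¹ * y₀⁻¹ = y₀ * x * y₀⁻¹ * x⁻¹ := by
      have h2 := inv_eq_self h.hE2 (hwE x)
      rw [← h2]
      group
    calc x * y₀ * x⁻¹ = (x * y₀ * x⁻¹ * y₀⁻¹) * y₀ := by group
      _ = _ := by rw [h1]
  have hy₀i : ∀ x, y₀⁻¹ * x * y₀ = (y₀ * x * y₀⁻¹ * x⁻¹) * x := by
    intro x
    set e₀ := y₀ * x * y₀⁻¹ * x⁻¹ with he₀
    have he₀E : e₀ ∈ E := hwE x
    have h1 : x = e₀ * (y₀⁻¹ * x * y₀) := by
      calc x = y₀⁻¹ * (y₀ * x * y₀⁻¹) * y₀ := by group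
        _ = y₀⁻¹ * (e₀ * x) * y₀ := by rw [show y₀ * x * y₀⁻¹ = e₀ * x by rw [he₀]; group]
        _ = (y₀⁻¹ * e₀ * y₀) * (y₀⁻¹ * x * y₀) := by group
        _ = _ := by
          have h2 : y₀⁻¹ * e₀ * y₀ = e₀ := by
            calc y₀⁻¹ * e₀ * y₀ = y₀⁻¹ * (e₀ * y₀) := by group
              _ = y₀⁻¹ * (y₀ * e₀) := by rw [hy.comm e₀ he₀E]
              _ = e₀ := by group
          rw [h2]
    calc y₀⁻¹ * x * y₀ = (e₀ * e₀) * (y₀⁻¹ * x * y₀) := by rw [h.hE2 e₀ he₀E, one_mul]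
      _ = e₀ * (e₀ * (y₀⁻¹ * x * y₀)) := by group
      _ = _ := by rw [← h1]
  -- `C_S(E) = B`
  have hBC : ∀ y, (∀ e ∈ E, y * e = e * y) → y ∈ B := by
    by_contra hcon
    push Not at hcon
    obtain ⟨y, hyc, hyB⟩ := hcon
    let Cn : Subgroup S := centralizer (E : Set S)
    have hlt : B < Cn := by
      refine lt_of_le_of_ne ?_ ?_
      · intro b hb
        rw [mem_centE]
        intro e he
        exact comm_B h hy hb (hEB he)
      · intro h0
        apply hyB
        rw [h0, mem_centE]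
        exact hyc
    haveI hCn : Cn.Normal := Subgroup.normal_centralizer (H := E)
    haveI := hBn
    obtain ⟨y₁, hy₁C, hy₁B, hy₁c⟩ :=
      Cfsg.Agent.Lib.Involutions2.NormalFour.exists_mem_comm_mem hS B Cn hlt
    have hy₁E : ∀ e ∈ E, y₁ * e = e * y₁ := mem_centE.1 hy₁C
    -- all commutators with `A` lie in `E`
    have hGE : ∀ x ∈ A, x ∉ E → y₁ * x * y₁⁻¹ * x⁻¹ ∈ E := by
      intro x hx hxE
      apply hinvmem
      by_contra hwn
      have hwB : x * y₁ * x⁻¹ * y₁⁻¹ ∈ B := hy₁c x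
      set w := x * y₁ * x⁻¹ * y₁⁻¹ with hwdef
      rcases mem_B h hy hwB with h1 | ⟨e₃, he₃, h1⟩
      · exact hwn h1
      have hxi : x⁻¹ = x := inv_eq_of_mul_eq_one_left (h.hA2 x hx)
      have hxx := h.hA2 x hx
      have h2 : (x * w * x⁻¹) * w = 1 := by
        rw [hwdef, hxi]
        calc x * (x * y₁ * x * y₁⁻¹) * x * (x * y₁ * x * y₁⁻¹)
            = (x * x) * y₁ * x * y₁⁻¹ * (x * x) * y₁ * x * y₁⁻¹ := by group
          _ = y₁ * x * y₁⁻¹ * y₁ * x * y₁⁻¹ := by rw [hxx]; group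
          _ = y₁ * (x * x) * y₁⁻¹ := by group
          _ = 1 := by rw [hxx]; group
      have hxe₃ : x * e₃ * x⁻¹ ∈ E := conj_mem x he₃
      set e₀ := y₀ * x * y₀⁻¹ * x⁻¹ with he₀
      have he₀E : e₀ ∈ E := hwE x
      have h3 : x * w * x⁻¹ = e₀ * y₀ * (x * e₃ * x⁻¹) := by
        rw [h1]
        calc x * (y₀ * e₃) * x⁻¹ = (x * y₀ * x⁻¹) * (x * e₃ * x⁻¹) := by group
          _ = _ := by rw [hxy₀ x]
      rw [h3, h1] at h2
      have h4 : e₀ * y₀ * (x * e₃ * x⁻¹) * (y₀ * e₃) = e₀ * z * (e₃ * (x * e₃ * x⁻¹)) := by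
        calc e₀ * y₀ * (x * e₃ * x⁻¹) * (y₀ * e₃)
            = e₀ * y₀ * ((x * e₃ * x⁻¹) * y₀) * e₃ := by group
          _ = e₀ * y₀ * (y₀ * (x * e₃ * x⁻¹)) * e₃ := by rw [hy.comm _ hxe₃]
          _ = e₀ * (y₀ * y₀) * ((x * e₃ * x⁻¹) * e₃) := by group
          _ = _ := by rw [hsq, cE h hxe₃ he₃]
      rw [h4] at h2
      apply hw hx hxE
      rw [mem_Z h t hz hz1]
      rcases img h t hz hz1 hx hxE he₃ with h5 | h5
      · right
        rw [h5, mul_one] at h2
        have h6 := eq_inv_of_mul_eq_one_left h2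
        exact h6.trans (inv_eq_self h.hE2 hzE)
      · left
        rw [h5, mul_assoc, hzz, mul_one] at h2
        exact h2
    -- generators
    obtain ⟨a, ha, haE⟩ : ∃ a ∈ A, a ∉ E := by
      by_contra hc
      push Not at hc
      have h1 : A ⊓ E = A := inf_eq_left.2 hc
      have h2 := t.card2
      rw [h1, h.hA8] at h2
      omega
    obtain ⟨b, hb, hbE, hgen, hfix⟩ := t.gen a ha haE
    have hfixe : ∀ e ∈ E, a * e = e * a → b * e = e * b → e ∈ A ⊓ E := by
      intro e he h1 h2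
      rw [← hfix, mem_fix, mem_fix]
      exact ⟨⟨he, h1⟩, h2⟩
    have habE : a * b ∉ E := by
      intro hab
      -- then `b` and `a` agree modulo `A ⊓ E`
      have h1 : a * b ∈ A ⊓ E := ⟨A.mul_mem ha hb, hab⟩
      let T : Subgroup S := (A ⊓ E) ⊔ zpowers a
      have hT : T = A := by
        refine hgen T (sup_le inf_le_left (by rw [zpowers_le]; exact ha)) le_sup_left
          ((le_sup_right : zpowers a ≤ T) (mem_zpowers a)) ?_
        have h2 : b = a⁻¹ * (a * b) := by group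
        rw [h2]
        exact T.mul_mem (T.inv_mem ((le_sup_right : zpowers a ≤ T) (mem_zpowers a)))
          ((le_sup_left : A ⊓ E ≤ T) h1)
      have h3 := card_sup_le_mul (D := A ⊓ E) (B := zpowers a)
        (fun x hx y hy => cA h hx.1 ((zpowers_le.2 ha) hy))
      have ha1 : a ≠ 1 := fun h0 => haE (by rw [h0]; exact E.one_mem)
      rw [t.card2, card_zpowers_of_sq (h.hA2 a ha) ha1] at h3
      have h4 : Nat.card T = 8 := by rw [hT]; exact h.hA8
      have h5 : Nat.card T ≤ 2 * 2 := h3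
      omega
    have habA : a * b ∈ A := A.mul_mem ha hb
    set e_a := y₁ * a * y₁⁻¹ * a⁻¹ with he_a
    set e_b := y₁ * b * y₁⁻¹ * b⁻¹ with he_b
    have hae : e_a ∈ E := hGE a ha haE
    have hbe : e_b ∈ E := hGE b hb hbE
    have hfa := mem_fix.1 (comm_mem_fix3 h ha hae)
    have hfb := mem_fix.1 (comm_mem_fix3 h hb hbe)
    have habe : y₁ * (a * b) * y₁⁻¹ * (a * b)⁻¹ ∈ E := hGE _ habA habE
    have hfab := mem_fix.1 (comm_mem_fix3 h habA habe)
    have heab : y₁ * (a * b) * y₁⁻¹ * (a * b)⁻¹ = e_a * (a * e_b * a⁻¹) := by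
      rw [he_a, he_b]
      group
    rw [heab] at hfab
    have hZ_ab : ∀ ζ ∈ A ⊓ E, (a * b) * ζ = ζ * (a * b) := fun ζ hζ => cA h habA hζ.1
    -- a helper: `e ∈ fix (ab)` and `e ∈ fix a` force `e ∈ A ⊓ E`
    have hforce₁ : ∀ e ∈ E, a * e = e * a → (a * b) * e = e * (a * b) → e ∈ A ⊓ E := by
      intro e he h1 h2
      refine hfixe e he h1 ?_
      have h3 : a * (b * e) = a * (e * b) := by
        calc a * (b * e) = (a * b) * e := by group
          _ = e * (a * b) := h2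
          _ = (e * a) * b := by group
          _ = (a * e) * b := by rw [h1]
          _ = _ := by group
      exact mul_left_cancel h3
    have hforce₂ : ∀ e ∈ E, b * e = e * b → (a * b) * e = e * (a * b) → e ∈ A ⊓ E := by
      intro e he h1 h2
      refine hfixe e he ?_ h1
      have hba : a * b = b * a := cA h ha hb
      rw [hba] at h2
      have h3 : b * (a * e) = b * (e * a) := by
        calc b * (a * e) = (b * a) * e := by group
          _ = e * (b * a) := h2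
          _ = (e * b) * a := by group
          _ = (b * e) * a := by rw [h1]
          _ = _ := by group
      exact mul_left_cancel h3
    have hmain : ∀ y', (∀ e ∈ E, y' * e = e * y') → y' * a * y'⁻¹ * a⁻¹ ∈ A ⊓ E →
        y' * b * y'⁻¹ * b⁻¹ ∈ A ⊓ E → y' ∈ E := fun y' h1 h2 h3 =>
      mem_E_of_comm h t hz hz1 ha haE hb hbE hgen hfix h1 h2 h3
    by_cases hea : e_a ∈ A ⊓ E <;> by_cases heb : e_b ∈ A ⊓ E
    · exact hy₁B (hEB (hmain y₁ hy₁E hea heb))
    · -- `e_a ∈ Z`, `e_b ∉ Z`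
      apply heb
      refine hforce₂ e_b hbe hfb.2 ?_
      -- `e_ab = e_a * (a e_b a⁻¹)`
      have hxb : a * e_b * a⁻¹ = e_b ∨ a * e_b * a⁻¹ = z * e_b := by
        rcases img h t hz hz1 ha haE hbe with h1 | h1
        · left
          have h2 := eq_inv_of_mul_eq_one_right h1
          rw [h2, inv_eq_self h.hE2 hbe]
        · right
          calc a * e_b * a⁻¹ = (e_b * e_b) * (a * e_b * a⁻¹) := by rw [h.hE2 e_b hbe, one_mul]
            _ = e_b * (e_b * (a * e_b * a⁻¹)) := by group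
            _ = e_b * z := by rw [h1]
            _ = _ := cE h hbe hzE
      have hζ : ∃ ζ ∈ A ⊓ E, e_a * (a * e_b * a⁻¹) = ζ * e_b := by
        rcases hxb with h1 | h1
        · exact ⟨e_a, hea, by rw [h1]⟩
        · exact ⟨e_a * z, (A ⊓ E).mul_mem hea hz, by rw [h1]; group⟩
      obtain ⟨ζ, hζZ, hζe⟩ := hζ
      rw [hζe] at hfab
      have h2 : (a * b) * ζ = ζ * (a * b) := hZ_ab ζ hζZ
      have h3 : ζ * ((a * b) * e_b) = ζ * (e_b * (a * b)) := by
        calc ζ * ((a * b) * e_b) = (ζ * (a * b)) * e_b := by group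
          _ = ((a * b) * ζ) * e_b := by rw [h2]
          _ = (a * b) * (ζ * e_b) := by group
          _ = (ζ * e_b) * (a * b) := hfab.2
          _ = _ := by group
      exact mul_left_cancel h3
    · -- `e_a ∉ Z`, `e_b ∈ Z`
      apply hea
      refine hforce₁ e_a hae hfa.2 ?_
      have h1 : a * e_b * a⁻¹ = e_b := by
        rw [(cA h ha heb.1)]
        group
      rw [h1] at hfab
      have h2 : (a * b) * e_b = e_b * (a * b) := hZ_ab e_b heb
      have h3 : ((a * b) * e_a) * e_b = (e_a * (a * b)) * e_b := by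
        calc ((a * b) * e_a) * e_b = (a * b) * (e_a * e_b) := by group
          _ = (e_a * e_b) * (a * b) := hfab.2
          _ = e_a * (e_b * (a * b)) := by group
          _ = e_a * ((a * b) * e_b) := by rw [h2]
          _ = _ := by group
      exact mul_right_cancel h3
    · -- both outside: subtract `y₀`
      have hidxa : ∀ x ∈ A, x ∉ E → ((A ⊓ E).subgroupOf (fix E x)).index = 2 := by
        intro x hx hxE
        have hZfix : A ⊓ E ≤ fix E x := by
          intro ζ hζ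
          rw [mem_fix]
          exact ⟨hζ.2, cA h hx hζ.1⟩
        have h1 := ((A ⊓ E).subgroupOf (fix E x)).card_mul_index
        have h2 : Nat.card ((A ⊓ E).subgroupOf (fix E x)) = 2 := by
          rw [← t.card2]
          exact Nat.card_congr (Subgroup.subgroupOfEquivOfLe hZfix).toEquiv
        rw [h2, t.fix4 x hx hxE] at h1
        omega
      have hsub : ∀ x ∈ A, x ∉ E → y₁ * x * y₁⁻¹ * x⁻¹ ∉ A ⊓ E →
          (y₁ * y₀⁻¹) * x * (y₁ * y₀⁻¹)⁻¹ * x⁻¹ ∈ A ⊓ E := by
        intro x hx hxE hn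
        have hfx := comm_mem_fix3 h hx (hwE x)
        have hfy := comm_mem_fix3 h hx (hGE x hx hxE)
        have h5 := (Subgroup.mul_mem_iff_of_index_two (hidxa x hx hxE) (a := ⟨_, hfx⟩)
          (b := ⟨_, hfy⟩)).2 (by
            rw [Subgroup.mem_subgroupOf, Subgroup.mem_subgroupOf]
            exact iff_of_false (hw hx hxE) hn)
        rw [Subgroup.mem_subgroupOf] at h5
        have h6 : (y₁ * y₀⁻¹) * x * (y₁ * y₀⁻¹)⁻¹ * x⁻¹ =
            (y₀ * x * y₀⁻¹ * x⁻¹) * (y₁ * x * y₁⁻¹ * x⁻¹) := by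
          calc (y₁ * y₀⁻¹) * x * (y₁ * y₀⁻¹)⁻¹ * x⁻¹ = y₁ * (y₀⁻¹ * x * y₀) * y₁⁻¹ * x⁻¹ := by group
            _ = y₁ * ((y₀ * x * y₀⁻¹ * x⁻¹) * x) * y₁⁻¹ * x⁻¹ := by rw [hy₀i x]
            _ = (y₁ * (y₀ * x * y₀⁻¹ * x⁻¹)) * x * y₁⁻¹ * x⁻¹ := by group
            _ = ((y₀ * x * y₀⁻¹ * x⁻¹) * y₁) * x * y₁⁻¹ * x⁻¹ := by rw [hy₁E _ (hwE x)]
            _ = _ := by group
        rw [h6]
        exact h5
      have h8 : ∀ e ∈ E, (y₁ * y₀⁻¹) * e = e * (y₁ * y₀⁻¹) := by
        intro e he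
        have h9 : y₀⁻¹ * e = e * y₀⁻¹ := by
          calc y₀⁻¹ * e = y₀⁻¹ * (e * y₀) * y₀⁻¹ := by group
            _ = y₀⁻¹ * (y₀ * e) * y₀⁻¹ := by rw [hy.comm e he]
            _ = _ := by group
        calc y₁ * y₀⁻¹ * e = y₁ * (y₀⁻¹ * e) := by group
          _ = y₁ * (e * y₀⁻¹) := by rw [h9]
          _ = (y₁ * e) * y₀⁻¹ := by group
          _ = (e * y₁) * y₀⁻¹ := by rw [hy₁E e he]
          _ = _ := by group
      have h10 := hmain _ h8 (hsub a ha haE hea) (hsub b hb hbE heb)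
      apply hy₁B
      have : y₁ = (y₁ * y₀⁻¹) * y₀ := by group
      rw [this]
      exact B.mul_mem (hEB h10) hy₀B
  -- the key
  have hKey : ∀ x, (∀ b ∈ B, x * b * x⁻¹ * b⁻¹ = 1 ∨ x * b * x⁻¹ * b⁻¹ = z) → x ∈ B := by
    intro x hxb
    by_contra hxB
    have hxEact : ∀ e ∈ E, x * e * x⁻¹ = e ∨ x * e * x⁻¹ = z * e := by
      intro e he
      rcases hxb e (hEB he) with h1 | h1
      · left
        calc x * e * x⁻¹ = (x * e * x⁻¹ * e⁻¹) * e := by group
          _ = e := by rw [h1, one_mul]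
      · right
        calc x * e * x⁻¹ = (x * e * x⁻¹ * e⁻¹) * e := by group
          _ = _ := by rw [h1]
    have hxz : x * z * x⁻¹ = z := by
      rw [hzc x]
      group
    -- size of the fixed points
    have hfixlow : 4 ≤ Nat.card (fix E x) := by
      have h1 := card_le_fix_mul (W := E) (K := zpowers z) (x := x) h.hE2
        (fun w hw => conj_mem x hw) (by
          intro w hw
          rw [mem_zpowers_of_sq hzz]
          rcases hxEact w hw with h2 | h2
          · left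
            rw [h2]
            exact h.hE2 w hw
          · right
            rw [h2]
            calc w * (z * w) = z * (w * w) := by
                  rw [← mul_assoc, cE h hw hzE, mul_assoc]
              _ = z := by rw [h.hE2 w hw, mul_one])
      have h2 : zpowers z ⊓ E = zpowers z := inf_eq_left.2 (by rw [zpowers_le]; exact hzE)
      rw [h2, card_zpowers_of_sq hzz hz1, h.hE8] at h1
      omega
    have hfixne : fix E x ≠ E := by
      intro h0
      apply hxB
      apply hBC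
      intro e he
      rw [← h0] at he
      exact ((mem_fix.1 he).2)
    have hfixup : Nat.card (fix E x) ≤ 4 := by
      have h1 := card_lt_of_lt (lt_of_le_of_ne fix_le hfixne)
      have h3 : Nat.card (fix E x) ∣ 8 := by
        rw [← h.hE8]
        exact Subgroup.card_dvd_of_le fix_le
      rw [h.hE8] at h1
      have h4 : Nat.card (fix E x) ≠ 5 := by intro h; rw [h] at h3; revert h3; decide
      have h5 : Nat.card (fix E x) ≠ 6 := by intro h; rw [h] at h3; revert h3; decide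
      have h6 : Nat.card (fix E x) ≠ 7 := by intro h; rw [h] at h3; revert h3; decide
      omega
    obtain ⟨e₂, he₂, he₂Z⟩ : ∃ e ∈ fix E x, e ∉ A ⊓ E := by
      by_contra hc
      push Not at hc
      have h1 := Subgroup.card_le_of_le (show fix E x ≤ A ⊓ E from hc)
      rw [t.card2] at h1
      omega
    have he₂E : e₂ ∈ E := fix_le he₂
    -- an element of `A` fixing `e₂`
    have hact : ∀ x' ∈ A, x' * e₂ * x'⁻¹ = e₂ ∨ x' * e₂ * x'⁻¹ = z * e₂ := by
      intro x' hx'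
      by_cases hx'E : x' ∈ E
      · left
        rw [cE h hx'E he₂E]
        group
      · rcases img h t hz hz1 hx' hx'E he₂E with h1 | h1
        · left
          have h2 := eq_inv_of_mul_eq_one_right h1
          rw [h2, inv_eq_self h.hE2 he₂E]
        · right
          calc x' * e₂ * x'⁻¹ = (e₂ * e₂) * (x' * e₂ * x'⁻¹) := by rw [h.hE2 e₂ he₂E, one_mul]
            _ = e₂ * (e₂ * (x' * e₂ * x'⁻¹)) := by group
            _ = e₂ * z := by rw [h1]
            _ = _ := cE h he₂E hzE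
    let T₀ : Subgroup S := centralizer ({e₂} : Set S)
    have hrel : T₀.relIndex A ≤ Nat.card Prop := by
      refine relIndex_le_of_fun T₀ A (fun r => r * e₂ * r⁻¹ = e₂) ?_
      intro r hr r' hr' hf
      have hf' : r * e₂ * r⁻¹ = e₂ ↔ r' * e₂ * r'⁻¹ = e₂ := iff_of_eq hf
      have h1 : r * e₂ * r⁻¹ = r' * e₂ * r'⁻¹ := by
        rcases hact r hr with h2 | h2 <;> rcases hact r' hr' with h3 | h3
        · rw [h2, h3]
        · rw [h2, hf'.1 h2]
        · rw [h3, hf'.2 h3]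
        · rw [h2, h3]
      have h4 : (r⁻¹ * r') * e₂ * (r⁻¹ * r')⁻¹ = e₂ := by
        calc (r⁻¹ * r') * e₂ * (r⁻¹ * r')⁻¹ = r⁻¹ * (r' * e₂ * r'⁻¹) * r := by group
          _ = r⁻¹ * (r * e₂ * r⁻¹) * r := by rw [h1]
          _ = e₂ := by group
      refine mem_centralizer_singleton_iff.2 ?_
      calc (r⁻¹ * r') * e₂ = ((r⁻¹ * r') * e₂ * (r⁻¹ * r')⁻¹) * (r⁻¹ * r') := by group
        _ = _ := by rw [h4]
    rw [Nat.card_eq_fintype_card (α := Prop), Fintype.card_prop] at hrel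
    have hT₀c := card_eq_relIndex_mul_inf T₀ A
    rw [h.hA8] at hT₀c
    obtain ⟨x', hx'A, hx'T, hx'E⟩ : ∃ x' ∈ A, x' ∈ T₀ ∧ x' ∉ E := by
      by_contra hc
      push Not at hc
      have h1 : T₀ ⊓ A ≤ A ⊓ E := fun w hw => ⟨hw.2, hc w hw.2 hw.1⟩
      have h2 := Subgroup.card_le_of_le h1
      rw [t.card2] at h2
      have h3 : 8 ≤ 2 * 2 := by
        rw [hT₀c] at *
        exact Nat.mul_le_mul hrel h2
      omega
    have hx'e₂ : x' * e₂ = e₂ * x' := (mem_centralizer_singleton_iff.1 hx'T)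
    have hx'x' : x' * x' = 1 := h.hA2 x' hx'A
    have hx'i : x'⁻¹ = x' := inv_eq_of_mul_eq_one_left hx'x'
    -- both have the same fixed points
    have hZfix : ∀ x'' , (∀ ζ ∈ A ⊓ E, x'' * ζ = ζ * x'') → e₂ ∈ fix E x'' → ∀ e ∈ fix E x', e ∈ fix E x'' := by
      intro x'' h1 h2
      let T : Subgroup S := fix E x' ⊓ fix E x''
      have hTle : T ≤ fix E x' := inf_le_left
      have hzT : z ∈ T := ⟨mem_fix.2 ⟨hzE, cA h hx'A hz.1⟩, mem_fix.2 ⟨hzE, h1 z hz⟩⟩
      have he₂T : e₂ ∈ T := ⟨mem_fix.2 ⟨he₂E, hx'e₂⟩, h2⟩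
      have he₂1 : e₂ ≠ 1 := fun h0 => he₂Z (by rw [h0]; exact one_mem _)
      have he₂z : e₂ ≠ z := fun h0 => he₂Z (by rw [h0]; exact hz)
      have h5 := two_lt_card hzT he₂T hz1 he₂1 he₂z
      have h6 : Nat.card T ∣ 4 := by
        rw [← t.fix4 x' hx'A hx'E]
        exact Subgroup.card_dvd_of_le hTle
      have h7 : Nat.card T ≤ 4 := Nat.le_of_dvd (by norm_num) h6
      have h8 : Nat.card T = 4 := by
        have : Nat.card T ≠ 3 := by
          intro h9
          rw [h9] at h6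
          revert h6
          decide
        omega
      have hTeq : T = fix E x' :=
        Subgroup.eq_of_le_of_card_ge hTle (by rw [h8, t.fix4 x' hx'A hx'E])
      intro e he
      have : e ∈ T := by rw [hTeq]; exact he
      exact this.2
    have hle1 : ∀ e ∈ fix E x', e ∈ fix E x :=
      hZfix x (fun ζ hζ => by
        have := hzc x
        rcases (mem_Z h t hz hz1).1 hζ with rfl | rfl
        · group
        · exact this) he₂
    have heqfix : ∀ e, e ∈ fix E x ↔ e ∈ fix E x' := by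
      have hle2 : fix E x' ≤ fix E x := hle1
      have h9 : fix E x' = fix E x :=
        Subgroup.eq_of_le_of_card_ge hle2 (by rw [t.fix4 x' hx'A hx'E]; exact hfixup)
      intro e
      rw [h9]
    -- `x x'` centralizes `E`
    have hxx'C : ∀ e ∈ E, (x * x') * e = e * (x * x') := by
      intro e he
      by_cases hef : e ∈ fix E x'
      · have h1 := (mem_fix.1 hef).2
        have h2 := (mem_fix.1 ((heqfix e).2 hef)).2
        calc x * x' * e = x * (x' * e) := by group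
          _ = x * (e * x') := by rw [h1]
          _ = (x * e) * x' := by group
          _ = (e * x) * x' := by rw [h2]
          _ = _ := by group
      · have h1 : x' * e * x'⁻¹ = z * e := by
          rcases img h t hz hz1 hx'A hx'E he with h2 | h2
          · exfalso
            apply hef
            rw [mem_fix]
            refine ⟨he, ?_⟩
            have h3 := eq_inv_of_mul_eq_one_right h2
            have h4 : x' * e * x'⁻¹ = e := by rw [h3, inv_eq_self h.hE2 he]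
            calc x' * e = x' * e * x'⁻¹ * x' := by group
              _ = _ := by rw [h4]
          · calc x' * e * x'⁻¹ = (e * e) * (x' * e * x'⁻¹) := by rw [h.hE2 e he, one_mul]
              _ = e * (e * (x' * e * x'⁻¹)) := by group
              _ = e * z := by rw [h2]
              _ = _ := cE h he hzE
        have h2 : x * e * x⁻¹ = z * e := by
          rcases hxEact e he with h3 | h3
          · exfalso
            apply hef
            rw [← heqfix, mem_fix]
            refine ⟨he, ?_⟩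
            calc x * e = x * e * x⁻¹ * x := by group
              _ = _ := by rw [h3]
          · exact h3
        have h3 : x * (x' * e * x'⁻¹) * x⁻¹ = e := by
          rw [h1]
          calc x * (z * e) * x⁻¹ = (x * z * x⁻¹) * (x * e * x⁻¹) := by group
            _ = z * (z * e) := by rw [hxz, h2]
            _ = (z * z) * e := by group
            _ = e := by rw [hzz, one_mul]
        calc x * x' * e = (x * (x' * e * x'⁻¹) * x⁻¹) * (x * x') := by group
          _ = _ := by rw [h3]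
    have hb' := hBC _ hxx'C
    have hxform : x = (x * x') * x' := by
      rw [mul_assoc, hx'x', mul_one]
    have hB1 : (y₀ * x' * y₀⁻¹ * x'⁻¹) * y₀ ∈ B := B.mul_mem (hEB (hwE x')) hy₀B
    have h2 : x * y₀ * x⁻¹ = (y₀ * x' * y₀⁻¹ * x'⁻¹) * y₀ := by
      calc x * y₀ * x⁻¹ = (x * x') * (x' * y₀ * x'⁻¹) * (x * x')⁻¹ := by
            nth_rw 1 [hxform]
            nth_rw 2 [hxform]
            group
        _ = (x * x') * ((y₀ * x' * y₀⁻¹ * x'⁻¹) * y₀) * (x * x')⁻¹ := by rw [hxy₀ x']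
        _ = ((y₀ * x' * y₀⁻¹ * x'⁻¹) * y₀) * (x * x') * (x * x')⁻¹ := by rw [comm_B h hy hb' hB1]
        _ = _ := by group
    have h3 : x * y₀ * x⁻¹ * y₀⁻¹ = y₀ * x' * y₀⁻¹ * x'⁻¹ := by
      rw [h2]
      group
    apply hw hx'A hx'E
    rw [mem_Z h t hz hz1, ← h3]
    exact hxb y₀ hy₀B
  exact bound_B hS h.hE2 h.hE8 hy.notE hy.comm hsq hzE hz1 hy.conj hBC hKey

end

end Cfsg.Agent.Lib.SelfCentE8.R3T2
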