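import Cfsg.Agent.Lib.SelfCentE8.R3T1
import Cfsg.Agent.Lib.SelfCentE8.R3T2

/-!
# Normal `E₈`: the main statement

If `A ≅ E₈` is a self-centralizing subgroup of the finite `2`-group `S`, `E ≅ E₈` is a normal
subgroup of `S` and every elementary abelian normal subgroup of `S` has order at most `8`, then
`S` has sectional rank at most `4`.
-/

set_option autoImplicit false

namespace Cfsg.Agent.Lib.SelfCentE8.R3

open Subgroup
open Cfsg.Agent.Lib.SelfCentE8.R3Basic
open Cfsg.Agent.Lib.SelfCentE8.R3Types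
open Cfsg.Agent.Lib.TwoFusion.SecRank

variable {S : Type*} [Group S]

theorem main [Finite S] (hS : IsPGroup 2 S) {A E : Subgroup S} [hn : E.Normal]
    (h : Hyp3 A E) : SecBd 4 S := by
  classical
  by_cases hCE : ∀ y, (∀ e ∈ E, y * e = e * y) → y ∈ E
  · exact bound_E hS h.hE2 h.hE8 hCE
  · push Not at hCE
    obtain ⟨y, hyc, hyE⟩ := hCE
    obtain ⟨y₀, u, hY⟩ := exists_Y0 hS h hyE hyc
    have hne : E ≠ A := by
      rintro rfl
      exact hyE (h.hC y hyc)
    rcases types3 hS h hne with t | t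
    · obtain ⟨a, e₁, z₀, d⟩ := R3T1.exists_data h t
      exact R3T1.branch1 h t d hS hY
    · have hc2 : Nat.card (A ⊓ E : Subgroup S) = 2 := t.card2
      have hbot : A ⊓ E ≠ ⊥ := by
        intro hb
        rw [hb] at hc2
        simp at hc2
      obtain ⟨z, hz1⟩ := Subgroup.ne_bot_iff_exists_ne_one.1 hbot
      have hz1' : (z : S) ≠ 1 := by
        intro h1
        exact hz1 (Subtype.ext h1)
      exact R3T2.branch2 h t z.2 hz1' hS hY

end Cfsg.Agent.Lib.SelfCentE8.R3
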