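import Cfsg.Agent.Lib.SelfCentE8.Tools49
import Cfsg.Agent.Lib.Involutions2.NormalFour

/-!
# Self-centralizing `E₈` with a normal `E₁₆`: sectional rank at most 4
-/

set_option autoImplicit false

namespace Cfsg.Agent.Lib.SelfCentE8.R4

open Subgroup
open Cfsg.Agent.Lib.SelfCentE8.Tools49
open Cfsg.Agent.Lib.TwoFusion.SecRank

variable {S : Type*} [Group S]

/-- The hypotheses. -/
structure Hyp (A E : Subgroup S) : Prop where
  hA2 : ∀ a ∈ A, a * a = 1
  hA8 : Nat.card A = 8
  hC : ∀ x, (∀ a ∈ A, x * a = a * x) → x ∈ A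
  hE2 : ∀ e ∈ E, e * e = 1
  hE16 : Nat.card E = 16

lemma card_lt_of_lt [Finite S] {H K : Subgroup S} (h : H < K) : Nat.card H < Nat.card K := by
  refine lt_of_le_of_ne (Subgroup.card_le_of_le h.le) (fun he => h.ne ?_)
  exact Subgroup.eq_of_le_of_card_ge h.le he.ge

lemma kill {E : Subgroup S} (hE2 : ∀ e ∈ E, e * e = 1) {g y x e : S} (hg : g ∈ E)
    (hyx : y * x * y⁻¹ = e * x) (he : e = g * (x * g * x⁻¹)) : (g * y) * x = x * (g * y) := by
  have h1 : y * x = e * x * y := by
    rw [← hyx]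
    group
  have h2 : g * g = 1 := hE2 g hg
  calc (g * y) * x = g * (y * x) := by group
    _ = g * (e * x * y) := by rw [h1]
    _ = (g * g) * (x * g * x⁻¹) * x * y := by rw [he]; group
    _ = x * (g * y) := by rw [h2]; group

lemma eq_of_card_gt {A T : Subgroup S} (hT : T ≤ A) (hA8 : Nat.card A = 8)
    (h : 4 < Nat.card T) : T = A := by
  have hA : Finite A := Nat.finite_of_card_ne_zero (by omega)
  have hd : Nat.card T ∣ 8 := by
    rw [← hA8]
    exact Subgroup.card_dvd_of_le hT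
  have : Nat.card T = 8 := by
    have h8 : Nat.card T ≤ 8 := Nat.le_of_dvd (by norm_num) hd
    interval_cases hc : Nat.card T <;> first | rfl | (exfalso; revert hd; decide)
  refine Subgroup.eq_of_le_of_card_ge hT (by omega)

/-- If `y` commutes with all elements of a subgroup `T ≤ A` that equals `A`. -/
lemma comm_of_eq {A : Subgroup S} {y : S} (h : A ⊓ centralizer ({y} : Set S) = A) {a : S}
    (ha : a ∈ A) : y * a = a * y := by
  have : a ∈ A ⊓ centralizer ({y} : Set S) := by rw [h]; exact ha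
  exact (mem_centralizer_singleton_iff.1 this.2).symm

lemma hcomm {A E : Subgroup S} (h : Hyp A E) {e f : S} (he : e ∈ E) (hf : f ∈ E) : e * f = f * e :=
  comm_of_sq h.hE2 he hf

lemma hcommA {A E : Subgroup S} (h : Hyp A E) {e f : S} (he : e ∈ A) (hf : f ∈ A) : e * f = f * e :=
  comm_of_sq h.hA2 he hf

lemma conj_mem {E : Subgroup S} [hn : E.Normal] (x : S) {e : S} (he : e ∈ E) : x * e * x⁻¹ ∈ E :=
  hn.conj_mem e he x

/-- An element of `E` commuting with `A` is in `A ⊓ E`. -/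
lemma mem_inf_of_comm {A E : Subgroup S} (h : Hyp A E) {e : S} (he : e ∈ E)
    (hc : ∀ a ∈ A, e * a = a * e) : e ∈ A ⊓ E := ⟨h.hC e hc, he⟩

lemma finE {A E : Subgroup S} (h : Hyp A E) : Finite E :=
  Nat.finite_of_card_ne_zero (by rw [h.hE16]; norm_num)

lemma finA {A E : Subgroup S} (h : Hyp A E) : Finite A :=
  Nat.finite_of_card_ne_zero (by rw [h.hA8]; norm_num)

/-- `A ⊓ E` is nontrivial. -/
lemma inf_ne_bot [Finite S] (hS : IsPGroup 2 S) {A E : Subgroup S} [hn : E.Normal] (h : Hyp A E) :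
    A ⊓ E ≠ ⊥ := by
  haveI : Fact (Nat.Prime 2) := ⟨Nat.prime_two⟩
  have hE1 : E ≠ ⊥ := by
    intro h0
    have := h.hE16
    rw [h0] at this
    simp at this
  have h2 := Cfsg.Agent.Lib.Involutions2.NormalFour.inf_center_ne_bot hS E hE1
  obtain ⟨⟨z, hz⟩, hz1⟩ := Subgroup.ne_bot_iff_exists_ne_one.1 h2
  have hz1' : z ≠ 1 := fun h => hz1 (Subtype.ext h)
  intro h0
  have : z ∈ A ⊓ E := by
    refine ⟨h.hC z (fun a _ => (mem_center_iff.1 hz.2 a).symm), hz.1⟩
  rw [h0, mem_bot] at this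
  exact hz1' this

/-- Case `t = 1`. -/
structure T1 (A E : Subgroup S) : Prop where
  card4 : Nat.card (A ⊓ E : Subgroup S) = 4
  fixEq : ∀ x ∈ A, x ∉ E → fix E x = A ⊓ E
  gen : ∀ x ∈ A, x ∉ E → ∀ T : Subgroup S, T ≤ A → A ⊓ E ≤ T → x ∈ T → T = A
  central : ∀ x ∈ A, (∀ e ∈ E, x * e = e * x) → x ∈ E

/-- Case `t = 2`. -/
structure T2 (A E : Subgroup S) : Prop where
  card2 : Nat.card (A ⊓ E : Subgroup S) = 2
  fix4 : ∀ x ∈ A, x ∉ E → Nat.card (fix E x) = 4
  gen : ∀ x ∈ A, x ∉ E → ∃ b ∈ A, b ∉ E ∧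
    (∀ T : Subgroup S, T ≤ A → A ⊓ E ≤ T → x ∈ T → b ∈ T → T = A) ∧ fix (fix E x) b = A ⊓ E
  central : ∀ x ∈ A, (∀ e ∈ E, x * e = e * x) → x ∈ E

lemma conj_fix {E : Subgroup S} [E.Normal] {x b : S} (hxb : x * b = b * x) :
    ∀ v ∈ fix E x, b * v * b⁻¹ ∈ fix E x := by
  intro v hv
  rw [mem_fix] at hv ⊢
  refine ⟨conj_mem b hv.1, ?_⟩
  have h1 : x * b⁻¹ = b⁻¹ * x := by
    calc x * b⁻¹ = b⁻¹ * (b * x) * b⁻¹ := by group
      _ = b⁻¹ * (x * b) * b⁻¹ := by rw [hxb]
      _ = _ := by group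
  calc x * (b * v * b⁻¹) = (x * b) * v * b⁻¹ := by group
    _ = b * (x * v) * b⁻¹ := by rw [hxb]; group
    _ = b * v * (x * b⁻¹) := by rw [hv.2]; group
    _ = b * v * (b⁻¹ * x) := by rw [h1]
    _ = _ := by group

theorem types [Finite S] (hS : IsPGroup 2 S) {A E : Subgroup S} [hn : E.Normal] (h : Hyp A E) :
    T1 A E ∨ T2 A E := by
  have hZ1 := inf_ne_bot hS h
  have hEA : ∀ e ∈ E, ∀ z ∈ A ⊓ E, e * z = z * e := fun e he z hz => hcomm h he hz.2
  -- the centralizer of `E` in `A`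
  let Y : Subgroup S := A ⊓ centralizer (E : Set S)
  have hYmem : ∀ x, x ∈ Y ↔ x ∈ A ∧ ∀ e ∈ E, x * e = e * x := by
    intro x
    change x ∈ A ⊓ centralizer (E : Set S) ↔ _
    rw [mem_inf, mem_centralizer_iff]
    constructor
    · rintro ⟨h1, h2⟩
      exact ⟨h1, fun e he => (h2 e he).symm⟩
    · rintro ⟨h1, h2⟩
      exact ⟨h1, fun e he => (h2 e he).symm⟩
  have hZY : A ⊓ E ≤ Y := fun z hz => (hYmem z).2 ⟨hz.1, fun e he => hcomm h hz.2 he⟩
  have hYA : Y ≤ A := inf_le_left
  have hYne : Y ≠ A := by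
    intro hYA'
    have hEle : E ≤ A := by
      intro e he
      refine h.hC e (fun a ha => ?_)
      have : a ∈ Y := by rw [hYA']; exact ha
      exact ((hYmem a).1 this).2 e he |>.symm
    have := Subgroup.card_le_of_le hEle
    rw [h.hE16, h.hA8] at this
    omega
  have hYcard : Nat.card Y ≤ 4 := by
    by_contra hc
    exact hYne (eq_of_card_gt hYA h.hA8 (by omega))
  have hZpos : 1 < Nat.card (A ⊓ E : Subgroup S) := by
    rw [Subgroup.one_lt_card_iff_ne_bot]
    exact hZ1
  have hZA : A ⊓ E ≤ A := inf_le_left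
  have hZ8 : Nat.card (A ⊓ E : Subgroup S) ∣ 8 := by
    rw [← h.hA8]
    exact Subgroup.card_dvd_of_le hZA
  have hY8 : Nat.card Y ∣ 8 := by
    rw [← h.hA8]
    exact Subgroup.card_dvd_of_le hYA
  have hYpos : 0 < Nat.card Y := Nat.card_pos
  have hYZ : Nat.card (A ⊓ E : Subgroup S) ≤ Nat.card Y := Subgroup.card_le_of_le hZY
  -- `x ∈ A`, `x ∉ Y` gives the lower bound on the fixed points
  have hlow : ∀ x ∈ A, 4 ≤ Nat.card (fix E x) := by
    intro x hx
    have h1 := card_le_sq (W := E) (x := x) h.hE2 (fun w hw => conj_mem x hw) (h.hA2 x hx)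
    rw [h.hE16] at h1
    by_contra hc
    have h2 : Nat.card (fix E x) ≤ 3 := by omega
    have h3 : Nat.card (fix E x) ^ 2 ≤ 3 ^ 2 := Nat.pow_le_pow_left h2 2
    omega
  have hcases : Nat.card Y = 4 ∨ Nat.card Y ≤ 2 := by
    have : Nat.card Y ≠ 3 := by
      intro h3
      rw [h3] at hY8
      revert hY8
      decide
    omega
  rcases hcases with hY4 | hY2
  · -- `t = 1`
    left
    -- for `a ∉ Y`: fixed points lie in `A ⊓ E`
    have hfixle : ∀ x ∈ A, x ∉ Y → fix E x ≤ A ⊓ E := by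
      intro x hx hxY e he
      rw [mem_fix] at he
      refine mem_inf_of_comm h he.1 ?_
      let T : Subgroup S := A ⊓ centralizer ({e} : Set S)
      have hTA : T ≤ A := inf_le_left
      have hYT : Y ≤ T := by
        intro y hy
        refine ⟨((hYmem y).1 hy).1, ?_⟩
        exact mem_centralizer_singleton_iff.2 ((((hYmem y).1 hy).2 e he.1))
      have hxT : x ∈ T := by
        refine ⟨hx, ?_⟩
        exact mem_centralizer_singleton_iff.2 (he.2)
      have hlt : Y < T := lt_of_le_of_ne hYT (fun h' => hxY (h' ▸ hxT))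
      have hTcard : 4 < Nat.card T := by
        rw [← hY4]
        exact card_lt_of_lt hlt
      have hTeq := eq_of_card_gt hTA h.hA8 hTcard
      intro a ha
      have : a ∈ T := by rw [hTeq]; exact ha
      exact (mem_centralizer_singleton_iff.1 this.2).symm
    obtain ⟨a₀, ha₀, ha₀Y⟩ : ∃ a ∈ A, a ∉ Y := by
      by_contra hc
      push Not at hc
      exact hYne (le_antisymm hYA hc)
    have hZ4 : Nat.card (A ⊓ E : Subgroup S) = 4 := by
      have h1 := Subgroup.card_le_of_le (hfixle a₀ ha₀ ha₀Y)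
      have h2 := hlow a₀ ha₀
      omega
    have hZYeq : A ⊓ E = Y := Subgroup.eq_of_le_of_card_ge hZY (by omega)
    have hnotY : ∀ x ∈ A, x ∉ E → x ∉ Y := by
      intro x hx hxE hxY
      rw [← hZYeq] at hxY
      exact hxE hxY.2
    refine ⟨hZ4, ?_, ?_, ?_⟩
    · intro x hx hxE
      refine Subgroup.eq_of_le_of_card_ge (hfixle x hx (hnotY x hx hxE)) ?_
      rw [hZ4]
      exact hlow x hx
    · intro x hx hxE T hTA hZT hxT
      have hlt : A ⊓ E < T := lt_of_le_of_ne hZT (fun h' => hxE (by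
        rw [← h'] at hxT
        exact hxT.2))
      have hTcard : 4 < Nat.card T := by
        rw [← hZ4]
        exact card_lt_of_lt hlt
      exact eq_of_card_gt hTA h.hA8 hTcard
    · intro x hx hc
      have : x ∈ Y := (hYmem x).2 ⟨hx, hc⟩
      rw [← hZYeq] at this
      exact this.2
  · -- `t = 2`
    right
    have hZ2 : Nat.card (A ⊓ E : Subgroup S) = 2 := by omega
    have hZYeq : A ⊓ E = Y := Subgroup.eq_of_le_of_card_ge hZY (by omega)
    have hcent : ∀ x ∈ A, (∀ e ∈ E, x * e = e * x) → x ∈ E := by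
      intro x hx hc
      have : x ∈ Y := (hYmem x).2 ⟨hx, hc⟩
      rw [← hZYeq] at this
      exact this.2
    -- main construction
    have key : ∀ x ∈ A, x ∉ E → ∃ b ∈ A, b ∉ E ∧
        (∀ T : Subgroup S, T ≤ A → A ⊓ E ≤ T → x ∈ T → b ∈ T → T = A) ∧
        fix (fix E x) b = A ⊓ E := by
      intro x hx hxE
      have hlt0 : Nat.card (A ⊓ E : Subgroup S) < Nat.card (fix E x) := by
        have := hlow x hx
        omega
      obtain ⟨e₀, he₀, he₀Z⟩ : ∃ e ∈ fix E x, e ∉ A ⊓ E := by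
        by_contra hc
        push Not at hc
        have := Subgroup.card_le_of_le (show fix E x ≤ A ⊓ E from hc)
        omega
      rw [mem_fix] at he₀
      let T₀ : Subgroup S := A ⊓ centralizer ({e₀} : Set S)
      have hT₀A : T₀ ≤ A := inf_le_left
      have hT₀ne : T₀ ≠ A := by
        intro h'
        apply he₀Z
        refine mem_inf_of_comm h he₀.1 (fun a ha => ?_)
        have : a ∈ T₀ := by rw [h']; exact ha
        exact (mem_centralizer_singleton_iff.1 this.2).symm
      have hT₀card : Nat.card T₀ ≤ 4 := by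
        by_contra hc
        exact hT₀ne (eq_of_card_gt hT₀A h.hA8 (by omega))
      let W₁ : Subgroup S := (A ⊓ E) ⊔ zpowers x
      have hZW : A ⊓ E ≤ W₁ := le_sup_left
      have hxW : x ∈ W₁ := (le_sup_right : zpowers x ≤ W₁) (mem_zpowers x)
      have hW₁le : ∀ T : Subgroup S, A ⊓ E ≤ T → x ∈ T → W₁ ≤ T := by
        intro T h1 h2
        refine sup_le h1 ?_
        rw [zpowers_le]
        exact h2
      have hW₁T₀ : W₁ ≤ T₀ := by
        refine hW₁le T₀ ?_ ?_
        · intro z hz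
          refine ⟨hz.1, ?_⟩
          exact mem_centralizer_singleton_iff.2 (hcomm h hz.2 he₀.1)
        · refine ⟨hx, ?_⟩
          exact mem_centralizer_singleton_iff.2 (he₀.2)
      have hW₁card : 4 ≤ Nat.card W₁ := by
        have hlt : A ⊓ E < W₁ := lt_of_le_of_ne hZW (fun h' => hxE (by
          rw [← h'] at hxW
          exact hxW.2))
        have h1 := card_lt_of_lt hlt
        have h2 : Nat.card (A ⊓ E : Subgroup S) ∣ Nat.card W₁ := Subgroup.card_dvd_of_le hZW
        rw [hZ2] at h1 h2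
        omega
      have hW₁eq : W₁ = T₀ := Subgroup.eq_of_le_of_card_ge hW₁T₀ (by omega)
      obtain ⟨b, hbA, hbT₀⟩ : ∃ b ∈ A, b ∉ T₀ := by
        by_contra hc
        push Not at hc
        exact hT₀ne (le_antisymm hT₀A hc)
      have hbW : b ∉ W₁ := by rw [hW₁eq]; exact hbT₀
      have hbE : b ∉ E := fun hbE => hbW (hZW ⟨hbA, hbE⟩)
      have hgen : ∀ T : Subgroup S, T ≤ A → A ⊓ E ≤ T → x ∈ T → b ∈ T → T = A := by
        intro T hTA hZT hxT hbT
        have hle := hW₁le T hZT hxT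
        have hlt : W₁ < T := lt_of_le_of_ne hle (fun h' => hbW (by rw [h']; exact hbT))
        exact eq_of_card_gt hTA h.hA8 (lt_of_le_of_lt hW₁card (card_lt_of_lt hlt))
      refine ⟨b, hbA, hbE, hgen, ?_⟩
      apply le_antisymm
      · intro e he
        rw [mem_fix, mem_fix] at he
        refine mem_inf_of_comm h he.1.1 ?_
        let T : Subgroup S := A ⊓ centralizer ({e} : Set S)
        have hTeq : T = A := by
          refine hgen T inf_le_left ?_ ⟨hx, ?_⟩ ⟨hbA, ?_⟩
          · intro z hz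
            refine ⟨hz.1, ?_⟩
            exact mem_centralizer_singleton_iff.2 (hcomm h hz.2 he.1.1)
          · exact mem_centralizer_singleton_iff.2 (he.1.2)
          · exact mem_centralizer_singleton_iff.2 (he.2)
        intro a ha
        have : a ∈ T := by rw [hTeq]; exact ha
        exact (mem_centralizer_singleton_iff.1 this.2).symm
      · intro z hz
        rw [mem_fix, mem_fix]
        exact ⟨⟨hz.2, hcommA h hx hz.1⟩, hcommA h hbA hz.1⟩
    refine ⟨hZ2, ?_, key, hcent⟩
    intro x hx hxE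
    obtain ⟨b, hbA, _, _, hfix⟩ := key x hx hxE
    have h1 := card_le_sq (W := fix E x) (x := b)
      (fun w hw => h.hE2 w (fix_le hw)) (conj_fix (hcommA h hx hbA)) (h.hA2 b hbA)
    rw [hfix, hZ2] at h1
    have h2 := hlow x hx
    omega

/-- The `H1` property. -/
def H1 (A E : Subgroup S) : Prop :=
  ∀ y, (∀ x ∈ A, y * x * y⁻¹ * x⁻¹ ∈ E) → (∀ z ∈ A ⊓ E, y * z = z * y) →
    ∃ f ∈ E, ∃ x ∈ A, y = f * x

lemma comm_of_inv {e a : S} (he : e * e = 1) (ha : a * a = 1) (h : (e * a) * (e * a) = 1) :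
    a * e = e * a := by
  have h1 : (e * a)⁻¹ = e * a := inv_eq_of_mul_eq_one_left h
  rw [mul_inv_rev, inv_eq_of_mul_eq_one_left he, inv_eq_of_mul_eq_one_left ha] at h1
  exact h1

/-- The commutator of `y` with an involution `a` modulo `E` lies in `C_E(a)`. -/
lemma comm_mem_fix {A E : Subgroup S} (h : Hyp A E) {y a : S} (ha : a ∈ A)
    (hy : y * a * y⁻¹ * a⁻¹ ∈ E) : y * a * y⁻¹ * a⁻¹ ∈ fix E a := by
  rw [mem_fix]
  refine ⟨hy, ?_⟩
  set e := y * a * y⁻¹ * a⁻¹ with he
  have h1 : y * a * y⁻¹ = e * a := by rw [he]; group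
  have h2 : (e * a) * (e * a) = 1 := by
    rw [← h1]
    calc y * a * y⁻¹ * (y * a * y⁻¹) = y * (a * a) * y⁻¹ := by group
      _ = 1 := by rw [h.hA2 a ha]; group
  exact comm_of_inv (h.hE2 e hy) (h.hA2 a ha) h2

theorem H1_of_T1 {A E : Subgroup S} [hn : E.Normal] [Finite S] (h : Hyp A E) (t : T1 A E) :
    H1 A E := by
  intro y hy hz
  obtain ⟨a, ha, haE⟩ : ∃ a ∈ A, a ∉ E := by
    by_contra hc
    push Not at hc
    have h1 : A ⊓ E = A := inf_eq_left.2 hc
    have h2 := t.card4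
    rw [h1, h.hA8] at h2
    omega
  have hfix := t.fixEq a ha haE
  have he := comm_mem_fix h ha (hy a ha)
  obtain ⟨g, hg, hge⟩ := exists_of_card_eq (W := E) (x := a) h.hE2 (fun w hw => conj_mem a hw)
    (h.hA2 a ha) (by rw [h.hE16, hfix, t.card4]; norm_num) he
  have hk := kill h.hE2 hg (y := y) (x := a) (e := y * a * y⁻¹ * a⁻¹) (by group) hge
  let y' := g * y
  have hy'Z : ∀ z ∈ A ⊓ E, y' * z = z * y' := by
    intro z hzz
    calc g * y * z = g * (y * z) := by group
      _ = g * (z * y) := by rw [hz z hzz]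
      _ = (g * z) * y := by group
      _ = (z * g) * y := by rw [hcomm h hg hzz.2]
      _ = _ := mul_assoc _ _ _
  let T : Subgroup S := A ⊓ centralizer ({y'} : Set S)
  have hT : T = A := by
    refine t.gen a ha haE T inf_le_left ?_ ⟨ha, ?_⟩
    · intro z hzz
      exact ⟨hzz.1, mem_centralizer_singleton_iff.2 (hy'Z z hzz).symm⟩
    · exact mem_centralizer_singleton_iff.2 hk.symm
  have hy'A : y' ∈ A := by
    refine h.hC y' (fun x hx => ?_)
    have : x ∈ T := by rw [hT]; exact hx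
    exact (mem_centralizer_singleton_iff.1 this.2).symm
  refine ⟨g, hg, y', hy'A, ?_⟩
  change y = g * (g * y)
  rw [← mul_assoc, h.hE2 g hg, one_mul]

theorem H1_of_T2 {A E : Subgroup S} [hn : E.Normal] [Finite S] (h : Hyp A E) (t : T2 A E) :
    H1 A E := by
  intro y hy hz
  obtain ⟨a, ha, haE⟩ : ∃ a ∈ A, a ∉ E := by
    by_contra hc
    push Not at hc
    have h1 : A ⊓ E = A := inf_eq_left.2 hc
    have h2 := t.card2
    rw [h1, h.hA8] at h2
    omega
  obtain ⟨b, hb, hbE, hgen, hfix⟩ := t.gen a ha haE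
  have hfa := t.fix4 a ha haE
  -- first step
  have he := comm_mem_fix h ha (hy a ha)
  obtain ⟨g, hg, hge⟩ := exists_of_card_eq (W := E) (x := a) h.hE2 (fun w hw => conj_mem a hw)
    (h.hA2 a ha) (by rw [h.hE16, hfa]; norm_num) he
  have hk := kill h.hE2 hg (y := y) (x := a) (e := y * a * y⁻¹ * a⁻¹) (by group) hge
  let y₁ := g * y
  have hy₁Z : ∀ z ∈ A ⊓ E, y₁ * z = z * y₁ := by
    intro z hzz
    calc g * y * z = g * (y * z) := by group
      _ = g * (z * y) := by rw [hz z hzz]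
      _ = (g * z) * y := by group
      _ = (z * g) * y := by rw [hcomm h hg hzz.2]
      _ = _ := mul_assoc _ _ _
  -- second step
  have hy₁b : y₁ * b * y₁⁻¹ * b⁻¹ ∈ E := by
    change g * y * b * (g * y)⁻¹ * b⁻¹ ∈ E
    have h1 : g * y * b * (g * y)⁻¹ * b⁻¹
        = g * (y * b * y⁻¹ * b⁻¹) * (b * g⁻¹ * b⁻¹) := by group
    rw [h1]
    exact E.mul_mem (E.mul_mem hg (hy b hb)) (conj_mem b (E.inv_mem hg))
  set e' := y₁ * b * y₁⁻¹ * b⁻¹ with he'
  have he'b := comm_mem_fix h hb hy₁b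
  have hab : a * b = b * a := hcommA h ha hb
  have he'a : e' ∈ fix E a := by
    rw [mem_fix]
    refine ⟨hy₁b, ?_⟩
    have hk' : y₁ * a = a * y₁ := hk
    have hk'' : y₁⁻¹ * a = a * y₁⁻¹ := by
      calc y₁⁻¹ * a = y₁⁻¹ * (a * y₁) * y₁⁻¹ := by group
        _ = y₁⁻¹ * (y₁ * a) * y₁⁻¹ := by rw [hk']
        _ = _ := by group
    have hba : b⁻¹ * a = a * b⁻¹ := by
      calc b⁻¹ * a = b⁻¹ * (a * b) * b⁻¹ := by group
        _ = b⁻¹ * (b * a) * b⁻¹ := by rw [hab]
        _ = _ := by group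
    calc a * e' = a * y₁ * b * y₁⁻¹ * b⁻¹ := by rw [he']; group
      _ = y₁ * (a * b) * y₁⁻¹ * b⁻¹ := by rw [← hk']; group
      _ = y₁ * b * (a * y₁⁻¹) * b⁻¹ := by rw [hab]; group
      _ = y₁ * b * y₁⁻¹ * (a * b⁻¹) := by rw [← hk'']; group
      _ = y₁ * b * y₁⁻¹ * (b⁻¹ * a) := by rw [hba]
      _ = e' * a := by rw [he']; group
  have he'Z : e' ∈ fix (fix E a) b := by
    rw [mem_fix] at he'b ⊢
    exact ⟨he'a, he'b.2⟩
  have hcW : Nat.card (fix E a) = Nat.card (fix (fix E a) b) ^ 2 := by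
    rw [hfix, hfa, t.card2]
    norm_num
  obtain ⟨g', hg', hge'⟩ := exists_of_card_eq (W := fix E a) (x := b)
    (fun w hw => h.hE2 w (fix_le hw)) (conj_fix hab) (h.hA2 b hb) hcW he'Z
  have hg'E : g' ∈ E := fix_le hg'
  have hk2 := kill h.hE2 hg'E (y := y₁) (x := b) (e := e') (by rw [he']; group) hge'
  let y₂ := g' * y₁
  have hy₂Z : ∀ z ∈ A ⊓ E, y₂ * z = z * y₂ := by
    intro z hzz
    calc g' * y₁ * z = g' * (y₁ * z) := by group
      _ = g' * (z * y₁) := by rw [hy₁Z z hzz]
      _ = (g' * z) * y₁ := by group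
      _ = (z * g') * y₁ := by rw [hcomm h hg'E hzz.2]
      _ = _ := mul_assoc _ _ _
  have hy₂a : y₂ * a = a * y₂ := by
    have h1 : g' * a = a * g' := ((mem_fix.1 hg').2).symm
    have hk' : y₁ * a = a * y₁ := hk
    calc g' * y₁ * a = g' * (y₁ * a) := by group
      _ = g' * (a * y₁) := by rw [hk']
      _ = (g' * a) * y₁ := by group
      _ = (a * g') * y₁ := by rw [h1]
      _ = _ := mul_assoc _ _ _
  let T : Subgroup S := A ⊓ centralizer ({y₂} : Set S)
  have hT : T = A := by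
    refine hgen T inf_le_left ?_ ⟨ha, ?_⟩ ⟨hb, ?_⟩
    · intro z hzz
      exact ⟨hzz.1, mem_centralizer_singleton_iff.2 (hy₂Z z hzz).symm⟩
    · exact mem_centralizer_singleton_iff.2 hy₂a.symm
    · exact mem_centralizer_singleton_iff.2 hk2.symm
  have hy₂A : y₂ ∈ A := by
    refine h.hC y₂ (fun x hx => ?_)
    have : x ∈ T := by rw [hT]; exact hx
    exact (mem_centralizer_singleton_iff.1 this.2).symm
  refine ⟨g * g', E.mul_mem hg hg'E, y₂, hy₂A, ?_⟩
  change y = g * g' * (g' * (g * y))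
  calc y = g * (g' * g') * g * y := by rw [h.hE2 g' hg'E]; simp [h.hE2 g hg]
    _ = _ := by group

/-- Conjugates of elements of `A ⊓ E` under elements centralizing `A` modulo `E`. -/
lemma conj_mem_inf {A E : Subgroup S} [hn : E.Normal] (h : Hyp A E) {u : S}
    (hu : ∀ x ∈ A, u * x * u⁻¹ * x⁻¹ ∈ E) {z : S} (hz : z ∈ A ⊓ E) : u * z * u⁻¹ ∈ A ⊓ E := by
  refine mem_inf_of_comm h (conj_mem u hz.2) (fun a ha => ?_)
  -- `u⁻¹ a u = e a`
  have h1 : u⁻¹ * a * u * a⁻¹ ∈ E := by
    have h2 := conj_mem u⁻¹ (hu a ha)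
    have h3 := E.inv_mem h2
    have h4 : (u⁻¹ * (u * a * u⁻¹ * a⁻¹) * u⁻¹⁻¹)⁻¹ = u⁻¹ * a * u * a⁻¹ := by group
    rw [h4] at h3
    exact h3
  set e := u⁻¹ * a * u * a⁻¹ with he
  have h5 : u⁻¹ * a * u = e * a := by rw [he]; group
  have h6 : z * (e * a) = (e * a) * z := by
    calc z * (e * a) = (z * e) * a := by group
      _ = (e * z) * a := by rw [hcomm h hz.2 h1]
      _ = e * (z * a) := by group
      _ = e * (a * z) := by rw [hcommA h hz.1 ha]
      _ = _ := by group
  rw [← h5] at h6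
  calc u * z * u⁻¹ * a = u * (z * (u⁻¹ * a * u)) * u⁻¹ := by group
    _ = u * ((u⁻¹ * a * u) * z) * u⁻¹ := by rw [h6]
    _ = _ := by group

/-- Final part: from structure to the section bound. -/
theorem card_eq_inf_mul_map {E : Subgroup S} [hn : E.Normal] [Finite S] (H : Subgroup S) :
    Nat.card H = Nat.card (H ⊓ E : Subgroup S) * Nat.card (H.map (QuotientGroup.mk' E)) := by
  let f : H →* S ⧸ E := (QuotientGroup.mk' E).comp H.subtype
  have h1 : Nat.card f.ker = Nat.card (H ⊓ E : Subgroup S) := by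
    refine Nat.card_congr ⟨fun x => ⟨x.1.1, x.1.2, ?_⟩, fun x => ⟨⟨x.1, x.2.1⟩, ?_⟩, ?_, ?_⟩
    · have := x.2
      rw [MonoidHom.mem_ker] at this
      exact (QuotientGroup.eq_one_iff _).1 this
    · rw [MonoidHom.mem_ker]
      exact (QuotientGroup.eq_one_iff _).2 x.2.2
    · intro x
      rfl
    · intro x
      rfl
  have h2 : f.range = (H.map (QuotientGroup.mk' E)) := by
    ext y
    constructor
    · rintro ⟨x, rfl⟩
      exact ⟨x.1, x.2, rfl⟩
    · rintro ⟨x, hx, rfl⟩
      exact ⟨⟨x, hx⟩, rfl⟩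
  rw [← h1, ← h2, ← Subgroup.index_ker]
  exact (Subgroup.card_mul_index _).symm

lemma comm_cyclic_unique {X : Type*} [Group X] [Finite X] (C : Subgroup X) (hC : IsCyclic C)
    (hi : C.index = 2) {c : X} (hc : c ∈ C) (hc2 : c * c = 1) (hc1 : c ≠ 1) (g : X) :
    g * c * g⁻¹ = c := by
  classical
  haveI hN : C.Normal := Subgroup.normal_of_index_eq_two hi
  have hgc : g * c * g⁻¹ ∈ C := hN.conj_mem c hc g
  have hgc2 : (g * c * g⁻¹) * (g * c * g⁻¹) = 1 := by
    calc _ = g * (c * c) * g⁻¹ := by group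
      _ = 1 := by rw [hc2]; group
  by_contra hne
  have hgc1 : g * c * g⁻¹ ≠ 1 := by
    intro h0
    apply hc1
    have : c = g⁻¹ * (g * c * g⁻¹) * g := by group
    rw [this, h0]
    group
  haveI : Fintype C := Fintype.ofFinite C
  have hle := IsCyclic.card_pow_eq_one_le (α := C) (n := 2) (by norm_num)
  have hsub : ({1, ⟨c, hc⟩, ⟨g * c * g⁻¹, hgc⟩} : Finset C) ⊆
      Finset.univ.filter (fun a : C => a ^ 2 = 1) := by
    intro a ha
    simp only [Finset.mem_insert, Finset.mem_singleton] at ha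
    simp only [Finset.mem_filter, Finset.mem_univ, true_and]
    rcases ha with rfl | rfl | rfl
    · simp
    · ext
      simp [sq, hc2]
    · ext
      simp only [sq]
      exact hgc2
  have hcard : ({1, ⟨c, hc⟩, ⟨g * c * g⁻¹, hgc⟩} : Finset C).card = 3 := by
    rw [Finset.card_insert_of_notMem, Finset.card_insert_of_notMem, Finset.card_singleton]
    · simp only [Finset.mem_singleton, Subtype.mk.injEq]
      exact fun h => hne h.symm
    · simp only [Finset.mem_insert, Finset.mem_singleton, not_or]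
      constructor
      · intro h
        exact hc1 (congrArg Subtype.val h).symm
      · intro h
        exact hgc1 (congrArg Subtype.val h).symm
  have h3 := Finset.card_le_card hsub
  rw [hcard] at h3
  omega

/-- The numerical bound. -/
theorem bound [Finite S] (hS : IsPGroup 2 S) {E : Subgroup S} [hn : E.Normal]
    (hE2 : ∀ e ∈ E, e * e = 1) (hE16 : Nat.card E = 16)
    (hCE : ∀ y, (∀ e ∈ E, y * e = e * y) → y ∈ E)
    (hcyc : ∃ C : Subgroup (S ⧸ E), IsCyclic C ∧ C.index = 2)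
    (hstar : ∀ u, u ∉ E → (∀ x, u * x * u⁻¹ * x⁻¹ ∈ E) → Nat.card (fix E u) ≤ 4) :
    SecBd 4 S := by
  classical
  intro H K hKH hc hs
  let π := QuotientGroup.mk' E
  let R : Subgroup (S ⧸ E) := H.map π
  let R₀ : Subgroup (S ⧸ E) := K.map π
  have hR₀R : R₀ ≤ R := Subgroup.map_mono hKH
  have hH := card_eq_inf_mul_map (E := E) H
  have hK := card_eq_inf_mul_map (E := E) K
  -- the key inequality on `E`
  have hB : ∀ h ∈ H, Nat.card (H ⊓ E : Subgroup S) ≤
      Nat.card (fix E h) * Nat.card (K ⊓ E : Subgroup S) := by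
    intro h hh
    have hW2 : ∀ w ∈ (H ⊓ E : Subgroup S), w * w = 1 := fun w hw => hE2 w hw.2
    have hWc : ∀ w ∈ (H ⊓ E : Subgroup S), h * w * h⁻¹ ∈ (H ⊓ E : Subgroup S) := fun w hw =>
      ⟨H.mul_mem (H.mul_mem hh hw.1) (H.inv_mem hh), hn.conj_mem w hw.2 h⟩
    have h1 := card_le_fix_mul (K := K) hW2 hWc (by
      intro w hw
      have h2 := hc w hw.1 h hh
      have h3 : w⁻¹ = w := inv_eq_self hE2 hw.2
      have h4 : w * h * w⁻¹ * h⁻¹ = w * (h * w * h⁻¹) := by
        rw [h3]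
        group
      rw [← h4]
      exact h2)
    have h2 : K ⊓ (H ⊓ E) = K ⊓ E := by
      rw [← inf_assoc, inf_eq_left.2 hKH]
    rw [h2] at h1
    refine h1.trans (Nat.mul_le_mul_right _ ?_)
    exact Subgroup.card_le_of_le (fix_mono inf_le_right h)
  have hKpos : 0 < Nat.card (K ⊓ E : Subgroup S) := Nat.card_pos
  have hR₀pos : 0 < Nat.card R₀ := Nat.card_pos
  have hgoal : Nat.card (H ⊓ E : Subgroup S) * Nat.card R ≤
      16 * (Nat.card (K ⊓ E : Subgroup S) * Nat.card R₀) → Nat.card H ≤ 2 ^ 4 * Nat.card K := by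
    intro h
    rw [hH, hK]
    exact h
  apply hgoal
  by_cases hHE : H ≤ E
  · -- `R = 1`
    have hRbot : R = ⊥ := by
      rw [eq_bot_iff]
      rintro _ ⟨x, hx, rfl⟩
      rw [mem_bot]
      exact (QuotientGroup.eq_one_iff x).2 (hHE hx)
    have h1 : Nat.card R = 1 := by rw [hRbot]; simp
    have h2 : Nat.card (H ⊓ E : Subgroup S) ≤ 16 := by
      rw [← hE16]
      exact Subgroup.card_le_of_le inf_le_right
    rw [h1, mul_one]
    nlinarith
  · -- general case
    obtain ⟨h₀, hh₀, hh₀E⟩ := SetLike.not_le_iff_exists.1 hHE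
    have hfix8 : ∀ h, h ∉ E → Nat.card (fix E h) ≤ 8 := by
      intro h hhE
      have h1 : fix E h < E := by
        refine lt_of_le_of_ne fix_le (fun he => hhE ?_)
        refine hCE h (fun e hee => ?_)
        rw [← he] at hee
        exact ((mem_fix.1 hee).2)
      have h2 := card_lt_of_lt h1
      have h3 : Nat.card (fix E h) ∣ 16 := by
        rw [← hE16]
        exact Subgroup.card_dvd_of_le fix_le
      rw [hE16] at h2
      have h4 : Nat.card (fix E h) ≠ 9 ∧ Nat.card (fix E h) ≠ 10 ∧ Nat.card (fix E h) ≠ 11 ∧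
          Nat.card (fix E h) ≠ 12 ∧ Nat.card (fix E h) ≠ 13 ∧ Nat.card (fix E h) ≠ 14 ∧
          Nat.card (fix E h) ≠ 15 := by
        refine ⟨?_, ?_, ?_, ?_, ?_, ?_, ?_⟩ <;> (intro h5; rw [h5] at h3; revert h3; decide)
      omega
    by_cases hRc : IsCyclic R
    · obtain ⟨⟨c, hcR⟩, hgen⟩ := hRc.exists_generator
      have hRle : R ≤ zpowers c := by
        intro r hr
        obtain ⟨i, hi⟩ := mem_zpowers_iff.1 (hgen ⟨r, hr⟩)
        have : c ^ i = r := congrArg Subtype.val hi
        rw [← this]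
        exact zpow_mem (mem_zpowers c) i
      have h1 := relIndex_le_two_of_cyclic (K := R₀) hRle (by
        rintro _ ⟨x, hx, rfl⟩
        exact ⟨x * x, hs x hx, by simp [π]⟩)
      have h2 := card_eq_relIndex_mul hR₀R
      have h3 := hB h₀ hh₀
      have h4 := hfix8 h₀ hh₀E
      have h5 : Nat.card (H ⊓ E : Subgroup S) ≤ 8 * Nat.card (K ⊓ E : Subgroup S) :=
        h3.trans (Nat.mul_le_mul_right _ h4)
      have h6 : Nat.card R ≤ 2 * Nat.card R₀ := by
        rw [h2]
        exact Nat.mul_le_mul_right _ h1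
      calc _ ≤ (8 * Nat.card (K ⊓ E : Subgroup S)) * (2 * Nat.card R₀) := Nat.mul_le_mul h5 h6
        _ = _ := by ring
    · -- `R` not cyclic
      obtain ⟨C, hCc, hCi⟩ := hcyc
      obtain ⟨⟨c, hcC⟩, hgen⟩ := hCc.exists_generator
      have hCle : C ≤ zpowers c := by
        intro r hr
        obtain ⟨i, hi⟩ := mem_zpowers_iff.1 (hgen ⟨r, hr⟩)
        have : c ^ i = r := congrArg Subtype.val hi
        rw [← this]
        exact zpow_mem (mem_zpowers c) i
      let Y : Subgroup (S ⧸ E) := C ⊓ R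
      have hYle : Y ≤ zpowers c := inf_le_left.trans hCle
      have h1 := card_eq_relIndex_mul_inf C R
      have h2 : C.relIndex R ≤ 2 := by
        haveI hCn : C.Normal := Subgroup.normal_of_index_eq_two hCi
        rw [← hCi]
        exact Nat.le_of_dvd (by rw [hCi]; norm_num) (Subgroup.relIndex_dvd_index_of_normal C R)
      have hYne : Y ≠ ⊥ := by
        intro hY
        apply hRc
        have hY1 : Nat.card (C ⊓ R : Subgroup (S ⧸ E)) = 1 := by
          change Nat.card Y = 1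
          rw [hY]
          simp
        rw [hY1, mul_one] at h1
        have hR2 : Nat.card R ≤ 2 := by omega
        have hRpos : 0 < Nat.card R := Nat.card_pos
        have hcases : Nat.card R = 1 ∨ Nat.card R = 2 := by omega
        rcases hcases with h | h
        · haveI : Subsingleton R := (Nat.card_eq_one_iff_unique.1 h).1
          exact isCyclic_of_subsingleton
        · haveI : Fact (Nat.Prime (Nat.card R)) := ⟨by rw [h]; exact Nat.prime_two⟩
          exact isCyclic_of_prime_card rfl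
      let K₁ : Subgroup (S ⧸ E) := R₀ ⊓ Y
      have hK₁Y : K₁ ≤ Y := inf_le_right
      have h3 := relIndex_le_two_of_cyclic (K := K₁) hYle (by
        intro y hy
        refine ⟨?_, Y.mul_mem hy hy⟩
        obtain ⟨x, hx, rfl⟩ := hy.2
        exact ⟨x * x, hs x hx, by simp [π]⟩)
      have h4 := card_eq_relIndex_mul hK₁Y
      have h5 : Nat.card K₁ ≤ Nat.card R₀ := Subgroup.card_le_of_le inf_le_left
      have h6 : Nat.card R ≤ 4 * Nat.card R₀ := by
        have h7 : Nat.card Y ≤ 2 * Nat.card K₁ := by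
          rw [h4]
          exact Nat.mul_le_mul_right _ h3
        have h8 : Nat.card R = C.relIndex R * Nat.card Y := h1
        rw [h8]
        calc _ ≤ 2 * (2 * Nat.card R₀) := Nat.mul_le_mul h2 (h7.trans (Nat.mul_le_mul_left _ h5))
          _ = _ := by ring
      -- an involution of `Y`
      obtain ⟨⟨r, hrY⟩, hr1⟩ := Subgroup.ne_bot_iff_exists_ne_one.1 hYne
      have hr1' : r ≠ 1 := fun h => hr1 (Subtype.ext h)
      obtain ⟨h, hh, rfl⟩ := hrY.2
      have hP : IsPGroup 2 (S ⧸ E) := hS.to_quotient E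
      obtain ⟨j, hj⟩ := IsPGroup.iff_orderOf.1 hP (π h)
      have hj0 : j ≠ 0 := by
        rintro rfl
        rw [pow_zero, orderOf_eq_one_iff] at hj
        exact hr1' hj
      obtain ⟨i, rfl⟩ := Nat.exists_eq_succ_of_ne_zero hj0
      let u := h ^ (2 ^ i)
      have huH : u ∈ H := H.pow_mem hh _
      have hπu : π u = (π h) ^ (2 ^ i) := map_pow _ _ _
      have hord : (π u) ^ 2 = 1 := by
        rw [hπu, ← pow_mul, ← pow_succ, ← hj]
        exact pow_orderOf_eq_one _
      have hπu1 : π u ≠ 1 := by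
        rw [hπu]
        intro h0
        have h1 := orderOf_dvd_of_pow_eq_one h0
        rw [hj] at h1
        have h2 : 2 ^ (i + 1) ≤ 2 ^ i := Nat.le_of_dvd (by positivity) h1
        rw [pow_succ] at h2
        have : 0 < 2 ^ i := by positivity
        omega
      have huE : u ∉ E := fun hu => hπu1 ((QuotientGroup.eq_one_iff u).2 hu)
      have hπuC : π u ∈ C := by
        rw [hπu]
        exact C.pow_mem hrY.1 _
      have hcent : ∀ x : S, u * x * u⁻¹ * x⁻¹ ∈ E := by
        intro x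
        have h1 := comm_cyclic_unique C hCc hCi hπuC (by rw [← sq]; exact hord) hπu1 (π x)
        rw [← QuotientGroup.eq_one_iff]
        change π (u * x * u⁻¹ * x⁻¹) = 1
        simp only [map_mul, map_inv]
        have h2 : π u * π x = π x * π u := by
          calc π u * π x = (π x * π u * (π x)⁻¹) * π x := by rw [h1]
            _ = _ := by group
        rw [h2]
        group
      have hfu := hstar u huE hcent
      have h7 : Nat.card (H ⊓ E : Subgroup S) ≤ 4 * Nat.card (K ⊓ E : Subgroup S) :=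
        (hB u huH).trans (Nat.mul_le_mul_right _ hfu)
      calc _ ≤ (4 * Nat.card (K ⊓ E : Subgroup S)) * (4 * Nat.card R₀) := Nat.mul_le_mul h7 h6
        _ = _ := by ring

/-- `u` centralizing `A` modulo `E` with large fixed points centralizes `A ⊓ E`. -/
theorem comm_of_T1 {A E : Subgroup S} [hn : E.Normal] [Finite S] (h : Hyp A E) (t : T1 A E)
    {u : S} (hu : ∀ x ∈ A, u * x * u⁻¹ * x⁻¹ ∈ E) (h8 : Nat.card (fix E u) = 8) :
    ∀ z ∈ A ⊓ E, u * z = z * u := by
  intro z hz
  obtain ⟨a, ha, haE⟩ : ∃ a ∈ A, a ∉ E := by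
    by_contra hc
    push Not at hc
    have h1 : A ⊓ E = A := inf_eq_left.2 hc
    have h2 := t.card4
    rw [h1, h.hA8] at h2
    omega
  have hfix := t.fixEq a ha haE
  have hzf : z ∈ fix E a := by rw [hfix]; exact hz
  obtain ⟨g, hg, hge⟩ := exists_of_card_eq (W := E) (x := a) h.hE2 (fun w hw => conj_mem a hw)
    (h.hA2 a ha) (by rw [h.hE16, hfix, t.card4]; norm_num) hzf
  -- `fix E u` has index two in `E`
  let W : Subgroup E := (fix E u).subgroupOf E
  have hWcard : Nat.card W = 8 := by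
    rw [← h8]
    exact Nat.card_congr (Subgroup.subgroupOfEquivOfLe fix_le).toEquiv
  have hWi : W.index = 2 := by
    have h1 := W.card_mul_index
    rw [hWcard, h.hE16] at h1
    omega
  -- `a` preserves `fix E u`
  have hua : ∃ e ∈ E, u * a * u⁻¹ = e * a := by
    refine ⟨_, hu a ha, ?_⟩
    group
  obtain ⟨e, he, hea⟩ := hua
  have hinv : ∀ v ∈ fix E u, a * v * a⁻¹ ∈ fix E u := by
    intro v hv
    rw [mem_fix] at hv ⊢
    refine ⟨conj_mem a hv.1, ?_⟩
    have hvc : u * v * u⁻¹ = v := by rw [hv.2]; group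
    have h1 : u * (a * v * a⁻¹) * u⁻¹ = a * v * a⁻¹ := by
      calc u * (a * v * a⁻¹) * u⁻¹ = (u * a * u⁻¹) * (u * v * u⁻¹) * (u * a * u⁻¹)⁻¹ := by group
        _ = (e * a) * v * (e * a)⁻¹ := by rw [hea, hvc]
        _ = e * (a * v * a⁻¹) * e⁻¹ := by group
        _ = (a * v * a⁻¹) * e * e⁻¹ := by rw [hcomm h he (conj_mem a hv.1)]
        _ = _ := by group
    calc u * (a * v * a⁻¹) = u * (a * v * a⁻¹) * u⁻¹ * u := by group
      _ = _ := by rw [h1]
  have hgW : g ∈ fix E u ↔ a * g * a⁻¹ ∈ fix E u := by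
    constructor
    · exact hinv g
    · intro h1
      have h2 := hinv _ h1
      have haa := h.hA2 a ha
      have hai : a⁻¹ = a := inv_eq_of_mul_eq_one_left haa
      have h3 : a * (a * g * a⁻¹) * a⁻¹ = g := by
        rw [hai]
        calc a * (a * g * a) * a = (a * a) * g * (a * a) := by group
          _ = g := by rw [haa]; group
      rwa [h3] at h2
  have hmem : z ∈ fix E u := by
    have h1 := (Subgroup.mul_mem_iff_of_index_two hWi (a := ⟨g, hg⟩)
      (b := ⟨a * g * a⁻¹, conj_mem a hg⟩)).2 (by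
        rw [Subgroup.mem_subgroupOf, Subgroup.mem_subgroupOf]
        exact hgW)
    rw [Subgroup.mem_subgroupOf] at h1
    rw [hge]
    exact h1
  exact (mem_fix.1 hmem).2

/-- In case `t = 2`: `A ⊓ E` has order two so is centralized. -/
theorem comm_of_T2 {A E : Subgroup S} [hn : E.Normal] [Finite S] (h : Hyp A E) (t : T2 A E)
    {u : S} (hu : ∀ x ∈ A, u * x * u⁻¹ * x⁻¹ ∈ E) :
    ∀ z ∈ A ⊓ E, u * z = z * u := by
  intro z hz
  by_cases hz1 : z = 1
  · rw [hz1]
    group
  have h1 := conj_mem_inf h hu hz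
  have hc := t.card2
  have huz1 : u * z * u⁻¹ ≠ 1 := by
    intro h0
    apply hz1
    have : z = u⁻¹ * (u * z * u⁻¹) * u := by group
    rw [this, h0]
    group
  have h2 : u * z * u⁻¹ = z := by
    obtain ⟨p, q, hpq, hall⟩ := Nat.card_eq_two_iff.1 hc
    have hmem : ∀ w (hw : w ∈ A ⊓ E), w ≠ 1 → ∀ w' (hw' : w' ∈ A ⊓ E), w' ≠ 1 → w = w' := by
      intro w hw hw1 w' hw' hw1'
      have h3 : ∀ y : (A ⊓ E : Subgroup S), y = p ∨ y = q := by
        intro y
        have : y ∈ ({p, q} : Set _) := by rw [hall]; trivial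
        simpa using this
      have hone := h3 1
      have hw3 := h3 ⟨w, hw⟩
      have hw3' := h3 ⟨w', hw'⟩
      have hw2 : (⟨w, hw⟩ : (A ⊓ E : Subgroup S)) ≠ 1 := fun h => hw1 (congrArg Subtype.val h)
      have hw2' : (⟨w', hw'⟩ : (A ⊓ E : Subgroup S)) ≠ 1 := fun h => hw1' (congrArg Subtype.val h)
      have : (⟨w, hw⟩ : (A ⊓ E : Subgroup S)) = ⟨w', hw'⟩ := by
        rcases hone with h0 | h0 <;> rcases hw3 with h4 | h4 <;> rcases hw3' with h5 | h5 <;>
          first
          | exact h4.trans h5.symm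
          | exact absurd (h4.trans h0.symm) hw2
          | exact absurd (h5.trans h0.symm) hw2'
      exact congrArg Subtype.val this
    exact hmem _ h1 huz1 _ hz hz1
  calc u * z = u * z * u⁻¹ * u := by group
    _ = _ := by rw [h2]

/-- A self-centralizing four-subgroup gives a cyclic subgroup of index two. -/
theorem cyc_of_selfcent {X : Type*} [Group X] [Finite X] (hX : IsPGroup 2 X) (D : Subgroup X)
    (hD : Nat.card D = 4) (hC : centralizer (D : Set X) = D) :
    ∃ C : Subgroup X, IsCyclic C ∧ C.index = 2 := by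
  haveI : Fact (Nat.Prime 2) := ⟨Nat.prime_two⟩
  obtain ⟨n, hn⟩ := IsPGroup.iff_card.1 hX
  have hD' : Nat.card D = 2 ^ 2 := by rw [hD]; norm_num
  have hdvd : 2 ^ 2 ∣ 2 ^ n := by
    rw [← hD', ← hn]
    exact Subgroup.card_subgroup_dvd_card D
  have hn2 : 2 ≤ n := (Nat.pow_dvd_pow_iff_le_right (by norm_num)).1 hdvd
  by_cases hn3 : 3 ≤ n
  · have hcl := Cfsg.Agent.Lib.PGroups.MaximalClass.class_of_self_centralizing n hn D hD' hC
    exact Cfsg.Agent.Lib.PGroups.MaximalClass.exists_cyclic_index_two_of_class hn3 hn hcl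
  · have hn' : n = 2 := by omega
    have hcard : Nat.card X = 4 := by rw [hn, hn']; norm_num
    obtain ⟨x, hx⟩ := exists_prime_orderOf_dvd_card' (G := X) 2 (by rw [hcard]; norm_num)
    refine ⟨zpowers x, inferInstance, ?_⟩
    have h1 := (zpowers x).card_mul_index
    rw [Nat.card_zpowers, hx, hcard] at h1
    omega

lemma eq_of_card_two {X : Type*} [Group X] {T : Subgroup X} (hc : Nat.card T = 2) {w w' : X}
    (hw : w ∈ T) (hw1 : w ≠ 1) (hw' : w' ∈ T) (hw1' : w' ≠ 1) : w = w' := by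
  obtain ⟨p, q, hpq, hall⟩ := Nat.card_eq_two_iff.1 hc
  have h3 : ∀ y : T, y = p ∨ y = q := by
    intro y
    have : y ∈ ({p, q} : Set _) := by rw [hall]; trivial
    simpa using this
  have hone := h3 1
  have hw3 := h3 ⟨w, hw⟩
  have hw3' := h3 ⟨w', hw'⟩
  have hw2 : (⟨w, hw⟩ : T) ≠ 1 := fun h => hw1 (congrArg Subtype.val h)
  have hw2' : (⟨w', hw'⟩ : T) ≠ 1 := fun h => hw1' (congrArg Subtype.val h)
  have : (⟨w, hw⟩ : T) = ⟨w', hw'⟩ := by
    rcases hone with h0 | h0 <;> rcases hw3 with h4 | h4 <;> rcases hw3' with h5 | h5 <;>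
      first
      | exact h4.trans h5.symm
      | exact absurd (h4.trans h0.symm) hw2
      | exact absurd (h5.trans h0.symm) hw2'
  exact congrArg Subtype.val this

lemma two_lt_card {X : Type*} [Group X] [Finite X] {T : Subgroup X} {v z : X} (hv : v ∈ T)
    (hz : z ∈ T) (hv1 : v ≠ 1) (hz1 : z ≠ 1) (hzv : z ≠ v) : 2 < Nat.card T := by
  classical
  haveI : Fintype T := Fintype.ofFinite T
  have hcard : ({1, ⟨v, hv⟩, ⟨z, hz⟩} : Finset T).card = 3 := by
    rw [Finset.card_insert_of_notMem, Finset.card_insert_of_notMem, Finset.card_singleton]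
    · simp only [Finset.mem_singleton, Subtype.mk.injEq]
      exact fun h => hzv h.symm
    · simp only [Finset.mem_insert, Finset.mem_singleton, not_or]
      constructor
      · intro h
        exact hv1 (congrArg Subtype.val h).symm
      · intro h
        exact hz1 (congrArg Subtype.val h).symm
  have h1 := Finset.card_le_univ ({1, ⟨v, hv⟩, ⟨z, hz⟩} : Finset T)
  rw [hcard, ← Nat.card_eq_fintype_card] at h1
  omega

theorem cyc_of_T2 [Finite S] (hS : IsPGroup 2 S) {A E : Subgroup S} [hn : E.Normal] (h : Hyp A E)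
    (t : T2 A E) : ∃ C : Subgroup (S ⧸ E), IsCyclic C ∧ C.index = 2 := by
  let π := QuotientGroup.mk' E
  let Abar : Subgroup (S ⧸ E) := A.map π
  have hcard : Nat.card Abar = 4 := by
    have h1 := card_eq_inf_mul_map (E := E) A
    rw [h.hA8, t.card2] at h1
    change 8 = 2 * Nat.card Abar at h1
    omega
  refine cyc_of_selfcent (hS.to_quotient E) Abar hcard ?_
  apply le_antisymm
  · intro r hr
    obtain ⟨x, rfl⟩ := QuotientGroup.mk'_surjective E r
    have h1 : ∀ a ∈ A, x * a * x⁻¹ * a⁻¹ ∈ E := by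
      intro a ha
      rw [← QuotientGroup.eq_one_iff]
      have h2 : π a * π x = π x * π a := (mem_centralizer_iff.1 hr) (π a) ⟨a, ha, rfl⟩
      change π (x * a * x⁻¹ * a⁻¹) = 1
      simp only [map_mul, map_inv]
      rw [← h2]
      group
    obtain ⟨f, hf, x', hx', rfl⟩ := H1_of_T2 h t x h1 (comm_of_T2 h t h1)
    refine ⟨x', hx', ?_⟩
    change π x' = π (f * x')
    rw [map_mul, show π f = 1 from (QuotientGroup.eq_one_iff f).2 hf, one_mul]
  · rintro _ ⟨a, ha, rfl⟩
    rw [mem_centralizer_iff]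
    rintro _ ⟨b, hb, rfl⟩
    rw [← map_mul, ← map_mul, hcommA h hb ha]

theorem cyc_of_T1 [Finite S] (hS : IsPGroup 2 S) {A E : Subgroup S} [hn : E.Normal] (h : Hyp A E)
    (t : T1 A E) : ∃ C : Subgroup (S ⧸ E), IsCyclic C ∧ C.index = 2 := by
  classical
  haveI : Fact (Nat.Prime 2) := ⟨Nat.prime_two⟩
  let π := QuotientGroup.mk' E
  have hP : IsPGroup 2 (S ⧸ E) := hS.to_quotient E
  let Abar : Subgroup (S ⧸ E) := A.map π
  have hcard : Nat.card Abar = 2 := by
    have h1 := card_eq_inf_mul_map (E := E) A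
    rw [h.hA8, t.card4] at h1
    change 8 = 4 * Nat.card Abar at h1
    omega
  obtain ⟨a, ha, haE⟩ : ∃ a ∈ A, a ∉ E := by
    by_contra hc
    push Not at hc
    have h1 : A ⊓ E = A := inf_eq_left.2 hc
    have h2 := t.card4
    rw [h1, h.hA8] at h2
    omega
  have hπa : π a ≠ 1 := fun h0 => haE ((QuotientGroup.eq_one_iff a).1 h0)
  let D : Subgroup (S ⧸ E) := centralizer ({π a} : Set (S ⧸ E))
  have hmemD : ∀ r, r ∈ D ↔ r * π a = π a * r := fun r => mem_centralizer_singleton_iff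
  have hAD : Abar ≤ D := by
    rintro _ ⟨b, hb, rfl⟩
    rw [hmemD, ← map_mul, ← map_mul, hcommA h hb ha]
  -- elements of `D` centralize `A` modulo `E`
  have hcm : ∀ x : S, π x ∈ D → ∀ x' ∈ A, x * x' * x⁻¹ * x'⁻¹ ∈ E := by
    intro x hx
    let T : Subgroup S := A ⊓ (centralizer ({π x} : Set (S ⧸ E))).comap π
    have hT : T = A := by
      refine t.gen a ha haE T inf_le_left ?_ ⟨ha, ?_⟩
      · intro z hz
        refine ⟨hz.1, ?_⟩
        change π z ∈ centralizer ({π x} : Set (S ⧸ E))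
        rw [show π z = 1 from (QuotientGroup.eq_one_iff z).2 hz.2]
        exact Subgroup.one_mem _
      · change π a ∈ centralizer ({π x} : Set (S ⧸ E))
        rw [mem_centralizer_singleton_iff]
        exact ((hmemD _).1 hx).symm
    intro x' hx'
    have hx'T : x' ∈ T := by rw [hT]; exact hx'
    have h2 : π x' * π x = π x * π x' := mem_centralizer_singleton_iff.1 hx'T.2
    rw [← QuotientGroup.eq_one_iff]
    change π (x * x' * x⁻¹ * x'⁻¹) = 1
    simp only [map_mul, map_inv]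
    rw [← h2]
    group
  -- a central involution in `A ⊓ E`
  have hE1 : E ≠ ⊥ := by
    intro h0
    have := h.hE16
    rw [h0] at this
    simp at this
  have hvx := Cfsg.Agent.Lib.Involutions2.NormalFour.inf_center_ne_bot hS E hE1
  obtain ⟨⟨v, hv⟩, hv1⟩ := Subgroup.ne_bot_iff_exists_ne_one.1 hvx
  have hv1' : v ≠ 1 := fun h0 => hv1 (Subtype.ext h0)
  have hvc : ∀ g, g * v = v * g := fun g => mem_center_iff.1 hv.2 g
  have hvZ : v ∈ A ⊓ E := ⟨h.hC v (fun a _ => (hvc a).symm), hv.1⟩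
  -- the set of the other elements
  let X : Set S := ((A ⊓ E : Subgroup S) : Set S) \ {1, v}
  have hXcard : Nat.card X = 2 := by
    rw [Nat.card_coe_set_eq, Set.ncard_diff (by
      intro w hw
      rcases hw with rfl | rfl
      · exact Subgroup.one_mem _
      · exact hvZ)]
    rw [Set.ncard_pair hv1'.symm]
    have : ((A ⊓ E : Subgroup S) : Set S).ncard = 4 := by
      rw [← Nat.card_coe_set_eq]
      exact t.card4
    rw [this]
  obtain ⟨⟨ζ, hζ⟩⟩ : Nonempty X := by
    apply (Nat.card_pos_iff.1 (by rw [hXcard]; norm_num)).1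
  have hζZ : ζ ∈ A ⊓ E := hζ.1
  have hζ1 : ζ ≠ 1 := fun h0 => hζ.2 (by left; exact h0)
  have hζv : ζ ≠ v := fun h0 => hζ.2 (by right; exact h0)
  -- the bound on `D`
  let f : S ⧸ E → X := fun r =>
    if hr : r.out * ζ * r.out⁻¹ ∈ X then ⟨_, hr⟩ else ⟨ζ, hζ⟩
  have hconjX : ∀ x : S, π x ∈ D → x * ζ * x⁻¹ ∈ X := by
    intro x hx
    refine ⟨conj_mem_inf h (hcm x hx) hζZ, ?_⟩
    rintro (h0 | h0)
    · apply hζ1
      have : ζ = x⁻¹ * (x * ζ * x⁻¹) * x := by group
      rw [this, h0]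
      group
    · apply hζv
      have h1 : x * v * x⁻¹ = v := by rw [hvc x]; group
      have : x * ζ * x⁻¹ = x * v * x⁻¹ := by rw [h0, h1]
      exact mul_left_cancel (mul_right_cancel this)
  have houtmk : ∀ r : S ⧸ E, π r.out = r := fun r => QuotientGroup.out_eq' r
  have hrel : Abar.relIndex D ≤ Nat.card X := by
    refine relIndex_le_of_fun Abar D f ?_
    intro r hr r' hr' hf
    have h1 : f r = ⟨_, hconjX r.out (by rw [houtmk]; exact hr)⟩ :=
      dif_pos (hconjX r.out (by rw [houtmk]; exact hr))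
    have h2 : f r' = ⟨_, hconjX r'.out (by rw [houtmk]; exact hr')⟩ :=
      dif_pos (hconjX r'.out (by rw [houtmk]; exact hr'))
    rw [h1, h2] at hf
    have h3 : r.out * ζ * r.out⁻¹ = r'.out * ζ * r'.out⁻¹ := congrArg Subtype.val hf
    set x := r.out with hx
    set x' := r'.out with hx'
    let w := x⁻¹ * x'
    have hπw : π w = r⁻¹ * r' := by
      change π (x⁻¹ * x') = _
      rw [map_mul, map_inv, houtmk, houtmk]
    have hwD : π w ∈ D := by
      rw [hπw]
      exact D.mul_mem (D.inv_mem hr) hr'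
    have hwζ : w * ζ = ζ * w := by
      have h4 : x⁻¹ * x' * ζ = ζ * (x⁻¹ * x') := by
        calc x⁻¹ * x' * ζ = x⁻¹ * (x' * ζ * x'⁻¹) * x' := by group
          _ = x⁻¹ * (x * ζ * x⁻¹) * x' := by rw [h3]
          _ = _ := by group
      exact h4
    have hwZ : ∀ z ∈ A ⊓ E, w * z = z * w := by
      let T : Subgroup S := (A ⊓ E) ⊓ centralizer ({w} : Set S)
      have hTle : T ≤ A ⊓ E := inf_le_left
      have hvT : v ∈ T := ⟨hvZ, mem_centralizer_singleton_iff.2 (hvc w).symm⟩
      have hζT : ζ ∈ T := ⟨hζZ, mem_centralizer_singleton_iff.2 hwζ.symm⟩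
      have h5 := two_lt_card hvT hζT hv1' hζ1 hζv
      have h6 : Nat.card T ∣ 4 := by
        rw [← t.card4]
        exact Subgroup.card_dvd_of_le hTle
      have h7 : Nat.card T ≤ 4 := Nat.le_of_dvd (by norm_num) h6
      have h8 : Nat.card T = 4 := by
        have : Nat.card T ≠ 3 := by
          intro h9
          rw [h9] at h6
          revert h6
          decide
        omega
      have hTeq : T = A ⊓ E := Subgroup.eq_of_le_of_card_ge hTle (by rw [h8, t.card4])
      intro z hz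
      have hzT : z ∈ T := by rw [hTeq]; exact hz
      exact (mem_centralizer_singleton_iff.1 hzT.2).symm
    obtain ⟨g, hg, x'', hx'', hgx⟩ := H1_of_T1 h t w (hcm w hwD) hwZ
    refine ⟨x'', hx'', ?_⟩
    rw [← hπw, hgx, map_mul, show π g = 1 from (QuotientGroup.eq_one_iff g).2 hg, one_mul]
  rw [hXcard] at hrel
  have hDcard : Nat.card D ≤ 4 := by
    rw [card_eq_relIndex_mul hAD, hcard]
    omega
  obtain ⟨m, hm⟩ := IsPGroup.iff_card.1 (hP.to_subgroup D)
  have hm2 : m ≤ 2 := by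
    by_contra hc
    have h1 : 2 ^ 3 ≤ 2 ^ m := Nat.pow_le_pow_right (by norm_num) (by omega)
    omega
  have hπaD : π a ∈ D := by
    rw [hmemD]
  have hm0 : m ≠ 0 := by
    rintro rfl
    have h1 : Nat.card D = 1 := by rw [hm]; norm_num
    have h2 := Subgroup.eq_bot_of_card_eq D h1
    rw [h2, mem_bot] at hπaD
    exact hπa hπaD
  have hcases : m = 1 ∨ m = 2 := by omega
  rcases hcases with rfl | rfl
  · -- `|D| = 2`
    have hD2 : Nat.card D = 2 := by rw [hm]; norm_num
    haveI : Nontrivial (S ⧸ E) := ⟨⟨π a, 1, hπa⟩⟩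
    have hcn := hP.center_nontrivial
    obtain ⟨⟨c, hc⟩, hc1⟩ := exists_ne (1 : center (S ⧸ E))
    have hc1' : c ≠ 1 := fun h0 => hc1 (Subtype.ext h0)
    have hcD : c ∈ D := by
      rw [hmemD]
      exact (mem_center_iff.1 hc (π a)).symm
    have hca : c = π a := eq_of_card_two hD2 hcD hc1' hπaD hπa
    have hDtop : D = ⊤ := by
      rw [eq_top_iff]
      intro r _
      rw [hmemD, ← hca]
      exact (mem_center_iff.1 hc r)
    have hPc : Nat.card (S ⧸ E) = 2 := by
      rw [← hD2, hDtop]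
      exact (Subgroup.card_top).symm
    refine ⟨⊥, inferInstance, ?_⟩
    rw [Subgroup.index_bot, hPc]
  · -- `|D| = 4`
    have hD4 : Nat.card D = 4 := by rw [hm]; norm_num
    refine cyc_of_selfcent hP D hD4 ?_
    apply le_antisymm
    · intro r hr
      rw [hmemD]
      exact (mem_centralizer_iff.1 hr (π a) hπaD).symm
    · have hcD : IsMulCommutative D :=
        IsPGroup.isMulCommutative_of_card_eq_prime_sq (p := 2) (G := D) (by rw [hD4]; norm_num)
      intro r hr
      rw [mem_centralizer_iff]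
      intro s hs
      have := hcD.is_comm.comm (⟨s, hs⟩ : D) ⟨r, hr⟩
      exact congrArg Subtype.val this

/-- Main theorem. -/
theorem main [Finite S] (hS : IsPGroup 2 S) {A E : Subgroup S} [hn : E.Normal] (h : Hyp A E) :
    SecBd 4 S := by
  haveI : Fact (Nat.Prime 2) := ⟨Nat.prime_two⟩
  -- unify the two cases
  have hdata : H1 A E ∧ (∀ x ∈ A, (∀ e ∈ E, x * e = e * x) → x ∈ E) ∧
      (∀ x ∈ A, x ∉ E → Nat.card (fix E x) = 4) ∧
      (∃ C : Subgroup (S ⧸ E), IsCyclic C ∧ C.index = 2) ∧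
      (∀ u, (∀ x ∈ A, u * x * u⁻¹ * x⁻¹ ∈ E) → Nat.card (fix E u) = 8 →
        ∀ z ∈ A ⊓ E, u * z = z * u) := by
    rcases types hS h with t | t
    · refine ⟨H1_of_T1 h t, t.central, ?_, cyc_of_T1 hS h t, fun u hu h8 => comm_of_T1 h t hu h8⟩
      intro x hx hxE
      rw [t.fixEq x hx hxE, t.card4]
    · exact ⟨H1_of_T2 h t, t.central, t.fix4, cyc_of_T2 hS h t, fun u hu _ => comm_of_T2 h t hu⟩
  obtain ⟨hH1, hcentral, hfix4, hcyc, hcomm8⟩ := hdata
  -- `C_S(E) = E`
  have hCE : ∀ y, (∀ e ∈ E, y * e = e * y) → y ∈ E := by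
    by_contra hc
    push Not at hc
    obtain ⟨y, hy, hyE⟩ := hc
    let Cn : Subgroup S := centralizer (E : Set S)
    haveI hCn : Cn.Normal := by
      constructor
      intro c hc g
      rw [mem_centralizer_iff] at hc ⊢
      intro e he
      have h1 := hc (g⁻¹ * e * g) (by
        have := hn.conj_mem e he g⁻¹
        simpa using this)
      calc e * (g * c * g⁻¹) = g * ((g⁻¹ * e * g) * c) * g⁻¹ := by group
        _ = g * (c * (g⁻¹ * e * g)) * g⁻¹ := by rw [h1]
        _ = _ := by group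
    have hlt : E < Cn := by
      refine lt_of_le_of_ne ?_ ?_
      · intro e he
        rw [mem_centralizer_iff]
        intro f hf
        exact hcomm h hf he
      · intro h0
        apply hyE
        rw [h0, mem_centralizer_iff]
        intro e he
        exact (hy e he).symm
    obtain ⟨c, hcC, hcE, hcc⟩ :=
      Cfsg.Agent.Lib.Involutions2.NormalFour.exists_mem_comm_mem hS E Cn hlt
    have hcC' : ∀ e ∈ E, c * e = e * c := fun e he => ((mem_centralizer_iff.1 hcC) e he).symm
    obtain ⟨f, hf, x, hx, rfl⟩ := hH1 c (by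
      intro x _
      have h1 := E.inv_mem (hcc x)
      have h2 : (x * c * x⁻¹ * c⁻¹)⁻¹ = c * x * c⁻¹ * x⁻¹ := by group
      rwa [h2] at h1) (fun z hz => hcC' z hz.2)
    apply hcE
    refine E.mul_mem hf (hcentral x hx (fun e he => ?_))
    have h1 := hcC' e he
    have h2 : f * e = e * f := hcomm h hf he
    have h3 : f * (x * e) = f * (e * x) := by
      calc f * (x * e) = f * x * e := by group
        _ = e * (f * x) := h1
        _ = (e * f) * x := by group
        _ = (f * e) * x := by rw [h2]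
        _ = _ := by group
    exact mul_left_cancel h3
  refine bound hS h.hE2 h.hE16 hCE hcyc ?_
  intro u huE hu
  by_contra hc
  have hu8 : Nat.card (fix E u) = 8 := by
    have h3 : Nat.card (fix E u) ∣ 16 := by
      rw [← h.hE16]
      exact Subgroup.card_dvd_of_le fix_le
    have h1 : fix E u < E := by
      refine lt_of_le_of_ne fix_le (fun he => huE ?_)
      refine hCE u (fun e hee => ?_)
      rw [← he] at hee
      exact ((mem_fix.1 hee).2)
    have h2 := card_lt_of_lt h1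
    rw [h.hE16] at h2
    have h4 : Nat.card (fix E u) ≠ 5 ∧ Nat.card (fix E u) ≠ 6 ∧ Nat.card (fix E u) ≠ 7 ∧
        Nat.card (fix E u) ≠ 9 ∧ Nat.card (fix E u) ≠ 10 ∧ Nat.card (fix E u) ≠ 11 ∧
        Nat.card (fix E u) ≠ 12 ∧ Nat.card (fix E u) ≠ 13 ∧ Nat.card (fix E u) ≠ 14 ∧
        Nat.card (fix E u) ≠ 15 := by
      refine ⟨?_, ?_, ?_, ?_, ?_, ?_, ?_, ?_, ?_, ?_⟩ <;> (intro h5; rw [h5] at h3; revert h3; decide)
    omega
  have huA : ∀ x ∈ A, u * x * u⁻¹ * x⁻¹ ∈ E := fun x _ => hu x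
  obtain ⟨f, hf, x, hx, rfl⟩ := hH1 u huA (hcomm8 u huA hu8)
  have hxE : x ∉ E := fun hxE => huE (E.mul_mem hf hxE)
  have hfe : fix E (f * x) = fix E x := by
    ext e
    rw [mem_fix, mem_fix]
    refine and_congr_right (fun he => ?_)
    have h2 : f * e = e * f := hcomm h hf he
    constructor
    · intro h3
      have h4 : f * (x * e) = f * (e * x) := by
        calc f * (x * e) = f * x * e := by group
          _ = e * (f * x) := h3
          _ = (e * f) * x := by group
          _ = (f * e) * x := by rw [h2]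
          _ = _ := by group
      exact mul_left_cancel h4
    · intro h3
      calc f * x * e = f * (x * e) := by group
        _ = f * (e * x) := by rw [h3]
        _ = (f * e) * x := by group
        _ = (e * f) * x := by rw [h2]
        _ = _ := by group
  rw [hfe, hfix4 x hx hxE] at hu8
  omega

end Cfsg.Agent.Lib.SelfCentE8.R4
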