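import Cfsg.Agent.Lib.SelfCentE8.R2
import Cfsg.Agent.Lib.SelfCentE8.R3
import Cfsg.Agent.Lib.SelfCentE8.R4

/-!
# A finite 2-group with a self-centralizing `E₈` has sectional 2-rank at most 4
-/

set_option autoImplicit false

namespace Cfsg.Agent.Lib.SelfCentE8.Main

open Cfsg.Agent.Lib.TwoFusion.SecRank Cfsg.Agent.Lib.SelfCentE8.N1

variable {S : Type*} [Group S]

lemma exists_normal_16 [Finite S] (hS : IsPGroup 2 S) :
    ∀ (n : ℕ) (F : Subgroup S), F.Normal → Nat.card F = 2 ^ (n + 4) → ∃ E ≤ F, E.Normal ∧ Nat.card E = 16 := by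
  haveI : Fact (Nat.Prime 2) := ⟨Nat.prime_two⟩
  intro n
  induction n with
  | zero =>
    intro F hF hc
    exact ⟨F, le_rfl, hF, by simpa using hc⟩
  | succ n ih =>
    intro F hF hc
    haveI := hF
    have hlt : (⊥ : Subgroup S) < F := by
      rw [bot_lt_iff_ne_bot]
      rintro rfl
      rw [Subgroup.card_bot] at hc
      have : 1 < 2 ^ (n + 1 + 4) := Nat.one_lt_two_pow (by omega)
      omega
    obtain ⟨L, hLn, -, hLF, hi⟩ := Cfsg.Agent.Lib.PGroups.Basic.exists_normal_relIndex_below hS hlt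
    have h1 := card_eq_relIndex_mul hLF
    rw [hi, hc, show n + 1 + 4 = (n + 4) + 1 by omega, pow_succ'] at h1
    have h2 : Nat.card L = 2 ^ (n + 4) := (Nat.eq_of_mul_eq_mul_left (by norm_num) h1).symm
    obtain ⟨E, hEL, hEn, hE16⟩ := ih L hLn h2
    exact ⟨E, hEL.trans hLF, hEn, hE16⟩

/-- The main theorem. -/
theorem secBd_main [Finite S] (hS : IsPGroup 2 S) (A : Subgroup S) (hA2 : ∀ a ∈ A, a * a = 1) (hA8 : Nat.card A = 8)
    (hAc : ∀ x, (∀ a ∈ A, x * a = a * x) → x ∈ A) : SecBd 4 S := by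
  by_cases h1 : ∃ F : Subgroup S, F.Normal ∧ (∀ x ∈ F, x * x = 1) ∧ 8 < Nat.card F
  · obtain ⟨F, hFn, hFel, hF8⟩ := h1
    obtain ⟨n, hn⟩ := IsPGroup.iff_card.1 (hS.to_subgroup F)
    have hn4 : 4 ≤ n := by
      by_contra h
      have h3 : n ≤ 3 := by omega
      have h4 : 2 ^ n ≤ 2 ^ 3 := Nat.pow_le_pow_right (by norm_num) h3
      rw [hn] at hF8
      omega
    obtain ⟨m, rfl⟩ : ∃ m, n = m + 4 := ⟨n - 4, by omega⟩
    obtain ⟨E, hEF, hEn, hE16⟩ := exists_normal_16 hS m F hFn hn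
    haveI := hEn
    exact R4.main hS (A := A) (E := E) ⟨hA2, hA8, hAc, fun e he => hFel e (hEF he), hE16⟩
  · push Not at h1
    by_cases h2 : ∃ F : Subgroup S, F.Normal ∧ (∀ x ∈ F, x * x = 1) ∧ Nat.card F = 8
    · obtain ⟨F, hFn, hFel, hF8⟩ := h2
      haveI := hFn
      exact R3.main hS (A := A) (E := F) ⟨hA2, hA8, hAc, hFel, hF8, h1⟩
    · push Not at h2
      apply R2.main hS A hA2 hA8 hAc
      intro F hFn hFel
      have h3 := h1 F hFn hFel
      have h4 := h2 F hFn hFel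
      obtain ⟨n, hn⟩ := IsPGroup.iff_card.1 (hS.to_subgroup F)
      rw [hn] at h3 h4 ⊢
      have hn3 : n ≤ 3 := by
        by_contra h
        have h5 : 2 ^ 4 ≤ 2 ^ n := Nat.pow_le_pow_right (by norm_num) (by omega)
        omega
      interval_cases n <;> simp_all

/-- The sectional form. -/
theorem sectional_main [Finite S] (hS : IsPGroup 2 S) (A : Subgroup S) (hA2 : ∀ a ∈ A, a * a = 1)
    (hA8 : Nat.card A = 8) (hAc : ∀ x, (∀ a ∈ A, x * a = a * x) → x ∈ A) : Cfsg.SectionalPRankLE 2 4 S :=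
  sectional_of_secBd (secBd_main hS A hA2 hA8 hAc)

end Cfsg.Agent.Lib.SelfCentE8.Main
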