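import Cfsg.Agent.Lib.SelfCentE8.K1

/-!
# The branch `V[2] ≰ 2V`
-/

set_option autoImplicit false
set_option linter.unusedSectionVars false

namespace Cfsg.Agent.Lib.SelfCentE8.N1

open Cfsg.Agent.Lib.TwoFusion.SecRank Cfsg.Agent.Lib.SelfCentE8.Setup Cfsg.Agent.Lib.SelfCentE8.Count
open Cfsg.Agent.Lib.SelfCentE8.TCore Cfsg.Agent.Lib.SelfCentE8.TCount Cfsg.Agent.Lib.SelfCentE8.Gamma
open Cfsg.Agent.Lib.SelfCentE8.Level Cfsg.Agent.Lib.SelfCentE8.Xhat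
open Mod

/-- No normal elementary abelian subgroup of order above four. -/
def NoE8 (S : Type*) [Group S] : Prop :=
  ∀ F : Subgroup S, F.Normal → (∀ x ∈ F, x * x = 1) → Nat.card F ≤ 4

/-- No normal abelian subgroup in which a four-group consists of squares. -/
def NoZ44 (S : Type*) [Group S] : Prop :=
  ∀ N : Subgroup S, N.Normal → (∀ x ∈ N, ∀ y ∈ N, x * y = y * x) →
    ∀ W : Subgroup S, W ≤ N → Nat.card W = 4 → (∀ w ∈ W, w * w = 1) → ¬ ∀ w ∈ W, ∃ u ∈ N, u * u = w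

variable {S V : Type*} [Group S] [AddCommGroup V] {D : Mod S V}

/-- The image of an additive subgroup. -/
def Bsub (D : Mod S V) (F : AddSubgroup V) : Subgroup S where
  carrier := {g | ∃ t ∈ F, g = D.ι t}
  mul_mem' := by
    rintro _ _ ⟨u, hu, rfl⟩ ⟨v, hv, rfl⟩
    exact ⟨u + v, F.add_mem hu hv, (D.ι_add u v).symm⟩
  one_mem' := ⟨0, F.zero_mem, D.ι_zero.symm⟩
  inv_mem' := by
    rintro _ ⟨u, hu, rfl⟩
    exact ⟨-u, F.neg_mem hu, (D.ι_neg u).symm⟩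

lemma card_Bsub (F : AddSubgroup V) : Nat.card (Bsub D F) = Nat.card F := by
  refine Nat.card_congr (Equiv.ofBijective (fun t : F => (⟨D.ι t, t, t.2, rfl⟩ : Bsub D F)) ⟨?_, ?_⟩).symm
  · intro u v h
    exact Subtype.ext (D.ι_inj (congrArg Subtype.val h))
  · rintro ⟨_, t, ht, rfl⟩
    exact ⟨⟨t, ht⟩, rfl⟩

lemma comm_of_fix {x : S} {t : V} (h : D.ρ x t = t) : x * D.ι t = D.ι t * x := by
  have h1 := D.conj x t
  rw [h] at h1
  calc x * D.ι t = x * D.ι t * x⁻¹ * x := by group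
    _ = _ := by rw [h1]

section ext
variable {x : S} {F : AddSubgroup V} {w : V}

/-- `F ∪ x F`. -/
def Ext (D : Mod S V) (x : S) (F : AddSubgroup V) {w : V} (hw : w ∈ F) (hsq : x * x = D.ι w)
    (hc : ∀ t ∈ F, D.ρ x t = t) : Subgroup S where
  carrier := {g | ∃ t ∈ F, g = D.ι t ∨ g = x * D.ι t}
  mul_mem' := by
    rintro _ _ ⟨u, hu, rfl | rfl⟩ ⟨v, hv, rfl | rfl⟩
    · exact ⟨u + v, F.add_mem hu hv, Or.inl (D.ι_add u v).symm⟩
    · refine ⟨u + v, F.add_mem hu hv, Or.inr ?_⟩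
      rw [D.ι_add, ← mul_assoc, ← comm_of_fix (hc u hu)]
      group
    · refine ⟨u + v, F.add_mem hu hv, Or.inr ?_⟩
      rw [D.ι_add]
      group
    · refine ⟨w + u + v, F.add_mem (F.add_mem hw hu) hv, Or.inl ?_⟩
      rw [D.ι_add, D.ι_add, ← hsq]
      calc x * D.ι u * (x * D.ι v) = x * (D.ι u * x) * D.ι v := by group
        _ = x * (x * D.ι u) * D.ι v := by rw [← comm_of_fix (hc u hu)]
        _ = _ := by group
  one_mem' := ⟨0, F.zero_mem, Or.inl D.ι_zero.symm⟩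
  inv_mem' := by
    rintro _ ⟨u, hu, rfl | rfl⟩
    · exact ⟨-u, F.neg_mem hu, Or.inl (D.ι_neg u).symm⟩
    · refine ⟨-u + -w, F.add_mem (F.neg_mem hu) (F.neg_mem hw), Or.inr ?_⟩
      have h1 : x⁻¹ = x * D.ι (-w) := by
        rw [D.ι_neg, ← hsq]
        group
      rw [mul_inv_rev, ← D.ι_neg, h1, D.ι_add, ← mul_assoc, ← comm_of_fix (hc _ (F.neg_mem hu))]
      group

variable (hw : w ∈ F) (hsq : x * x = D.ι w) (hc : ∀ t ∈ F, D.ρ x t = t)

lemma Bsub_le_Ext : Bsub D F ≤ Ext D x F hw hsq hc := by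
  rintro _ ⟨t, ht, rfl⟩
  exact ⟨t, ht, Or.inl rfl⟩

lemma mem_Ext_self : x ∈ Ext D x F hw hsq hc :=
  ⟨0, F.zero_mem, Or.inr (by simp)⟩

lemma Ext_comm : ∀ y ∈ Ext D x F hw hsq hc, ∀ y' ∈ Ext D x F hw hsq hc, y * y' = y' * y := by
  rintro _ ⟨u, hu, rfl | rfl⟩ _ ⟨v, hv, rfl | rfl⟩
  · exact D.ι_comm u v
  · calc D.ι u * (x * D.ι v) = (D.ι u * x) * D.ι v := by group
      _ = (x * D.ι u) * D.ι v := by rw [← comm_of_fix (hc u hu)]
      _ = x * (D.ι u * D.ι v) := by group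
      _ = x * (D.ι v * D.ι u) := by rw [D.ι_comm]
      _ = _ := by group
  · calc x * D.ι u * D.ι v = x * (D.ι u * D.ι v) := by group
      _ = x * (D.ι v * D.ι u) := by rw [D.ι_comm]
      _ = (x * D.ι v) * D.ι u := by group
      _ = (D.ι v * x) * D.ι u := by rw [← comm_of_fix (hc v hv)]
      _ = _ := by group
  · calc x * D.ι u * (x * D.ι v) = x * (D.ι u * x) * D.ι v := by group
      _ = x * (x * D.ι u) * D.ι v := by rw [← comm_of_fix (hc u hu)]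
      _ = x * x * (D.ι u * D.ι v) := by group
      _ = x * x * (D.ι v * D.ι u) := by rw [D.ι_comm]
      _ = x * (x * D.ι v) * D.ι u := by group
      _ = x * (D.ι v * x) * D.ι u := by rw [← comm_of_fix (hc v hv)]
      _ = _ := by group

lemma Ext_normal (hF : D.Inv F) (hg : ∀ g, ∃ r ∈ F, g * x * g⁻¹ = D.ι r * x) :
    (Ext D x F hw hsq hc).Normal := by
  constructor
  rintro _ ⟨t, ht, rfl | rfl⟩ g
  · exact ⟨D.ρ g t, hF g t ht, Or.inl (D.conj g t)⟩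
  · obtain ⟨r, hr, hgr⟩ := hg g
    refine ⟨r + D.ρ g t, F.add_mem hr (hF g t ht), Or.inr ?_⟩
    calc g * (x * D.ι t) * g⁻¹ = (g * x * g⁻¹) * (g * D.ι t * g⁻¹) := by group
      _ = (D.ι r * x) * D.ι (D.ρ g t) := by rw [hgr, D.conj]
      _ = (x * D.ι r) * D.ι (D.ρ g t) := by rw [← comm_of_fix (hc r hr)]
      _ = _ := by rw [D.ι_add]; group

end ext

section D3

/-- `V[2] + 2V`. -/
def D3 (V : Type*) [AddCommGroup V] : AddSubgroup V := (Tor 2 : AddSubgroup V) ⊔ Dbl 2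

lemma inv_D3 : D.Inv (D3 V) := D.inv_sup (D.inv_Tor 2) (D.inv_Dbl 2)

lemma Tor_le_D3 {w : V} (h : (2 : ℕ) • w = 0) : w ∈ D3 V := AddSubgroup.mem_sup_left h

lemma Dbl_le_D3 {w : V} (h : w ∈ (Dbl 2 : AddSubgroup V)) : w ∈ D3 V := AddSubgroup.mem_sup_right h

variable [Finite V] {e₀ : V} (hW : Nat.card (Tor 2 : AddSubgroup V) = 4) (he₀2 : (2 : ℕ) • e₀ = 0)
  (he₀ : e₀ ∉ (Dbl 2 : AddSubgroup V))
include hW he₀2 he₀

lemma D3_sub {u w : V} (hu : u ∉ D3 V) (hw : w ∉ D3 V) : u - w ∈ D3 V := by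
  have hp : mkQ e₀ ≠ 0 := fun h => he₀ (mkQ_eq_zero.1 h)
  have hq : mkQ u ≠ 0 := fun h => hu (Dbl_le_D3 (mkQ_eq_zero.1 h))
  have hpq : mkQ e₀ ≠ mkQ u := by
    intro h
    have h1 := mkQ_eq.1 h.symm
    apply hu
    have e : u = (u - e₀) + e₀ := by abel
    rw [e]
    exact (D3 V).add_mem (Dbl_le_D3 h1) (Tor_le_D3 he₀2)
  rcases klein_cover (card_Q hW) Q_two hp hq hpq (mkQ w) with h | h | h | h
  · exact absurd (Dbl_le_D3 (mkQ_eq_zero.1 h)) hw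
  · exfalso
    have h1 := mkQ_eq.1 h
    apply hw
    have e : w = (w - e₀) + e₀ := by abel
    rw [e]
    exact (D3 V).add_mem (Dbl_le_D3 h1) (Tor_le_D3 he₀2)
  · exact Dbl_le_D3 (mkQ_eq.1 h.symm)
  · rw [← mkQ_add] at h
    have h1 := mkQ_eq.1 h
    have e : u - w = e₀ - (w - (e₀ + u)) - (2 : ℕ) • e₀ := by
      rw [two_nsmul]; abel
    rw [e, he₀2, sub_zero]
    exact (D3 V).sub_mem (Tor_le_D3 he₀2) (Dbl_le_D3 h1)

end D3

section main
variable [Finite S] [Finite V]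

lemma no_U (hS : IsPGroup 2 S) (hW : Nat.card (Tor 2 : AddSubgroup V) = 4) (L : Lev V 0) (hE8 : NoE8 S)
    (hZ : NoZ44 S) {x : S} (hX : x ∈ X D) (h4 : ∀ v, D.δ x v ∈ (Dbl 4 : AddSubgroup V))
    (hsq : x * x ∈ D.B) (hxB : x ∉ D.B) : False := by
  obtain ⟨M, hM⟩ := exists_exp D hS
  obtain ⟨e₀, he₀2, he₀⟩ := L.ex
  have he₀' : e₀ ∉ (Dbl 2 : AddSubgroup V) := by simpa using he₀
  have hsqρ := D.mem_B_iff.1 hsq
  -- `δ` is elementary
  have step : ∀ v, ∃ u, (2 : ℕ) • D.δ x v = (4 : ℕ) • D.δ x u := by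
    intro v
    obtain ⟨u, hu⟩ := h4 v
    have hu' : (4 : ℕ) • u = D.δ x v := hu
    refine ⟨-u, ?_⟩
    have h3 := hsqρ v
    rw [D.ρ_mul, D.ρ_eq x v, map_add, D.ρ_eq x v, D.ρ_eq x (D.δ x v), ← hu', D.δ_nsmul] at h3
    rw [D.δ_neg, smul_neg, ← hu']
    have e : (2 : ℕ) • (4 : ℕ) • u = v + (4 : ℕ) • u + ((4 : ℕ) • u + (4 : ℕ) • D.δ x u) - v - (4 : ℕ) • D.δ x u := by
      abel
    rw [e, h3]
    abel
  have iter : ∀ k : ℕ, ∀ v, ∃ u, (2 : ℕ) • D.δ x v = (2 ^ (k + 1) : ℕ) • D.δ x u := by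
    intro k
    induction k with
    | zero => exact fun v => ⟨v, by norm_num⟩
    | succ k ih =>
      intro v
      obtain ⟨u, hu⟩ := ih v
      obtain ⟨u', hu'⟩ := step u
      refine ⟨u', ?_⟩
      rw [hu, pow_succ, mul_nsmul', hu', ← mul_nsmul']
      congr 1
      rw [pow_succ]
      ring
  have h2δ : ∀ v, (2 : ℕ) • D.δ x v = 0 := by
    intro v
    obtain ⟨u, hu⟩ := iter M v
    rw [hu, pow_succ, mul_nsmul', hM]
  -- the element `z`
  obtain ⟨v₂, hv₂⟩ : ∃ v, D.δ x v ≠ 0 := by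
    by_contra h
    push Not at h
    exact hxB (D.mem_B_iff.2 (fun v => by
      have := h v
      rwa [δ_def, sub_eq_zero] at this))
  obtain ⟨z, hz⟩ : ∃ z, z = D.δ x v₂ := ⟨_, rfl⟩
  have hz0 : z ≠ 0 := hz ▸ hv₂
  have hz2 : (2 : ℕ) • z = 0 := hz ▸ h2δ v₂
  obtain ⟨s, hs⟩ : ∃ s, (4 : ℕ) • s = z := by
    obtain ⟨s, hs⟩ := h4 v₂
    exact ⟨s, hs.trans hz.symm⟩
  have he₀0 : e₀ ≠ 0 := fun h => he₀' (h ▸ zero_mem _)
  have hz2V : z ∈ (Dbl 2 : AddSubgroup V) := ⟨(2 : ℕ) • s, by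
    change (2 : ℕ) • (2 : ℕ) • s = z
    rw [← hs, ← mul_nsmul']⟩
  have hze : z ≠ e₀ := fun h => he₀' (h ▸ hz2V)
  have hcov := fun w (hw : (2 : ℕ) • w = 0) => tor_cover hW hz2 he₀2 hz0 he₀0 hze hw
  have hI : ∀ t ∈ (Dbl 2 : AddSubgroup V), (2 : ℕ) • t = 0 → t = 0 ∨ t = z := by
    intro t ht ht2
    rcases hcov t ht2 with h | h | h | h
    · exact Or.inl h
    · exact Or.inr h
    · exact absurd (h ▸ ht) he₀'
    · exfalso
      apply he₀'
      have e : e₀ = t - z := by rw [h]; abel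
      rw [e]
      exact (Dbl 2).sub_mem ht hz2V
  have hgz : ∀ g, D.ρ g z = z := by
    intro g
    rcases hI _ (D.inv_Dbl 2 g z hz2V) (by rw [← map_nsmul, hz2, map_zero]) with h | h
    · exact absurd (D.ρ_inj g (h.trans (map_zero _).symm)) hz0
    · exact h
  have hδ0 : ∀ v ∈ D3 V, D.δ x v = 0 := by
    intro v hv
    obtain ⟨w, hw, d, ⟨t, ht⟩, rfl⟩ := AddSubgroup.mem_sup.1 hv
    have ht' : (2 : ℕ) • t = d := ht
    rw [D.δ_add, ← ht', D.δ_nsmul, h2δ, δ_def, mem_X.1 hX w hw]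
    simp
  have hv₂D : v₂ ∉ D3 V := fun h => hv₂ (hδ0 _ h)
  have hδz : ∀ v, v ∉ D3 V → D.δ x v = z := by
    intro v hv
    have h1 := hδ0 _ (D3_sub hW he₀2 he₀' hv hv₂D)
    rw [D.δ_sub, sub_eq_zero] at h1
    rw [h1, hz]
  have hT4 : ∀ t : V, (4 : ℕ) • t = 0 → t ∈ D3 V := by
    intro t ht
    have h2 : (2 : ℕ) • ((2 : ℕ) • t) = 0 := by rw [← mul_nsmul']; exact ht
    rcases hI ((2 : ℕ) • t) ⟨t, rfl⟩ h2 with h | h
    · exact Tor_le_D3 h
    · have h3 : (2 : ℕ) • (t - (2 : ℕ) • s) = 0 := by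
        rw [smul_sub, h, ← mul_nsmul', hs, sub_self]
      have e : t = (t - (2 : ℕ) • s) + (2 : ℕ) • s := by abel
      rw [e]
      exact (D3 V).add_mem (Tor_le_D3 h3) (Dbl_le_D3 ⟨s, rfl⟩)
  -- the conjugates
  have hE : ∀ x' : S, (∀ v, D.ρ x' v = D.ρ x v) → ∀ w', x' * x' = D.ι w' → (2 : ℕ) • w' = 0 → ∀ g : S,
      ∃ r, g * x' * g⁻¹ = D.ι r * x' ∧ D.ρ g w' = (2 : ℕ) • r + w' ∧ (4 : ℕ) • r = 0 := by
    intro x' hρ w' hx' hw' g
    obtain ⟨r, hr⟩ : ∃ r, g * x' * g⁻¹ * x'⁻¹ = D.ι r := by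
      apply D.cent
      intro v
      simp only [ρ_mul]
      have hv : D.ρ x' (D.ρ x'⁻¹ v) = v := D.ρ_ρ_inv x' v
      obtain ⟨u, hu⟩ : ∃ u, u = D.ρ x'⁻¹ v := ⟨_, rfl⟩
      rw [← hu] at hv ⊢
      rw [hρ, D.ρ_eq x] at hv
      rw [hρ, D.ρ_eq x, map_add, D.ρ_ρ_inv, ← hv]
      congr 1
      by_cases hu3 : u ∈ D3 V
      · rw [hδ0 _ hu3, hδ0 _ (inv_D3 _ _ hu3), map_zero]
      · have h1 : D.ρ g⁻¹ u ∉ D3 V := by
          intro h
          apply hu3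
          have := inv_D3 (D := D) g _ h
          rwa [D.ρ_ρ_inv] at this
        rw [hδz _ hu3, hδz _ h1, hgz]
    have hr' : g * x' * g⁻¹ = D.ι r * x' := by
      rw [← hr]; group
    have hsq' : D.ι (D.ρ g w') = D.ι (r + D.ρ x' r + w') := by
      rw [← D.conj g w', D.ι_add, D.ι_add, ← D.conj x' r, ← hx']
      calc g * (x' * x') * g⁻¹ = (g * x' * g⁻¹) * (g * x' * g⁻¹) := by group
        _ = (D.ι r * x') * (D.ι r * x') := by rw [hr']
        _ = _ := by group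
    have h1 := D.ι_inj hsq'
    rw [hρ, D.ρ_eq x r] at h1
    have h2 : (2 : ℕ) • D.ρ g w' = 0 := by rw [← map_nsmul, hw', map_zero]
    have h3 : (4 : ℕ) • r = 0 := by
      have e : (4 : ℕ) • r = (2 : ℕ) • D.ρ g w' - (2 : ℕ) • w' - (2 : ℕ) • D.δ x r := by
        rw [h1]; abel
      rw [e, h2, hw', h2δ]
      simp
    refine ⟨r, hr', ?_, h3⟩
    rw [h1, hδ0 r (hT4 r h3), two_nsmul]
    abel
  -- adjust
  obtain ⟨b, hb⟩ := D.mem_B.1 hsq
  have hxb : D.δ x b = 0 := by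
    rw [δ_def, sub_eq_zero]
    apply D.ι_inj
    rw [← D.conj, ← hb]
    group
  have hbD : b ∈ D3 V := by
    by_contra h
    have := hδz b h
    rw [hxb] at this
    exact hz0 this.symm
  obtain ⟨w, hw, d, ⟨v', hv'⟩, hwd⟩ := AddSubgroup.mem_sup.1 hbD
  have hv'' : (2 : ℕ) • v' = d := hv'
  have hw2 : (2 : ℕ) • w = 0 := hw
  obtain ⟨x', hx'⟩ : ∃ x', x' = D.ι (-v') * x := ⟨_, rfl⟩
  have hρ' : ∀ v, D.ρ x' v = D.ρ x v := by
    intro v
    rw [hx', D.ρ_mul, D.ρ_ι]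
  obtain ⟨w', hw'⟩ : ∃ w', w' = w - D.δ x v' := ⟨_, rfl⟩
  have hw'2 : (2 : ℕ) • w' = 0 := by
    rw [hw', smul_sub, hw2, h2δ, sub_zero]
  have hx'sq : x' * x' = D.ι w' := by
    have e : w' = -v' + D.ρ x (-v') + b := by
      rw [hw', ← hwd, ← hv'', map_neg, D.ρ_eq x v', two_nsmul]
      abel
    rw [e, D.ι_add, D.ι_add, ← D.conj, hx', ← hb]
    group
  have hx'B : x' ∉ D.B := by
    intro h
    apply hxB
    rw [D.mem_B_iff] at h ⊢
    intro v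
    rw [← hρ', h]
  have hx'T4 : ∀ t : V, (4 : ℕ) • t = 0 → D.ρ x' t = t := by
    intro t ht
    rw [hρ', D.ρ_eq x t, hδ0 t (hT4 t ht), add_zero]
  -- the reflection case
  have hrefl : ∀ t : V, (2 : ℕ) • t = w' → (4 : ℕ) • t = 0 → False := by
    intro t ht2 ht4
    obtain ⟨x'', hx''⟩ : ∃ x'', x'' = x' * D.ι (-t) := ⟨_, rfl⟩
    have hρ'' : ∀ v, D.ρ x'' v = D.ρ x v := by
      intro v
      rw [hx'', D.ρ_mul, D.ρ_ι, hρ']
    have hcm : x' * D.ι (-t) = D.ι (-t) * x' := comm_of_fix (by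
      rw [map_neg, hx'T4 t ht4])
    have hx''sq : x'' * x'' = D.ι 0 := by
      have e : (0 : V) = w' + -t + -t := by rw [← ht2, two_nsmul]; abel
      rw [e, D.ι_add, D.ι_add, ← hx'sq, hx'']
      calc x' * D.ι (-t) * (x' * D.ι (-t)) = x' * (D.ι (-t) * x') * D.ι (-t) := by group
        _ = x' * (x' * D.ι (-t)) * D.ι (-t) := by rw [← hcm]
        _ = _ := by group
    have hx''B : x'' ∉ D.B := by
      intro h
      apply hxB
      rw [D.mem_B_iff] at h ⊢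
      intro v
      rw [← hρ'', h]
    have hc : ∀ t ∈ (Tor 2 : AddSubgroup V), D.ρ x'' t = t := by
      intro t ht
      rw [hρ'']
      exact mem_X.1 hX t ht
    let F := Ext D x'' (Tor 2) (zero_mem _) hx''sq hc
    have hFn : F.Normal := by
      apply Ext_normal _ _ _ (D.inv_Tor 2)
      intro g
      obtain ⟨r, h1, h2, _⟩ := hE x'' hρ'' 0 hx''sq (by simp) g
      refine ⟨r, ?_, h1⟩
      rw [map_zero, add_zero] at h2
      exact h2.symm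
    have hFel : ∀ y ∈ F, y * y = 1 := by
      rintro _ ⟨u, hu, rfl | rfl⟩
      · rw [← D.ι_add, ← two_nsmul, show (2 : ℕ) • u = 0 from hu, D.ι_zero]
      · have hcu : x'' * D.ι u = D.ι u * x'' := comm_of_fix (hc u hu)
        calc x'' * D.ι u * (x'' * D.ι u) = x'' * (D.ι u * x'') * D.ι u := by group
          _ = x'' * (x'' * D.ι u) * D.ι u := by rw [← hcu]
          _ = (x'' * x'') * (D.ι u * D.ι u) := by group
          _ = 1 := by
            rw [hx''sq, ← D.ι_add, ← two_nsmul, show (2 : ℕ) • u = 0 from hu, D.ι_zero, one_mul]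
    have hle := hE8 F hFn hFel
    have hlt : Bsub D (Tor 2) < F := by
      refine SetLike.lt_iff_le_and_exists.2 ⟨Bsub_le_Ext _ _ _, x'', mem_Ext_self _ _ _, ?_⟩
      rintro ⟨t, _, ht⟩
      exact hx''B (D.mem_B.2 ⟨t, ht⟩)
    have hcard : Nat.card (Bsub D (Tor 2)) < Nat.card F := by
      have h1 : ((Bsub D (Tor 2) : Subgroup S) : Set S) ⊂ (F : Set S) := hlt
      have h2 := Set.ncard_lt_ncard h1 (Set.toFinite _)
      have h3 : Nat.card (Bsub D (Tor 2)) = ((Bsub D (Tor 2) : Subgroup S) : Set S).ncard := Nat.card_coe_set_eq _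
      have h4 : Nat.card F = (F : Set S).ncard := Nat.card_coe_set_eq _
      rw [h3, h4]
      exact h2
    rw [card_Bsub, hW] at hcard
    omega
  -- the square case
  have hsqc : w' ≠ 0 → w' ≠ z → False := by
    intro hw'0 hw'z
    have hw'4 : w' ∈ (Tor 4 : AddSubgroup V) := by
      change (4 : ℕ) • w' = 0
      rw [show (4 : ℕ) = 2 * 2 from rfl, mul_nsmul, hw'2, smul_zero]
    have hc : ∀ t ∈ (Tor 4 : AddSubgroup V), D.ρ x' t = t := fun t ht => hx'T4 t ht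
    let N := Ext D x' (Tor 4) hw'4 hx'sq hc
    have hNn : N.Normal := by
      apply Ext_normal _ _ _ (D.inv_Tor 4)
      intro g
      obtain ⟨r, h1, _, h3⟩ := hE x' hρ' w' hx'sq hw'2 g
      exact ⟨r, h3, h1⟩
    have hle : Bsub D (Tor 2) ≤ N := by
      rintro _ ⟨t, ht, rfl⟩
      refine Bsub_le_Ext _ _ _ ⟨t, ?_, rfl⟩
      change (4 : ℕ) • t = 0
      rw [show (4 : ℕ) = 2 * 2 from rfl, mul_nsmul, show (2 : ℕ) • t = 0 from ht, smul_zero]
    apply hZ N hNn (Ext_comm _ _ _) (Bsub D (Tor 2)) hle (by rw [card_Bsub, hW])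
    · rintro _ ⟨t, ht, rfl⟩
      rw [← D.ι_add, ← two_nsmul, show (2 : ℕ) • t = 0 from ht, D.ι_zero]
    · rintro _ ⟨y, hy, rfl⟩
      have ht4 : (2 : ℕ) • s ∈ (Tor 4 : AddSubgroup V) := by
        change (4 : ℕ) • (2 : ℕ) • s = 0
        rw [smul_comm, hs, hz2]
      have hsqs : D.ι ((2 : ℕ) • s) * D.ι ((2 : ℕ) • s) = D.ι z := by
        rw [← D.ι_add, ← two_nsmul, ← mul_nsmul', hs]
      have hcm : x' * D.ι ((2 : ℕ) • s) = D.ι ((2 : ℕ) • s) * x' := comm_of_fix (hc _ ht4)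
      rcases tor_cover hW hz2 hw'2 hz0 hw'0 (Ne.symm hw'z) hy with h | h | h | h
      · exact ⟨1, one_mem _, by rw [h, D.ι_zero, one_mul]⟩
      · exact ⟨D.ι ((2 : ℕ) • s), Bsub_le_Ext _ _ _ ⟨_, ht4, rfl⟩, by rw [h, hsqs]⟩
      · exact ⟨x', mem_Ext_self _ _ _, by rw [h, hx'sq]⟩
      · refine ⟨x' * D.ι ((2 : ℕ) • s), N.mul_mem (mem_Ext_self _ _ _) (Bsub_le_Ext _ _ _ ⟨_, ht4, rfl⟩), ?_⟩
        rw [h, add_comm z w', D.ι_add, ← hsqs, ← hx'sq]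
        calc x' * D.ι ((2 : ℕ) • s) * (x' * D.ι ((2 : ℕ) • s))
            = x' * (D.ι ((2 : ℕ) • s) * x') * D.ι ((2 : ℕ) • s) := by group
          _ = x' * (x' * D.ι ((2 : ℕ) • s)) * D.ι ((2 : ℕ) • s) := by rw [← hcm]
          _ = (x' * x') * (D.ι ((2 : ℕ) • s) * D.ι ((2 : ℕ) • s)) := by group
  by_cases h0 : w' = 0
  · exact hrefl 0 (by rw [h0, smul_zero]) (smul_zero _)
  · by_cases hzz : w' = z
    · refine hrefl ((2 : ℕ) • s) ?_ ?_
      · rw [hzz, ← mul_nsmul', hs]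
      · rw [smul_comm, hs, hz2]
    · exact hsqc h0 hzz

/-- Elements acting trivially modulo `4V`, centralizing `V[2]`, lie in `B`. -/
lemma U_le_B (hS : IsPGroup 2 S) (hW : Nat.card (Tor 2 : AddSubgroup V) = 4) (L : Lev V 0) (hE8 : NoE8 S)
    (hZ : NoZ44 S) {y : S} (hX : y ∈ X D) (h4 : ∀ v, D.δ y v ∈ (Dbl 4 : AddSubgroup V)) : y ∈ D.B := by
  classical
  by_contra hy
  obtain ⟨k, hk⟩ := hS y
  have hex : ∃ n, y ^ (2 ^ n) ∈ D.B := ⟨k, by
    rw [hk]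
    exact one_mem _⟩
  have h0 : Nat.find hex ≠ 0 := by
    intro h
    have := Nat.find_spec hex
    rw [h] at this
    simp only [pow_zero, pow_one] at this
    exact hy this
  obtain ⟨i, hi⟩ := Nat.exists_eq_succ_of_ne_zero h0
  have h1 : y ^ (2 ^ i) ∉ D.B := Nat.find_min hex (by omega)
  have h2 : y ^ (2 ^ (i + 1)) ∈ D.B := by
    have := Nat.find_spec hex
    rwa [hi] at this
  let U : Subgroup S := D.Stab ⊤ (Dbl 4) (D.inv_Dbl 4)
  have hyU : y ∈ U := fun v _ => h4 v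
  have h3 : y ^ (2 ^ i) ∈ U := U.pow_mem hyU _
  refine no_U hS hW L hE8 hZ ((X D).pow_mem hX _) (fun v => h3 v trivial) ?_ h1
  rw [← pow_add, ← two_mul, ← pow_succ']
  exact h2

/-- `|Y : B| ≤ 2`. -/
lemma index_Y_B (hS : IsPGroup 2 S) (hW : Nat.card (Tor 2 : AddSubgroup V) = 4) (L : Lev V 0) (hE8 : NoE8 S)
    (hZ : NoZ44 S) : D.B.relIndex (X D ⊓ S1 D) ≤ 2 := by
  classical
  obtain ⟨M, hM⟩ := exists_exp D hS
  obtain ⟨e₀, he₀2, he₀⟩ := L.ex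
  have he₀' : e₀ ∉ (Dbl 2 : AddSubgroup V) := by simpa using he₀
  have he₀0 : e₀ ≠ 0 := fun h => he₀' (h ▸ zero_mem _)
  -- on `D₃` the map is in `4V`
  have hD3 : ∀ y ∈ X D ⊓ S1 D, ∀ v ∈ D3 V, D.δ y v ∈ (Dbl 4 : AddSubgroup V) := by
    intro y hy v hv
    obtain ⟨w, hw, d, ⟨t, ht⟩, rfl⟩ := AddSubgroup.mem_sup.1 hv
    have ht' : (2 : ℕ) • t = d := ht
    rw [D.δ_add, ← ht', D.δ_nsmul, δ_def, mem_X.1 hy.1 w hw, sub_self, zero_add]
    obtain ⟨u, hu⟩ := mem_S1.1 hy.2 t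
    exact ⟨u, by
      change (4 : ℕ) • u = _
      rw [← hu, ← mul_nsmul']⟩
  by_cases hv : ∀ v, v ∈ D3 V
  · have hle : X D ⊓ S1 D ≤ D.B := fun y hy =>
      U_le_B hS hW L hE8 hZ hy.1 (fun v => hD3 y hy v (hv v))
    rw [Subgroup.relIndex_eq_one.2 hle]
    norm_num
  · push Not at hv
    obtain ⟨v₁, hv₁⟩ := hv
    -- `2V / 4V` has order at most two
    have hC : ∃ z : V, ∀ t ∈ (Dbl 2 : AddSubgroup V), (2 : ℕ) • t = 0 → t = 0 ∨ t = z := by
      by_cases hf : ∃ z ∈ (Dbl 2 : AddSubgroup V), (2 : ℕ) • z = 0 ∧ z ≠ 0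
      · obtain ⟨z, hz, hz2, hz0⟩ := hf
        refine ⟨z, fun t ht ht2 => ?_⟩
        have hze : z ≠ e₀ := fun h => he₀' (h ▸ hz)
        rcases tor_cover hW hz2 he₀2 hz0 he₀0 hze ht2 with h | h | h | h
        · exact Or.inl h
        · exact Or.inr h
        · exact absurd (h ▸ ht) he₀'
        · exfalso
          apply he₀'
          have e : e₀ = t - z := by rw [h]; abel
          rw [e]
          exact (Dbl 2).sub_mem ht hz
      · push Not at hf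
        refine ⟨0, fun t ht ht2 => Or.inl (hf t ht ht2)⟩
    obtain ⟨z, hz⟩ := hC
    obtain ⟨c, ⟨c', hc'⟩, hgen⟩ := exists_gen hM _ hz
    have hc'' : (2 : ℕ) • c' = c := hc'
    have z2 : c = (2 : ℤ) • c' := by rw [← hc'', two_nsmul, two_zsmul]
    have z4 : ∀ t : V, (4 : ℕ) • t = (4 : ℤ) • t := fun t => (natCast_zsmul t 4).symm
    have h24 : ∀ u w : V, u ∈ (Dbl 2 : AddSubgroup V) → w ∈ (Dbl 2 : AddSubgroup V) →
        u ∉ (Dbl 4 : AddSubgroup V) → w ∉ (Dbl 4 : AddSubgroup V) → u - w ∈ (Dbl 4 : AddSubgroup V) := by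
      intro u w hu hw hu4 hw4
      obtain ⟨n, hn⟩ := hgen u hu
      obtain ⟨n', hn'⟩ := hgen w hw
      have hev : ∀ (m : ℤ) (t : V), t = m • c → t ∉ (Dbl 4 : AddSubgroup V) → Odd m := by
        intro m t ht ht4
        by_contra h
        rw [Int.not_odd_iff_even] at h
        obtain ⟨m', rfl⟩ := h
        apply ht4
        refine ⟨m' • c', ?_⟩
        change (4 : ℕ) • m' • c' = t
        rw [z4, smul_smul, ht, z2, smul_smul]
        congr 1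
        ring
      obtain ⟨m, rfl⟩ := hev n u hn hu4
      obtain ⟨m', rfl⟩ := hev n' w hn' hw4
      refine ⟨(m - m') • c', ?_⟩
      change (4 : ℕ) • (m - m') • c' = u - w
      rw [z4, smul_smul, hn, hn', ← sub_smul, z2, smul_smul]
      congr 1
      ring
    have := relIndex_le_of_fun D.B (X D ⊓ S1 D) (X := Bool)
      (fun y => decide (D.δ y v₁ ∈ (Dbl 4 : AddSubgroup V))) (by
      intro y hy y' hy' hf
      have hiff : D.δ y v₁ ∈ (Dbl 4 : AddSubgroup V) ↔ D.δ y' v₁ ∈ (Dbl 4 : AddSubgroup V) := by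
        simpa using hf
      have hm : y⁻¹ * y' ∈ X D ⊓ S1 D := (X D ⊓ S1 D).mul_mem ((X D ⊓ S1 D).inv_mem hy) hy'
      have hsub : D.δ y' v₁ - D.δ y v₁ ∈ (Dbl 4 : AddSubgroup V) := by
        by_cases h1 : D.δ y v₁ ∈ (Dbl 4 : AddSubgroup V)
        · exact (Dbl 4).sub_mem (hiff.1 h1) h1
        · have h2 : D.δ y' v₁ ∉ (Dbl 4 : AddSubgroup V) := fun h => h1 (hiff.2 h)
          exact h24 _ _ (hy'.2 v₁ trivial) (hy.2 v₁ trivial) h2 h1
      have hδ : D.δ (y⁻¹ * y') v₁ ∈ (Dbl 4 : AddSubgroup V) := by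
        rw [D.δ_mul, D.δ_inv]
        have e : D.ρ y⁻¹ (D.δ y' v₁) + -D.ρ y⁻¹ (D.δ y v₁) = D.ρ y⁻¹ (D.δ y' v₁ - D.δ y v₁) := by
          rw [map_sub]; abel
        rw [e]
        exact D.inv_Dbl 4 _ _ hsub
      apply U_le_B hS hW L hE8 hZ hm.1
      intro v
      by_cases h3 : v ∈ D3 V
      · exact hD3 _ hm v h3
      · have h4 := D3_sub hW he₀2 he₀' h3 hv₁
        have e : v = (v - v₁) + v₁ := by abel
        rw [e, D.δ_add]
        exact (Dbl 4).add_mem (hD3 _ hm _ h4) hδ)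
    simpa using this

/-- The main bound in this branch. -/
theorem secBd_N1 (D : Mod S V) (hS : IsPGroup 2 S) (hW : Nat.card (Tor 2 : AddSubgroup V) = 4) (L : Lev V 0) (hE8 : NoE8 S)
    (hZ : NoZ44 S) : SecBd 4 S := by
  obtain ⟨M, hM⟩ := exists_exp D hS
  intro H K hKH hc hs
  have h1 : Nat.card (D.B ⊓ H : Subgroup S) ≤ 4 * Nat.card (D.B ⊓ K : Subgroup S) := by
    rw [← card_pull, ← card_pull, ← hW]
    apply card_le_of_double
    intro v hv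
    change D.ι ((2 : ℕ) • v) ∈ K
    rw [two_nsmul, D.ι_add]
    exact hs _ hv
  have hBY : D.B ≤ X D ⊓ S1 D := le_inf B_le_X B_le_S1
  have h2 : (K ⊔ D.B).relIndex H ≤ 4 := by
    refine gamma_Y (D := D) hS hW D.B hBY (index_Y_B hS hW L hE8 hZ) ?_ hKH hc
    intro τ hτ1 hτ2 g hg1 hg2 hin
    obtain ⟨p, _, hne⟩ := G2 L hW hM hτ1 hτ2 hg1 hg2
    apply hne
    have h3 := D.mem_B_iff.1 hin (D.ρ g (D.ρ τ p))
    simp only [ρ_mul, ρ_inv_ρ] at h3
    exact h3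
  have := card_le_step D.B hKH (a := 4) h1 h2
  simpa using this

end main

end Cfsg.Agent.Lib.SelfCentE8.N1
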