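import Cfsg.Agent.Lib.Involutions2.NormalFour
import Cfsg.Prelude.Def_Transfer

/-!
# A self-centralizing `E₈` in a group containing a self-centralizing `Q₈ ∗ Q₈`

Let `Q = Q₈ ∗ Q₈` be a subgroup of the finite `2`-group `S` with `C_S(Q) ≤ Q`. The quadric of `Q / Z(Q)`
has two rulings of three lines, and each of these lines is a subgroup `E₈` of `Q`. If `A` is such a
subgroup and `C_S(A) ≠ A`, then (`Q` acts on `C_S(A) / A`) there is `x ∉ Q` centralizing `A` with
`[x, Q] ≤ A`. Such an `x` is the root element of the line `A`: on `Q / Z(Q)`, root elements of two distinct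
lines of a ruling generate a group `S₃`, impossible in `S`. So two lines of a ruling contain one
self-centralizing `E₈`.
-/

set_option autoImplicit false

namespace Cfsg.Agent.Lib.SelfCentE8.Q8Q8

open QuaternionGroup Subgroup

abbrev Q8 := QuaternionGroup 2
abbrev G0 := Q8 × Q8

/-- The kernel of `Q₈ × Q₈ → Q₈ ∗ Q₈`. -/
def κ : G0 := (a 2, a 2)

/-- The automorphism `i → j → k → i`. -/
def τ (g : Q8) : Q8 :=
  if g = a 1 then xa 0 else if g = a 3 then xa 2 else if g = xa 0 then xa 3 else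
  if g = xa 2 then xa 1 else if g = xa 3 then a 1 else if g = xa 1 then a 3 else g

def α (s : Bool) (g : Q8) : Q8 := if s then τ g else g

/-- The lines. -/
def inA (s : Bool) (g : G0) : Prop := g.2 = α s g.1 ∨ g.2 = a 2 * α s g.1

instance (s : Bool) : DecidablePred (inA s) := fun g => by unfold inA; infer_instance

/-- The centre of `Q₈ × Q₈`. -/
def inZ (g : G0) : Prop := (g.1 = 1 ∨ g.1 = a 2) ∧ (g.2 = 1 ∨ g.2 = a 2)

instance : DecidablePred inZ := fun g => by unfold inZ; infer_instance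

def cl (u g : G0) : Prop := inZ (u⁻¹ * g)

instance (u : G0) : DecidablePred (cl u) := fun g => by unfold cl; infer_instance

/-- Same image in `Q₈ ∗ Q₈`. -/
def eqv (g h : G0) : Prop := h = g ∨ h = g * κ

instance : DecidableRel eqv := fun g h => by unfold eqv; infer_instance

def ii : Q8 := a 1
def jj : Q8 := xa 0
def kk : Q8 := xa 3

def p (s : Bool) : G0 := if s then (kk, kk) else (ii, jj)
def q (s : Bool) : G0 := if s then (ii, ii) else (jj, kk)
def u (s : Bool) : G0 := if s then (ii, jj) else (kk, kk)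
def uq (s : Bool) : G0 := if s then (jj, kk) else (ii, ii)
def ur (s : Bool) : G0 := if s then (kk, ii) else (jj, jj)

set_option maxRecDepth 100000

theorem A_mul : ∀ s g h, inA s g → inA s h → inA s (g * h) := by decide +kernel
theorem A_one : ∀ s, inA s 1 := by decide +kernel
theorem A_inv : ∀ s g, inA s g → inA s g⁻¹ := by decide +kernel
theorem A_sq : ∀ s g, inA s g → g * g = 1 ∨ g * g = κ := by decide +kernel
theorem A_card : ∀ s, Fintype.card {g : G0 // inA s g} = 16 := by decide +kernel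
theorem A_cent : ∀ s g, (∀ h, inA s h → eqv (h * g) (g * h)) → inA s g := by decide +kernel
theorem A_normal : ∀ s (g h : G0), inA s h → inA s (g * h * g⁻¹) := by decide +kernel
theorem A_Z : ∀ s g, inZ g → inA s g := by decide +kernel
theorem A_κ : ∀ s, inA s κ := by decide +kernel
theorem Z_sq : ∀ g : G0, inZ (g * g) := by decide +kernel
theorem Z_comm : ∀ g h : G0, inZ (g * h * g⁻¹ * h⁻¹) := by decide +kernel

theorem f7p : ∀ s h, inA s h → eqv (p s * p s) (h * p s * (h * p s)) → cl (u s) h ∨ inZ h := by decide +kernel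
theorem f7q : ∀ s h, inA s h → eqv (q s * q s) (h * q s * (h * q s)) → cl (uq s) h ∨ inZ h := by decide +kernel
theorem f7r : ∀ s h, inA s h → eqv (p s * q s * (p s * q s)) (h * (p s * q s) * (h * (p s * q s))) →
    cl (ur s) h ∨ inZ h := by decide +kernel

theorem triple : ∀ s hp, inZ hp → ∀ hq, cl (uq s) hq → ∀ hr, (cl (ur s) hr ∨ inZ hr) →
    ¬ eqv (hr * (p s * q s)) (hp * p s * (hq * q s)) := by decide +kernel

theorem triv : ∀ s hp, inZ hp → ∀ hq, inZ hq → ∃ b, inA s b ∧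
    eqv 1 (b * p s * b⁻¹ * (p s)⁻¹ * hp) ∧ eqv 1 (b * q s * b⁻¹ * (q s)⁻¹ * hq) := by decide +kernel

theorem gen : ∀ s g, ∃ h, inA s h ∧ (g = h ∨ g = h * p s ∨ g = h * q s ∨ g = h * (p s * q s)) := by
  decide +kernel

theorem u_mem : ∀ s, inA s (u s) := by decide +kernel
theorem p_eq_u : p true = u false ∧ p false = u true := by decide +kernel

theorem sep1 : ¬ eqv (kk, kk) (ii, jj) := by decide +kernel
theorem sep2 : ¬ eqv (kk, kk) ((ii, jj) * (a 2, 1)) := by decide +kernel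
theorem sep3 : ¬ eqv (ii, jj) 1 := by decide +kernel
theorem sep4 : ¬ eqv (ii, jj) (a 2, 1) := by decide +kernel
theorem kk_sq : eqv 1 ((kk, kk) * (kk, kk) : G0) := by decide +kernel
theorem ij_sq : eqv 1 ((ii, jj) * (ii, jj) : G0) := by decide +kernel
theorem comm_ab : eqv (((kk, kk) : G0) * (ii, jj)) ((ii, jj) * (kk, kk)) := by decide +kernel
theorem z_sq : eqv 1 (((a 2, 1) : G0) * (a 2, 1)) := by decide +kernel
theorem z_comm : ∀ g : G0, eqv ((a 2, 1) * g) (g * (a 2, 1)) := by decide +kernel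
theorem Z_cases : ∀ g, inZ g → g = 1 ∨ g = κ ∨ g = (a 2, 1) ∨ g = (1, a 2) := by decide +kernel
theorem z_z : eqv ((a 2, 1) : G0) (1, a 2) := by decide +kernel

section

variable {S : Type*} [Group S] {φ : G0 →* S}

/-- The subgroup. -/
def A (s : Bool) : Subgroup G0 where
  carrier := {g | inA s g}
  mul_mem' := fun {a b} ha hb => A_mul s a b ha hb
  one_mem' := A_one s
  inv_mem' := fun {a} ha => A_inv s a ha

lemma mem_A {s : Bool} {g : G0} : g ∈ A s ↔ inA s g := Iff.rfl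

lemma card_A (s : Bool) : Nat.card (A s) = 16 := by
  have h1 : Nat.card (A s) = Nat.card {g : G0 // inA s g} := rfl
  rw [h1, Nat.card_eq_fintype_card, A_card]

lemma φ_eq (hk : ∀ g, φ g = 1 ↔ g = 1 ∨ g = κ) {g h : G0} : φ g = φ h ↔ eqv g h := by
  have h1 : φ g = φ h ↔ φ (g⁻¹ * h) = 1 := by
    rw [map_mul, map_inv, inv_mul_eq_one]
  rw [h1, hk]
  unfold eqv
  constructor
  · rintro (h2 | h2)
    · left
      exact (inv_mul_eq_one.1 h2).symm
    · right
      rw [← h2]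
      group
  · rintro (h2 | h2)
    · left
      rw [h2]
      group
    · right
      rw [h2]
      group

lemma eqv_of (hk : ∀ g, φ g = 1 ↔ g = 1 ∨ g = κ) {g h : G0} (h' : φ g = φ h) : eqv g h :=
  (φ_eq hk).1 h'

lemma φ_of (hk : ∀ g, φ g = 1 ↔ g = 1 ∨ g = κ) {g h : G0} (h' : eqv g h) : φ g = φ h :=
  (φ_eq hk).2 h'

/-- The line in `S`. -/
def Aφ (φ : G0 →* S) (s : Bool) : Subgroup S := (A s).map φ

lemma mem_Aφ {s : Bool} {x : S} : x ∈ Aφ φ s ↔ ∃ g, inA s g ∧ φ g = x := Iff.rfl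

lemma Aφ_sq (hk : ∀ g, φ g = 1 ↔ g = 1 ∨ g = κ) {s : Bool} {x : S} (hx : x ∈ Aφ φ s) :
    x * x = 1 := by
  obtain ⟨g, hg, rfl⟩ := hx
  rw [← map_mul, hk]
  exact A_sq s g hg

lemma Aφ_comm (hk : ∀ g, φ g = 1 ↔ g = 1 ∨ g = κ) {s : Bool} {x y : S} (hx : x ∈ Aφ φ s)
    (hy : y ∈ Aφ φ s) : x * y = y * x := by
  have h1 := Aφ_sq hk hx
  have h2 := Aφ_sq hk hy
  have h3 := Aφ_sq hk ((Aφ φ s).mul_mem hx hy)
  calc x * y = x * (x * y * (x * y)) * y := by rw [h3]; group
    _ = (x * x) * (y * x) * (y * y) := by group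
    _ = y * x := by rw [h1, h2]; group

lemma card_Aφ (hk : ∀ g, φ g = 1 ↔ g = 1 ∨ g = κ) (s : Bool) : Nat.card (Aφ φ s) = 8 := by
  classical
  let f : A s →* S := φ.comp (A s).subtype
  have hr : f.range = Aφ φ s := by
    ext x
    constructor
    · rintro ⟨g, rfl⟩
      exact ⟨g.1, g.2, rfl⟩
    · rintro ⟨g, hg, rfl⟩
      exact ⟨⟨g, hg⟩, rfl⟩
  have h1 := f.ker.card_mul_index
  rw [Subgroup.index_ker, hr, card_A] at h1
  have h2 : Nat.card f.ker = 2 := by
    have h3 : ∀ g : A s, g ∈ f.ker ↔ g = 1 ∨ g = ⟨κ, A_κ s⟩ := by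
      intro g
      rw [MonoidHom.mem_ker]
      change φ g.1 = 1 ↔ _
      rw [hk]
      constructor
      · rintro (h | h)
        · exact Or.inl (Subtype.ext h)
        · exact Or.inr (Subtype.ext h)
      · rintro (h | h)
        · exact Or.inl (congrArg Subtype.val h)
        · exact Or.inr (congrArg Subtype.val h)
    have hne : (1 : A s) ≠ ⟨κ, A_κ s⟩ := by
      intro h
      have h4 : ((1 : G0)) = κ := congrArg Subtype.val h
      revert h4
      decide +kernel
    rw [Nat.card_eq_two_iff]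
    refine ⟨⟨1, (h3 1).2 (Or.inl rfl)⟩, ⟨⟨κ, A_κ s⟩, (h3 _).2 (Or.inr rfl)⟩, ?_, ?_⟩
    · intro h
      exact hne (congrArg Subtype.val h)
    · ext ⟨g, hg⟩
      simp only [Set.mem_insert_iff, Set.mem_singleton_iff, Set.mem_univ, iff_true, Subtype.mk.injEq]
      exact (h3 g).1 hg
  rw [h2] at h1
  omega

/-- Elements centralizing the line inside `Q` lie on the line. -/
lemma mem_of_comm (hk : ∀ g, φ g = 1 ↔ g = 1 ∨ g = κ) {s : Bool} {g : G0}
    (hc : ∀ y ∈ Aφ φ s, φ g * y = y * φ g) : φ g ∈ Aφ φ s := by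
  refine ⟨g, A_cent s g ?_, rfl⟩
  intro h hh
  apply eqv_of hk
  rw [map_mul, map_mul]
  exact (hc _ ⟨h, hh, rfl⟩).symm

/-- The lifting step: `Q` acts on `C_S(A) / A`. -/
lemma exists_lift [Finite S] (hS : IsPGroup 2 S) (hk : ∀ g, φ g = 1 ↔ g = 1 ∨ g = κ) {s : Bool} {y : S}
    (hy : y ∉ Aφ φ s) (hyc : ∀ e ∈ Aφ φ s, y * e = e * y) :
    ∃ x, x ∉ Aφ φ s ∧ (∀ e ∈ Aφ φ s, x * e = e * x) ∧
      ∀ g, ∃ h, inA s h ∧ x * φ g * x⁻¹ = φ (h * g) := by
  classical
  haveI : Fact (Nat.Prime 2) := ⟨Nat.prime_two⟩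
  let B : Subgroup S := Aφ φ s
  let N : Subgroup S := Subgroup.normalizer (B : Set S)
  haveI hN2 : Finite N := inferInstance
  have hNp : IsPGroup 2 N := hS.to_subgroup N
  let B' : Subgroup N := B.subgroupOf N
  let C' : Subgroup N := (Subgroup.centralizer (B : Set S)).subgroupOf N
  have hCmem : ∀ c : S, c ∈ Subgroup.centralizer (B : Set S) ↔ ∀ e ∈ B, c * e = e * c := by
    intro c
    rw [Subgroup.mem_centralizer_iff]
    exact ⟨fun h e he => (h e he).symm, fun h e he => (h e he).symm⟩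
  haveI hB' : B'.Normal := Subgroup.normal_in_normalizer (H := B)
  haveI hC' : C'.Normal := by
    constructor
    rintro ⟨c, hcN⟩ hc ⟨g, hg⟩
    rw [Subgroup.mem_subgroupOf] at hc ⊢
    change g * c * g⁻¹ ∈ Subgroup.centralizer (B : Set S)
    rw [hCmem] at hc ⊢
    intro e he
    have h1 : g⁻¹ * e * g ∈ B := by
      have := (Subgroup.mem_normalizer_iff.1 (N.inv_mem hg) e).1 he
      simpa using this
    have h2 := hc _ h1
    calc g * c * g⁻¹ * e = g * (c * (g⁻¹ * e * g)) * g⁻¹ := by group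
      _ = g * ((g⁻¹ * e * g) * c) * g⁻¹ := by rw [h2]
      _ = e * (g * c * g⁻¹) := by group
  have hyN : y ∈ N := by
    rw [Subgroup.mem_normalizer_iff]
    intro e
    constructor
    · intro he
      have h1 : y * e * y⁻¹ = e := by
        rw [hyc e he]
        group
      rw [h1]
      exact he
    · intro he
      have h2 := hyc _ he
      have h3 : y * e * y⁻¹ = e := by
        symm
        calc e = y⁻¹ * ((y * e * y⁻¹) * y) := by group
          _ = y⁻¹ * (y * (y * e * y⁻¹)) := by rw [h2]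
          _ = y * e * y⁻¹ := by group
      rwa [h3] at he
  have hlt : B' < C' := by
    refine lt_of_le_of_ne ?_ ?_
    · rintro ⟨e, he⟩ hB
      rw [Subgroup.mem_subgroupOf] at hB ⊢
      rw [hCmem]
      intro f hf
      exact Aφ_comm hk hB hf
    · intro h0
      have h1 : (⟨y, hyN⟩ : N) ∈ C' := by
        rw [Subgroup.mem_subgroupOf]
        exact (hCmem y).2 hyc
      rw [← h0, Subgroup.mem_subgroupOf] at h1
      exact hy h1
  obtain ⟨⟨c, hcN⟩, hcC, hcB, hcc⟩ :=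
    Cfsg.Agent.Lib.Involutions2.NormalFour.exists_mem_comm_mem hNp B' C' hlt
  rw [Subgroup.mem_subgroupOf] at hcC hcB
  have hφN : ∀ g, φ g ∈ N := by
    intro g
    rw [Subgroup.mem_normalizer_iff]
    intro e
    constructor
    · rintro ⟨e', he', rfl⟩
      exact ⟨g * e' * g⁻¹, A_normal s g e' he', by simp⟩
    · rintro ⟨e', he', h1⟩
      refine ⟨g⁻¹ * e' * g⁻¹⁻¹, A_normal s g⁻¹ e' he', ?_⟩
      have h2 : φ e' = φ g * e * (φ g)⁻¹ := h1
      simp only [map_mul, map_inv, inv_inv, h2]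
      group
  refine ⟨c, hcB, (hCmem c).1 hcC, ?_⟩
  intro g
  have h1 := hcc ⟨φ g, hφN g⟩
  rw [Subgroup.mem_subgroupOf] at h1
  have h2 : (φ g) * c * (φ g)⁻¹ * c⁻¹ ∈ B := h1
  have h3 : c * φ g * c⁻¹ * (φ g)⁻¹ ∈ B := by
    have := B.inv_mem h2
    have h4 : ((φ g) * c * (φ g)⁻¹ * c⁻¹)⁻¹ = c * φ g * c⁻¹ * (φ g)⁻¹ := by group
    rwa [h4] at this
  obtain ⟨h, hh, h5⟩ := h3
  refine ⟨h, hh, ?_⟩
  rw [map_mul]
  have h6 : φ h = c * φ g * c⁻¹ * (φ g)⁻¹ := h5
  rw [h6]
  group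

/-- Conjugation by a root element on squares. -/
lemma sq_eqv (hk : ∀ g, φ g = 1 ↔ g = 1 ∨ g = κ) {s : Bool} {x : S}
    (hxc : ∀ e ∈ Aφ φ s, x * e = e * x) {g h : G0} (hh : x * φ g * x⁻¹ = φ (h * g)) :
    eqv (g * g) (h * g * (h * g)) := by
  apply eqv_of hk
  have h1 : φ (g * g) ∈ Aφ φ s := ⟨g * g, A_Z s _ (Z_sq g), rfl⟩
  have h2 := hxc _ h1
  rw [map_mul (f := φ) (h * g) (h * g), ← hh]
  have h3 : x * φ g * x⁻¹ * (x * φ g * x⁻¹) = x * φ (g * g) * x⁻¹ := by
    rw [map_mul]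
    group
  rw [h3, h2]
  group

/-- The structure of a root element of a line. -/
theorem root_form (hk : ∀ g, φ g = 1 ↔ g = 1 ∨ g = κ)
    (hC : ∀ x, (∀ g, x * φ g = φ g * x) → ∃ g, x = φ g) {s : Bool} {x : S} (hx : x ∉ Aφ φ s)
    (hxc : ∀ e ∈ Aφ φ s, x * e = e * x)
    (hxl : ∀ g, ∃ h, inA s h ∧ x * φ g * x⁻¹ = φ (h * g)) :
    ∃ hp, cl (u s) hp ∧ x * φ (p s) * x⁻¹ = φ (hp * p s) := by
  obtain ⟨hp, hpA, hp'⟩ := hxl (p s)
  obtain ⟨hq, hqA, hq'⟩ := hxl (q s)
  obtain ⟨hr, hrA, hr'⟩ := hxl (p s * q s)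
  have h1 := f7p s hp hpA (sq_eqv hk hxc hp')
  have h2 := f7q s hq hqA (sq_eqv hk hxc hq')
  have h3 := f7r s hr hrA (sq_eqv hk hxc hr')
  rcases h1 with h1 | h1
  · exact ⟨hp, h1, hp'⟩
  exfalso
  have h4 : eqv (hr * (p s * q s)) (hp * p s * (hq * q s)) := by
    apply eqv_of hk
    rw [← hr', map_mul (f := φ) (hp * p s), ← hp', ← hq', map_mul (f := φ) (p s)]
    group
  rcases h2 with h2 | h2
  · exact triple s hp h1 hq h2 hr h3 h4
  obtain ⟨b, hbA, hb1, hb2⟩ := triv s hp h1 hq h2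
  have hb : φ b ∈ Aφ φ s := ⟨b, hbA, rfl⟩
  let y : S := x * φ b
  have hxb : x * φ b = φ b * x := hxc _ hb
  have hw : ∀ w hw : G0, x * φ w * x⁻¹ = φ (hw * w) → eqv 1 (b * w * b⁻¹ * w⁻¹ * hw) →
      y * φ w * y⁻¹ = φ w := by
    intro w hw hw1 hw2
    have h5 : φ (b * w * b⁻¹ * w⁻¹ * hw) = 1 := by
      rw [← φ_of hk hw2, map_one]
    have h6 : φ (b * w * b⁻¹ * w⁻¹) ∈ Aφ φ s := ⟨_, A_Z s _ (Z_comm b w), rfl⟩
    have h7 := hxc _ h6
    have h8 : φ b * φ w * (φ b)⁻¹ = φ (b * w * b⁻¹ * w⁻¹) * φ w := by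
      simp only [map_mul, map_inv]
      group
    calc y * φ w * y⁻¹ = x * (φ b * φ w * (φ b)⁻¹) * x⁻¹ := by
          change x * φ b * φ w * (x * φ b)⁻¹ = _
          group
      _ = x * (φ (b * w * b⁻¹ * w⁻¹) * φ w) * x⁻¹ := by rw [h8]
      _ = (x * φ (b * w * b⁻¹ * w⁻¹)) * φ w * x⁻¹ := by group
      _ = (φ (b * w * b⁻¹ * w⁻¹) * x) * φ w * x⁻¹ := by rw [h7]
      _ = φ (b * w * b⁻¹ * w⁻¹) * (x * φ w * x⁻¹) := by group
      _ = φ (b * w * b⁻¹ * w⁻¹) * φ (hw * w) := by rw [hw1]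
      _ = φ (b * w * b⁻¹ * w⁻¹ * hw) * φ w := by
          simp only [map_mul]
          group
      _ = φ w := by rw [h5, one_mul]
  have hyp := hw (p s) hp hp' hb1
  have hyq := hw (q s) hq hq' hb2
  have hyA : ∀ h, inA s h → y * φ h * y⁻¹ = φ h := by
    intro h hh
    have h5 : φ h ∈ Aφ φ s := ⟨h, hh, rfl⟩
    have h6 := hxc _ h5
    have h7 := Aφ_comm hk hb h5
    calc y * φ h * y⁻¹ = x * (φ b * φ h) * (x * φ b)⁻¹ := by
          change x * φ b * φ h * (x * φ b)⁻¹ = _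
          group
      _ = x * (φ h * φ b) * (x * φ b)⁻¹ := by rw [h7]
      _ = (x * φ h) * φ b * (x * φ b)⁻¹ := by group
      _ = (φ h * x) * φ b * (x * φ b)⁻¹ := by rw [h6]
      _ = φ h := by group
  have hmul : ∀ g g', y * φ g * y⁻¹ = φ g → y * φ g' * y⁻¹ = φ g' → y * φ (g * g') * y⁻¹ = φ (g * g') := by
    intro g g' h5 h6
    rw [map_mul]
    calc y * (φ g * φ g') * y⁻¹ = (y * φ g * y⁻¹) * (y * φ g' * y⁻¹) := by group
      _ = _ := by rw [h5, h6]
  have hall : ∀ g, y * φ g * y⁻¹ = φ g := by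
    intro g
    obtain ⟨h, hh, h2⟩ := gen s g
    rcases h2 with h2 | h2 | h2 | h2 <;> rw [h2]
    · exact hyA h hh
    · exact hmul _ _ (hyA h hh) hyp
    · exact hmul _ _ (hyA h hh) hyq
    · exact hmul _ _ (hyA h hh) (hmul _ _ hyp hyq)
  obtain ⟨g₁, hg₁⟩ := hC y (fun g => by
    have := hall g
    calc y * φ g = (y * φ g * y⁻¹) * y := by group
      _ = φ g * y := by rw [this])
  have hxg : x = φ (g₁ * b⁻¹) := by
    rw [map_mul, map_inv, ← hg₁]
    change x = x * φ b * (φ b)⁻¹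
    group
  apply hx
  rw [hxg]
  apply mem_of_comm hk
  rw [← hxg]
  exact hxc

/-- A `2`-element cannot permute three classes cyclically. -/
lemma order3 [Finite S] (hS : IsPGroup 2 S) {x0 x1 A B z : S}
    (hA2 : A * A = 1) (hB2 : B * B = 1) (hAB : A * B = B * A) (hz2 : z * z = 1) (hzA : z * A = A * z)
    (hzB : z * B = B * z) (hz0 : x0 * z = z * x0) (hz1 : x1 * z = z * x1)
    (h0A : x0 * A * x0⁻¹ = A) (h1B : x1 * B * x1⁻¹ = B)
    (h0B : x0 * B * x0⁻¹ = A * B ∨ x0 * B * x0⁻¹ = A * B * z)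
    (h1A : x1 * A * x1⁻¹ = B * A ∨ x1 * A * x1⁻¹ = B * A * z) :
    A = B ∨ A = B * z ∨ B = 1 ∨ B = z := by
  let g : S := x0 * x1
  have hzg : g * z * g⁻¹ = z := by
    change x0 * x1 * z * (x0 * x1)⁻¹ = z
    calc x0 * x1 * z * (x0 * x1)⁻¹ = x0 * (x1 * z) * x1⁻¹ * x0⁻¹ := by group
      _ = x0 * (z * x1) * x1⁻¹ * x0⁻¹ := by rw [hz1]
      _ = (x0 * z) * x0⁻¹ := by group
      _ = (z * x0) * x0⁻¹ := by rw [hz0]
      _ = z := by group
  let Cl : S → S → Prop := fun w y => y = w ∨ y = w * z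
  have hm : ∀ y y', g * (y * y') * g⁻¹ = (g * y * g⁻¹) * (g * y' * g⁻¹) := by
    intro y y'
    group
  have step : ∀ {w y w' : S}, Cl w y → Cl w' (g * w * g⁻¹) → Cl w' (g * y * g⁻¹) := by
    intro w y w' h1 h2
    rcases h1 with rfl | rfl
    · exact h2
    · rw [hm, hzg]
      rcases h2 with h2 | h2
      · right
        rw [h2]
      · left
        rw [h2, mul_assoc, hz2, mul_one]
  have hconj : ∀ (x w w' : S), x * w * x⁻¹ = w' → x * w = w' * x := by
    intro x w w' h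
    rw [← h]
    group
  have hfA : Cl B (g * A * g⁻¹) := by
    have h1 : g * A * g⁻¹ = x0 * (x1 * A * x1⁻¹) * x0⁻¹ := by
      change x0 * x1 * A * (x0 * x1)⁻¹ = _
      group
    have h2 : x0 * (B * A) * x0⁻¹ = A * B * A ∨ x0 * (B * A) * x0⁻¹ = A * B * z * A := by
      have h3 : x0 * (B * A) * x0⁻¹ = (x0 * B * x0⁻¹) * (x0 * A * x0⁻¹) := by group
      rw [h3, h0A]
      rcases h0B with h4 | h4 <;> rw [h4] <;> simp
    have h5 : A * B * A = B := by
      calc A * B * A = (B * A) * A := by rw [hAB]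
        _ = B * (A * A) := by group
        _ = B := by rw [hA2, mul_one]
    have h6 : A * B * z * A = B * z := by
      calc A * B * z * A = A * B * (z * A) := by group
        _ = A * B * (A * z) := by rw [hzA]
        _ = (A * B * A) * z := by group
        _ = B * z := by rw [h5]
    have h7 : x0 * z * x0⁻¹ = z := by rw [hz0]; group
    rw [h1]
    rcases h1A with h8 | h8
    · rw [h8]
      rcases h2 with h9 | h9
      · left
        rw [h9, h5]
      · right
        rw [h9, h6]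
    · rw [h8]
      have h10 : x0 * (B * A * z) * x0⁻¹ = (x0 * (B * A) * x0⁻¹) * (x0 * z * x0⁻¹) := by group
      rw [h10, h7]
      rcases h2 with h9 | h9
      · right
        rw [h9, h5]
      · left
        rw [h9, h6, mul_assoc, hz2, mul_one]
  have hfB : Cl (A * B) (g * B * g⁻¹) := by
    have h1 : g * B * g⁻¹ = x0 * (x1 * B * x1⁻¹) * x0⁻¹ := by
      change x0 * x1 * B * (x0 * x1)⁻¹ = _
      group
    rw [h1, h1B]
    exact h0B
  have hfAB : Cl A (g * (A * B) * g⁻¹) := by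
    rw [hm]
    have h5 : B * (A * B) = A := by
      calc B * (A * B) = B * (B * A) := by rw [hAB]
        _ = (B * B) * A := by group
        _ = A := by rw [hB2, one_mul]
    have h6 : ∀ w w' : S, Cl w w' → w * z = z * w → z * z = 1 → True := fun _ _ _ _ _ => trivial
    have hzAB : (A * B) * z = z * (A * B) := by
      calc A * B * z = A * (B * z) := by group
        _ = A * (z * B) := by rw [hzB]
        _ = (A * z) * B := by group
        _ = (z * A) * B := by rw [hzA]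
        _ = z * (A * B) := by group
    rcases hfA with h1 | h1 <;> rcases hfB with h2 | h2 <;> rw [h1, h2]
    · left
      exact h5
    · right
      calc B * (A * B * z) = (B * (A * B)) * z := by group
        _ = A * z := by rw [h5]
    · right
      calc B * z * (A * B) = B * (z * (A * B)) := by group
        _ = B * ((A * B) * z) := by rw [hzAB]
        _ = (B * (A * B)) * z := by group
        _ = A * z := by rw [h5]
    · left
      calc B * z * (A * B * z) = B * (z * (A * B)) * z := by group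
        _ = B * ((A * B) * z) * z := by rw [hzAB]
        _ = (B * (A * B)) * (z * z) := by group
        _ = A := by rw [h5, hz2, mul_one]
  have hind : ∀ m : ℕ, (m % 3 = 0 → Cl A (g ^ m * A * (g ^ m)⁻¹)) ∧ (m % 3 = 1 → Cl B (g ^ m * A * (g ^ m)⁻¹)) ∧
      (m % 3 = 2 → Cl (A * B) (g ^ m * A * (g ^ m)⁻¹)) := by
    intro m
    induction m with
    | zero =>
      refine ⟨fun _ => Or.inl (by simp), by simp, by simp⟩
    | succ m ih =>
      have h1 : g ^ (m + 1) * A * (g ^ (m + 1))⁻¹ = g * (g ^ m * A * (g ^ m)⁻¹) * g⁻¹ := by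
        rw [pow_succ']
        group
      rw [h1]
      obtain ⟨i0, i1, i2⟩ := ih
      refine ⟨fun h => ?_, fun h => ?_, fun h => ?_⟩
      · exact step (i2 (by omega)) hfAB
      · exact step (i0 (by omega)) hfA
      · exact step (i1 (by omega)) hfB
  obtain ⟨n, hn⟩ := IsPGroup.iff_orderOf.1 hS g
  have hgm : g ^ (2 ^ n) = 1 := by
    rw [← hn, pow_orderOf_eq_one]
  have hmod : 2 ^ n % 3 = 1 ∨ 2 ^ n % 3 = 2 := by
    clear hn hgm
    induction n with
    | zero => left; rfl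
    | succ k ih =>
      rw [pow_succ]
      omega
  obtain ⟨i0, i1, i2⟩ := hind (2 ^ n)
  rw [hgm] at i1 i2
  have hone : (1 : S) * A * (1 : S)⁻¹ = A := by group
  rw [hone] at i1 i2
  rcases hmod with h | h
  · rcases i1 h with h1 | h1
    · exact Or.inl h1
    · exact Or.inr (Or.inl h1)
  · right
    right
    rcases i2 h with h1 | h1
    · left
      have h2 : A * 1 = A * B := by rw [mul_one]; exact h1
      exact (mul_left_cancel h2).symm
    · right
      have h2 : A * B * z = A := h1.symm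
      have h3 : B * z = 1 := by
        have h4 : A * (B * z) = A * 1 := by rw [mul_one, ← mul_assoc, h2]
        exact mul_left_cancel h4
      calc B = (B * z) * z := by rw [mul_assoc, hz2, mul_one]
        _ = z := by rw [h3, one_mul]

/-- One of two lines of a ruling has trivial centralizer modulo itself. -/
theorem exists_line [Finite S] (hS : IsPGroup 2 S) (hk : ∀ g, φ g = 1 ↔ g = 1 ∨ g = κ)
    (hC : ∀ x, (∀ g, x * φ g = φ g * x) → ∃ g, x = φ g) :
    ∃ s, ∀ y, (∀ e ∈ Aφ φ s, y * e = e * y) → y ∈ Aφ φ s := by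
  by_contra hcon
  push Not at hcon
  obtain ⟨y0, hy0c, hy0⟩ := hcon false
  obtain ⟨y1, hy1c, hy1⟩ := hcon true
  obtain ⟨x0, hx0, hx0c, hx0l⟩ := exists_lift hS hk hy0 hy0c
  obtain ⟨x1, hx1, hx1c, hx1l⟩ := exists_lift hS hk hy1 hy1c
  obtain ⟨h0, hcl0, hf0⟩ := root_form hk hC hx0 hx0c hx0l
  obtain ⟨h1, hcl1, hf1⟩ := root_form hk hC hx1 hx1c hx1l
  let A₀ : S := φ (kk, kk)
  let B₀ : S := φ (ii, jj)
  let z : S := φ (a 2, 1)
  have hZ : ∀ ζ, inZ ζ → φ ζ = 1 ∨ φ ζ = z := by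
    intro ζ hζ
    have h2 : φ κ = 1 := (hk κ).2 (Or.inr rfl)
    rcases Z_cases ζ hζ with rfl | rfl | rfl | rfl
    · exact Or.inl (map_one _)
    · exact Or.inl h2
    · exact Or.inr rfl
    · right
      exact (φ_of hk z_z).symm
  have hcl : ∀ {w h : G0}, cl w h → φ h = φ w ∨ φ h = φ w * z := by
    intro w h hh
    have h2 : h = w * (w⁻¹ * h) := by group
    rcases hZ _ hh with h3 | h3
    · left
      rw [h2, map_mul, h3, mul_one]
    · right
      rw [h2, map_mul, h3]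
  have hmem : ∀ s ζ, inZ ζ → φ ζ ∈ Aφ φ s := fun s ζ hζ => ⟨ζ, A_Z s ζ hζ, rfl⟩
  have hz0 : x0 * z = z * x0 := hx0c _ (hmem _ _ (by decide +kernel))
  have hz1 : x1 * z = z * x1 := hx1c _ (hmem _ _ (by decide +kernel))
  have h0A : x0 * A₀ * x0⁻¹ = A₀ := by
    have := hx0c A₀ ⟨u false, u_mem false, rfl⟩
    rw [this]
    group
  have h1B : x1 * B₀ * x1⁻¹ = B₀ := by
    have := hx1c B₀ ⟨u true, u_mem true, rfl⟩
    rw [this]
    group
  have hone : ∀ {g : G0}, eqv 1 g → φ g = 1 := by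
    intro g hg
    rw [← φ_of hk hg, map_one]
  have hzcomm : ∀ g, z * φ g = φ g * z := by
    intro g
    rw [← map_mul, ← map_mul]
    exact φ_of hk (z_comm g)
  have hf0' : x0 * B₀ * x0⁻¹ = A₀ * B₀ ∨ x0 * B₀ * x0⁻¹ = A₀ * B₀ * z := by
    have h2 : x0 * B₀ * x0⁻¹ = φ h0 * B₀ := by
      rw [map_mul] at hf0
      exact hf0
    rw [h2]
    rcases hcl hcl0 with h3 | h3 <;> rw [h3]
    · left
      rfl
    · right
      calc φ (u false) * z * B₀ = φ (u false) * (z * B₀) := by group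
        _ = φ (u false) * (B₀ * z) := by rw [hzcomm]
        _ = _ := by
          change φ (u false) * (B₀ * z) = φ (u false) * B₀ * z
          group
  have hf1' : x1 * A₀ * x1⁻¹ = B₀ * A₀ ∨ x1 * A₀ * x1⁻¹ = B₀ * A₀ * z := by
    have h2 : x1 * A₀ * x1⁻¹ = φ h1 * A₀ := by
      rw [map_mul] at hf1
      exact hf1
    rw [h2]
    rcases hcl hcl1 with h3 | h3 <;> rw [h3]
    · left
      rfl
    · right
      calc φ (u true) * z * A₀ = φ (u true) * (z * A₀) := by group
        _ = φ (u true) * (A₀ * z) := by rw [hzcomm]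
        _ = _ := by
          change φ (u true) * (A₀ * z) = φ (u true) * A₀ * z
          group
  have hA2 : A₀ * A₀ = 1 := by
    rw [← map_mul]
    exact hone kk_sq
  have hB2 : B₀ * B₀ = 1 := by
    rw [← map_mul]
    exact hone ij_sq
  have hAB : A₀ * B₀ = B₀ * A₀ := by
    rw [← map_mul, ← map_mul]
    exact φ_of hk comm_ab
  have hz2 : z * z = 1 := by
    rw [← map_mul]
    exact hone z_sq
  rcases order3 hS hA2 hB2 hAB hz2 (hzcomm _) (hzcomm _) hz0 hz1 h0A h1B hf0' hf1' with h | h | h | h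
  · exact sep1 (eqv_of hk h)
  · refine sep2 (eqv_of hk ?_)
    rw [map_mul]
    exact h
  · refine sep3 (eqv_of hk ?_)
    rw [map_one]
    exact h
  · exact sep4 (eqv_of hk h)

theorem central_Q8 : ∀ s : Q8, (∀ r : Q8, r * s = s * r) → s = 1 ∨ s = a 2 := by decide +kernel
theorem z_ne_one : (a 2 : Q8) ≠ 1 := by decide +kernel
theorem card_G0 : Nat.card G0 = 64 := by
  rw [Nat.card_eq_fintype_card]
  decide +kernel

/-- The main theorem of this file. -/
theorem exists_selfCent [Finite S] (hS : IsPGroup 2 S) (Q Q₁ Q₂ : Subgroup S)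
    (e₁ : Q₁ ≃* QuaternionGroup 2) (e₂ : Q₂ ≃* QuaternionGroup 2)
    (hcomm : ∀ a ∈ Q₁, ∀ b ∈ Q₂, a * b = b * a) (hQ : Q₁ ⊔ Q₂ = Q) (hQ32 : Nat.card Q = 32)
    (hC : Subgroup.centralizer (Q : Set S) ≤ Q) :
    ∃ A : Subgroup S, Cfsg.IsElementaryAbelian 2 A ∧ Nat.card A = 8 ∧
      Subgroup.centralizer (A : Set S) = A := by
  classical
  let f₁ : Q8 →* S := Q₁.subtype.comp e₁.symm.toMonoidHom
  let f₂ : Q8 →* S := Q₂.subtype.comp e₂.symm.toMonoidHom
  have hf₁ : Function.Injective f₁ := fun x y h => e₁.symm.injective (Subtype.ext h)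
  have hf₂ : Function.Injective f₂ := fun x y h => e₂.symm.injective (Subtype.ext h)
  have hf₁m : ∀ x, f₁ x ∈ Q₁ := fun x => (e₁.symm x).2
  have hf₂m : ∀ x, f₂ x ∈ Q₂ := fun x => (e₂.symm x).2
  have hc : ∀ m n, Commute (f₁ m) (f₂ n) := fun m n => hcomm _ (hf₁m m) _ (hf₂m n)
  let φ : G0 →* S := f₁.noncommCoprod f₂ hc
  have hφ : ∀ g : G0, φ g = f₁ g.1 * f₂ g.2 := fun g => rfl
  have hr₁ : f₁.range = Q₁ := by
    ext x
    constructor
    · rintro ⟨y, rfl⟩
      exact hf₁m y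
    · intro hx
      refine ⟨e₁ ⟨x, hx⟩, ?_⟩
      change ((e₁.symm (e₁ ⟨x, hx⟩) : Q₁) : S) = x
      simp
  have hr₂ : f₂.range = Q₂ := by
    ext x
    constructor
    · rintro ⟨y, rfl⟩
      exact hf₂m y
    · intro hx
      refine ⟨e₂ ⟨x, hx⟩, ?_⟩
      change ((e₂.symm (e₂ ⟨x, hx⟩) : Q₂) : S) = x
      simp
  have hr : φ.range = Q := by
    rw [← hQ, ← hr₁, ← hr₂]
    exact MonoidHom.noncommCoprod_range f₁ f₂ hc
  have hker : Nat.card φ.ker = 2 := by
    have h1 := φ.ker.card_mul_index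
    rw [Subgroup.index_ker, hr, hQ32, card_G0] at h1
    omega
  have hk1 : ∀ g : G0, φ g = 1 → g = 1 ∨ g = κ := by
    rintro ⟨s, t⟩ hg
    rw [hφ] at hg
    change f₁ s * f₂ t = 1 at hg
    have hs : f₁ s = (f₂ t)⁻¹ := eq_inv_of_mul_eq_one_left hg
    have ht : f₂ t = (f₁ s)⁻¹ := eq_inv_of_mul_eq_one_right hg
    have hs' : s = 1 ∨ s = a 2 := by
      apply central_Q8
      intro r
      apply hf₁
      rw [map_mul, map_mul, hs]
      exact hcomm _ (hf₁m r) _ (Q₂.inv_mem (hf₂m t))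
    have ht' : t = 1 ∨ t = a 2 := by
      apply central_Q8
      intro r
      apply hf₂
      rw [map_mul, map_mul, ht]
      exact (hcomm _ (Q₁.inv_mem (hf₁m s)) _ (hf₂m r)).symm
    rcases hs' with rfl | rfl <;> rcases ht' with rfl | rfl
    · left
      rfl
    · exfalso
      rw [map_one, one_mul] at hg
      exact z_ne_one (hf₂ (hg.trans (map_one f₂).symm))
    · exfalso
      rw [map_one, mul_one] at hg
      exact z_ne_one (hf₁ (hg.trans (map_one f₁).symm))
    · right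
      rfl
  have hκ : φ κ = 1 := by
    have hne : φ.ker ≠ ⊥ := by
      intro h
      rw [h] at hker
      simp at hker
    obtain ⟨⟨g, hg⟩, hg1⟩ := Subgroup.ne_bot_iff_exists_ne_one.1 hne
    have hg' : g ≠ 1 := fun h => hg1 (Subtype.ext h)
    rcases hk1 g hg with h | h
    · exact absurd h hg'
    · rw [← h]
      exact hg
  have hk : ∀ g, φ g = 1 ↔ g = 1 ∨ g = κ := by
    intro g
    refine ⟨hk1 g, ?_⟩
    rintro (rfl | rfl)
    · exact map_one _
    · exact hκ
  have hC' : ∀ x, (∀ g, x * φ g = φ g * x) → ∃ g, x = φ g := by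
    intro x hx
    have h1 : x ∈ Subgroup.centralizer (Q : Set S) := by
      rw [Subgroup.mem_centralizer_iff]
      intro y hy
      have hy' : y ∈ φ.range := by
        rw [hr]
        exact hy
      obtain ⟨g, rfl⟩ := hy'
      exact (hx g).symm
    have h2 : x ∈ φ.range := by
      rw [hr]
      exact hC h1
    obtain ⟨g, rfl⟩ := h2
    exact ⟨g, rfl⟩
  obtain ⟨s, hs⟩ := exists_line hS hk hC'
  refine ⟨Aφ φ s, ⟨?_, ?_⟩, card_Aφ hk s, ?_⟩
  · constructor
    constructor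
    rintro ⟨x, hx⟩ ⟨y, hy⟩
    exact Subtype.ext (Aφ_comm hk hx hy)
  · intro x hx
    rw [pow_two]
    exact Aφ_sq hk hx
  · apply le_antisymm
    · intro x hx
      rw [Subgroup.mem_centralizer_iff] at hx
      exact hs x (fun e he => (hx e he).symm)
    · intro x hx
      rw [Subgroup.mem_centralizer_iff]
      intro y hy
      exact Aφ_comm hk hy hx

end

end Cfsg.Agent.Lib.SelfCentE8.Q8Q8
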