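import Cfsg.Agent.Lib.SelfCentE8.R4

/-!
# Normal `E₈`: section bounds
-/

set_option autoImplicit false

namespace Cfsg.Agent.Lib.SelfCentE8.R3Basic

open Subgroup
open Cfsg.Agent.Lib.SelfCentE8.Tools49
open Cfsg.Agent.Lib.SelfCentE8.R4
open Cfsg.Agent.Lib.TwoFusion.SecRank

variable {S : Type*} [Group S]

/-- `|D ⊔ B| ≤ |D| |B|` for commuting subgroups. -/
lemma card_sup_le_mul {D B : Subgroup S} [Finite S] (hc : ∀ a ∈ D, ∀ b ∈ B, a * b = b * a) :
    Nat.card (D ⊔ B : Subgroup S) ≤ Nat.card D * Nat.card B := by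
  rw [← Nat.card_prod]
  refine Nat.card_le_card_of_surjective
    (fun p : D × B => (⟨p.1.1 * p.2.1, Subgroup.mul_mem _
      ((le_sup_left : D ≤ D ⊔ B) p.1.2) ((le_sup_right : B ≤ D ⊔ B) p.2.2)⟩ : (D ⊔ B : Subgroup S))) ?_
  rintro ⟨x, hx⟩
  obtain ⟨d, hd, b, hb, rfl⟩ := exists_mul_of_mem_sup hc hx
  exact ⟨(⟨d, hd⟩, ⟨b, hb⟩), rfl⟩

lemma mem_zpowers_of_sq {x y : S} (hx : x * x = 1) : y ∈ zpowers x ↔ y = 1 ∨ y = x := by
  constructor
  · intro hy
    obtain ⟨i, rfl⟩ := mem_zpowers_iff.1 hy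
    rcases Int.even_or_odd' i with ⟨k, rfl | rfl⟩
    · left
      rw [zpow_mul, zpow_two, hx, one_zpow]
    · right
      rw [zpow_add, zpow_mul, zpow_two, hx, one_zpow, one_mul, zpow_one]
  · rintro (rfl | rfl)
    · exact one_mem _
    · exact mem_zpowers _

lemma card_zpowers_of_sq {x : S} (hx : x * x = 1) (hx1 : x ≠ 1) : Nat.card (zpowers x) = 2 := by
  rw [Nat.card_zpowers]
  apply orderOf_eq_prime
  · rw [sq, hx]
  · exact hx1

/-- Section bound for the action on a normal `E₈`. -/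
theorem sec2 [Finite S] (hS : IsPGroup 2 S) {E : Subgroup S} [hn : E.Normal]
    (hE2 : ∀ e ∈ E, e * e = 1) (hE8 : Nat.card E = 8) (C' : Subgroup S) [hC' : C'.Normal]
    (hCm : ∀ y, y ∈ C' ↔ ∀ e ∈ E, y * e = e * y) (H K : Subgroup S)
    (hc : ∀ x ∈ H, ∀ y ∈ H, x * y * x⁻¹ * y⁻¹ ∈ K) :
    Nat.card (H.map (QuotientGroup.mk' C')) ≤ 4 * Nat.card (K.map (QuotientGroup.mk' C')) := by
  classical
  haveI : Fact (Nat.Prime 2) := ⟨Nat.prime_two⟩
  let π := QuotientGroup.mk' C'
  -- flag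
  have hE1 : E ≠ ⊥ := by
    intro h0
    have := hE8
    rw [h0] at this
    simp at this
  obtain ⟨⟨z, hz⟩, hz1⟩ := Subgroup.ne_bot_iff_exists_ne_one.1
    (Cfsg.Agent.Lib.Involutions2.NormalFour.inf_center_ne_bot hS E hE1)
  have hz1' : z ≠ 1 := fun h0 => hz1 (Subtype.ext h0)
  have hzE : z ∈ E := hz.1
  have hzc : ∀ g, g * z = z * g := fun g => mem_center_iff.1 hz.2 g
  have hzz : z * z = 1 := hE2 z hzE
  let Z₁ : Subgroup S := zpowers z
  haveI hZ₁n : Z₁.Normal := by
    constructor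
    intro n hn g
    have hm : n = 1 ∨ n = z := (mem_zpowers_of_sq hzz).1 hn
    rcases hm with rfl | rfl
    · simp [Z₁, one_mem]
    · have : g * n * g⁻¹ = n := by rw [hzc g]; group
      rw [this]
      exact hn
  have hZ₁E : Z₁ ≤ E := by
    rw [zpowers_le]
    exact hzE
  have hZ₁c : Nat.card Z₁ = 2 := card_zpowers_of_sq hzz hz1'
  have hZ₁lt : Z₁ < E := by
    refine lt_of_le_of_ne hZ₁E (fun h => ?_)
    rw [← h, hZ₁c] at hE8
    omega
  obtain ⟨v, hvE, hvZ, hvc⟩ :=
    Cfsg.Agent.Lib.Involutions2.NormalFour.exists_mem_comm_mem hS Z₁ E hZ₁lt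
  have hv1 : v ≠ 1 := fun h0 => hvZ (by rw [h0]; exact one_mem _)
  have hvz : v ≠ z := fun h0 => hvZ (by rw [h0]; exact mem_zpowers z)
  have hvv : v * v = 1 := hE2 v hvE
  have hvg : ∀ g, g * v * g⁻¹ = v ∨ g * v * g⁻¹ = z * v := by
    intro g
    have h1 := (mem_zpowers_of_sq hzz).1 (hvc g)
    rcases h1 with h1 | h1
    · left
      calc g * v * g⁻¹ = (g * v * g⁻¹ * v⁻¹) * v := by group
        _ = v := by rw [h1, one_mul]
    · right
      calc g * v * g⁻¹ = (g * v * g⁻¹ * v⁻¹) * v := by group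
        _ = z * v := by rw [h1]
  let E₂ : Subgroup S := Z₁ ⊔ zpowers v
  have hE₂E : E₂ ≤ E := sup_le hZ₁E (by rw [zpowers_le]; exact hvE)
  have hE₂c : Nat.card E₂ ≤ 4 := by
    have h1 := card_sup_le_mul (D := Z₁) (B := zpowers v)
      (fun a ha b hb => comm_of_sq hE2 (hZ₁E ha) ((zpowers_le.2 hvE) hb))
    rw [hZ₁c, card_zpowers_of_sq hvv hv1] at h1
    exact h1
  haveI hE₂n : E₂.Normal := by
    have hle : ∀ g : S, E₂ ≤ E₂.comap (MulAut.conj g).toMonoidHom := by
      intro g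
      refine sup_le ?_ ?_
      · intro n hn
        have h2 : g * n * g⁻¹ ∈ Z₁ := hZ₁n.conj_mem n hn g
        exact (le_sup_left : Z₁ ≤ E₂) h2
      · rw [zpowers_le]
        change g * v * g⁻¹ ∈ E₂
        rcases hvg g with h1 | h1
        · rw [h1]
          exact (le_sup_right : zpowers v ≤ E₂) (mem_zpowers v)
        · rw [h1]
          exact E₂.mul_mem ((le_sup_left : Z₁ ≤ E₂) (mem_zpowers z))
            ((le_sup_right : zpowers v ≤ E₂) (mem_zpowers v))
    constructor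
    intro n hn g
    exact hle g hn
  have hE₂lt : E₂ < E := by
    refine lt_of_le_of_ne hE₂E (fun h => ?_)
    rw [h, hE8] at hE₂c
    omega
  obtain ⟨w, hwE, hwE₂, hwc⟩ :=
    Cfsg.Agent.Lib.Involutions2.NormalFour.exists_mem_comm_mem hS E₂ E hE₂lt
  -- `z, v, w` generate `E`
  have hgen : ∀ g : S, g * v = v * g → g * w = w * g → ∀ e ∈ E, g * e = e * g := by
    intro g hgv hgw
    let T : Subgroup S := E ⊓ centralizer ({g} : Set S)
    have hvT : v ∈ T := ⟨hvE, mem_centralizer_singleton_iff.2 hgv.symm⟩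
    have hwT : w ∈ T := ⟨hwE, mem_centralizer_singleton_iff.2 hgw.symm⟩
    have hzT : z ∈ T := ⟨hzE, mem_centralizer_singleton_iff.2 (hzc g).symm⟩
    have hE₂T : E₂ ≤ T := sup_le (by rw [zpowers_le]; exact hzT) (by rw [zpowers_le]; exact hvT)
    have hE₂4 : 4 ≤ Nat.card E₂ := by
      have hlt : Z₁ < E₂ := lt_of_le_of_ne le_sup_left (fun h => hvZ (by
        rw [h]
        exact (le_sup_right : zpowers v ≤ E₂) (mem_zpowers v)))
      have h1 := card_lt_of_lt hlt
      have h2 : Nat.card Z₁ ∣ Nat.card E₂ := Subgroup.card_dvd_of_le le_sup_left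
      rw [hZ₁c] at h1 h2
      omega
    have hTE : T ≤ E := inf_le_left
    have hltT : E₂ < T := lt_of_le_of_ne hE₂T (fun h => hwE₂ (by rw [h]; exact hwT))
    have hTeq : T = E := by
      have h1 := card_lt_of_lt hltT
      have h2 : Nat.card T ∣ 8 := by
        rw [← hE8]
        exact Subgroup.card_dvd_of_le hTE
      have h3 : Nat.card T ≤ 8 := Nat.le_of_dvd (by norm_num) h2
      have h4 : Nat.card T = 8 := by
        have h5 : Nat.card T ≠ 5 := by intro h; rw [h] at h2; revert h2; decide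
        have h6 : Nat.card T ≠ 6 := by intro h; rw [h] at h2; revert h2; decide
        have h7 : Nat.card T ≠ 7 := by intro h; rw [h] at h2; revert h2; decide
        omega
      exact Subgroup.eq_of_le_of_card_ge hTE (by omega)
    intro e he
    have : e ∈ T := by rw [hTeq]; exact he
    exact (mem_centralizer_singleton_iff.1 this.2).symm
  -- the data map
  let f : S → Prop × E₂ := fun g => (g * v * g⁻¹ = v, ⟨g * w * g⁻¹ * w⁻¹, hwc g⟩)
  have hf : ∀ g g', f g = f g' → g⁻¹ * g' ∈ C' := by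
    intro g g' hgg
    have h1 : (g * v * g⁻¹ = v) = (g' * v * g'⁻¹ = v) := congrArg Prod.fst hgg
    have h2 : g * w * g⁻¹ * w⁻¹ = g' * w * g'⁻¹ * w⁻¹ :=
      congrArg (fun p : Prop × E₂ => (p.2 : S)) hgg
    have h3 : g * w * g⁻¹ = g' * w * g'⁻¹ := mul_right_cancel h2
    have h4 : g * v * g⁻¹ = g' * v * g'⁻¹ := by
      rcases hvg g with h5 | h5 <;> rcases hvg g' with h6 | h6
      · rw [h5, h6]
      · rw [h5] at h1
        have : g' * v * g'⁻¹ = v := by rw [← h1]
        rw [h5, this]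
      · rw [h6] at h1
        have : g * v * g⁻¹ = v := by rw [h1]
        rw [h6, this]
      · rw [h5, h6]
    rw [hCm]
    refine hgen _ ?_ ?_
    · calc g⁻¹ * g' * v = g⁻¹ * (g' * v * g'⁻¹) * g' := by group
        _ = g⁻¹ * (g * v * g⁻¹) * g' := by rw [h4]
        _ = v * (g⁻¹ * g') := by group
    · calc g⁻¹ * g' * w = g⁻¹ * (g' * w * g'⁻¹) * g' := by group
        _ = g⁻¹ * (g * w * g⁻¹) * g' := by rw [h3]
        _ = w * (g⁻¹ * g') := by group
  have hXc : Nat.card (Prop × E₂) ≤ 8 := by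
    rw [Nat.card_prod, Nat.card_eq_fintype_card (α := Prop), Fintype.card_prop]
    omega
  have hPle : Nat.card (S ⧸ C') ≤ 8 := by
    have h1 := index_le_of_fun C' f hf
    rw [Subgroup.index_eq_card] at h1
    exact h1.trans hXc
  let R : Subgroup (S ⧸ C') := H.map π
  let R₀ : Subgroup (S ⧸ C') := K.map π
  have hR₀pos : 0 < Nat.card R₀ := Nat.card_pos
  change Nat.card R ≤ 4 * Nat.card R₀
  by_cases hR4 : Nat.card R ≤ 4
  · omega
  -- `|R| = 8`
  have hRtop : Nat.card R = 8 := by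
    have hP : IsPGroup 2 (S ⧸ C') := hS.to_quotient C'
    obtain ⟨m, hm⟩ := IsPGroup.iff_card.1 (hP.to_subgroup R)
    have h1 : Nat.card R ≤ Nat.card (S ⧸ C') := Subgroup.card_le_card_group R
    have hm3 : m = 3 := by
      have hm4 : m < 4 := by
        by_contra hcon
        have h2 : 2 ^ 4 ≤ 2 ^ m := Nat.pow_le_pow_right (by norm_num) (by omega)
        omega
      have hm2 : 2 < m := by
        by_contra hcon
        have h2 : 2 ^ m ≤ 2 ^ 2 := Nat.pow_le_pow_right (by norm_num) (by omega)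
        omega
      omega
    rw [hm, hm3]
    norm_num
  have hP8 : Nat.card (S ⧸ C') = 8 := by
    have h1 : Nat.card R ≤ Nat.card (S ⧸ C') := Subgroup.card_le_card_group R
    omega
  have hRt : R = ⊤ := by
    apply Subgroup.eq_top_of_card_eq
    rw [hRtop, hP8]
  -- the data map is bijective on `P`
  let F : S ⧸ C' → Prop × E₂ := fun r => f r.out
  have hFinj : Function.Injective F := by
    intro r r' hrr
    have h1 := hf _ _ hrr
    rw [← r.out_eq', ← r'.out_eq']
    exact QuotientGroup.eq.2 h1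
  have hXc' : Nat.card (Prop × E₂) = 8 := by
    have h1 := Nat.card_le_card_of_injective F hFinj
    omega
  have hFsurj : Function.Surjective F := by
    have := (Function.Injective.bijective_of_nat_card_le hFinj (by omega))
    exact this.2
  obtain ⟨r₁, hr₁⟩ := hFsurj (False, 1)
  obtain ⟨r₂, hr₂⟩ := hFsurj (True, ⟨v, (le_sup_right : zpowers v ≤ E₂) (mem_zpowers v)⟩)
  set h₁ := r₁.out with hh₁
  set h₂ := r₂.out with hh₂
  have hr₁a : ¬ (h₁ * v * h₁⁻¹ = v) := by
    have : (h₁ * v * h₁⁻¹ = v) = False := congrArg Prod.fst hr₁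
    rw [this]
    exact not_false
  have hr₁b : h₁ * w * h₁⁻¹ * w⁻¹ = 1 := congrArg (fun p : Prop × E₂ => (p.2 : S)) hr₁
  have hr₂a : h₂ * v * h₂⁻¹ = v := by
    have : (h₂ * v * h₂⁻¹ = v) = True := congrArg Prod.fst hr₂
    rw [this]
    trivial
  have hr₂b : h₂ * w * h₂⁻¹ * w⁻¹ = v := congrArg (fun p : Prop × E₂ => (p.2 : S)) hr₂
  have hr₁w : h₁ * w * h₁⁻¹ = w := by
    calc h₁ * w * h₁⁻¹ = (h₁ * w * h₁⁻¹ * w⁻¹) * w := by group
      _ = w := by rw [hr₁b, one_mul]
  have hr₂w : h₂ * w * h₂⁻¹ = v * w := by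
    calc h₂ * w * h₂⁻¹ = (h₂ * w * h₂⁻¹ * w⁻¹) * w := by group
      _ = v * w := by rw [hr₂b]
  have hnc : r₁ * r₂ * r₁⁻¹ * r₂⁻¹ ≠ 1 := by
    intro h0
    have hπ₁ : π h₁ = r₁ := QuotientGroup.out_eq' r₁
    have hπ₂ : π h₂ = r₂ := QuotientGroup.out_eq' r₂
    have h3 : π (h₁ * h₂ * h₁⁻¹ * h₂⁻¹) = 1 := by
      simp only [map_mul, map_inv, hπ₁, hπ₂]
      exact h0
    have h4 : h₁ * h₂ * h₁⁻¹ * h₂⁻¹ ∈ C' := (QuotientGroup.eq_one_iff _).1 h3
    rw [hCm] at h4
    have h5 := h4 (h₂ * w * h₂⁻¹) (hn.conj_mem w hwE h₂)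
    have h6 : (h₁ * h₂ * h₁⁻¹ * h₂⁻¹) * (h₂ * w * h₂⁻¹) * (h₁ * h₂ * h₁⁻¹ * h₂⁻¹)⁻¹ =
        h₂ * w * h₂⁻¹ := by
      rw [h5]
      group
    have h7 : (h₁ * h₂ * h₁⁻¹ * h₂⁻¹) * (h₂ * w * h₂⁻¹) * (h₁ * h₂ * h₁⁻¹ * h₂⁻¹)⁻¹
        = h₁ * (h₂ * (h₁⁻¹ * w * h₁) * h₂⁻¹) * h₁⁻¹ := by
      group
    have hr₁wi : h₁⁻¹ * w * h₁ = w := by
      calc h₁⁻¹ * w * h₁ = h₁⁻¹ * (h₁ * w * h₁⁻¹) * h₁ := by rw [hr₁w]
        _ = w := by group
    rw [h7, hr₁wi, hr₂w] at h6
    have h8 : h₁ * (v * w) * h₁⁻¹ = (h₁ * v * h₁⁻¹) * w := by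
      calc h₁ * (v * w) * h₁⁻¹ = (h₁ * v * h₁⁻¹) * (h₁ * w * h₁⁻¹) := by group
        _ = _ := by rw [hr₁w]
    rw [h8] at h6
    exact hr₁a (mul_right_cancel h6)
  -- so `R₀` is nontrivial
  have hr₁R : r₁ ∈ R := by rw [hRt]; trivial
  have hr₂R : r₂ ∈ R := by rw [hRt]; trivial
  obtain ⟨x₁, hx₁, hx₁r⟩ := hr₁R
  obtain ⟨x₂, hx₂, hx₂r⟩ := hr₂R
  have hcomK : r₁ * r₂ * r₁⁻¹ * r₂⁻¹ ∈ R₀ := by
    refine ⟨x₁ * x₂ * x₁⁻¹ * x₂⁻¹, hc x₁ hx₁ x₂ hx₂, ?_⟩
    change π (x₁ * x₂ * x₁⁻¹ * x₂⁻¹) = _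
    simp only [map_mul, map_inv]
    rw [show π x₁ = r₁ from hx₁r, show π x₂ = r₂ from hx₂r]
  have hR₀ne : R₀ ≠ ⊥ := by
    intro h0
    rw [h0, mem_bot] at hcomK
    exact hnc hcomK
  have hR₀2 : 1 < Nat.card R₀ := (Subgroup.one_lt_card_iff_ne_bot _).2 hR₀ne
  omega

/-- A normal `E₁₆` extending `E` cannot exist. -/
lemma no_ext [Finite S] {E : Subgroup S} [hn : E.Normal] (hE2 : ∀ e ∈ E, e * e = 1)
    (hE8 : Nat.card E = 8)
    (hN : ∀ N : Subgroup S, N.Normal → (∀ x ∈ N, x * x = 1) → Nat.card N ≤ 8) {u : S}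
    (huE : u ∉ E) (huu : u * u = 1) (huc : ∀ e ∈ E, u * e = e * u)
    (hug : ∀ g, g * u * g⁻¹ * u⁻¹ ∈ E) : False := by
  let W : Subgroup S := E ⊔ zpowers u
  have hEW : E ≤ W := le_sup_left
  have huW : u ∈ W := (le_sup_right : zpowers u ≤ W) (mem_zpowers u)
  have hcW : ∀ a ∈ E, ∀ b ∈ zpowers u, a * b = b * a := by
    intro a ha b hb
    rcases (mem_zpowers_of_sq huu).1 hb with rfl | rfl
    · simp
    · exact (huc a ha).symm
  have hWn : W.Normal := by
    have hle : ∀ g : S, W ≤ W.comap (MulAut.conj g).toMonoidHom := by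
      intro g
      refine sup_le ?_ ?_
      · intro e he
        exact hEW (hn.conj_mem e he g)
      · rw [zpowers_le]
        change g * u * g⁻¹ ∈ W
        have h1 : g * u * g⁻¹ = (g * u * g⁻¹ * u⁻¹) * u := by group
        rw [h1]
        exact W.mul_mem (hEW (hug g)) huW
    constructor
    intro n hn g
    exact hle g hn
  have hW2 : ∀ x ∈ W, x * x = 1 := by
    intro x hx
    obtain ⟨d, hd, b, hb, rfl⟩ := exists_mul_of_mem_sup hcW hx
    have h1 : b * b = 1 := by
      rcases (mem_zpowers_of_sq huu).1 hb with rfl | rfl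
      · simp
      · exact huu
    calc d * b * (d * b) = d * (b * d) * b := by group
      _ = d * (d * b) * b := by rw [← hcW d hd b hb]
      _ = (d * d) * (b * b) := by group
      _ = 1 := by rw [hE2 d hd, h1, one_mul]
  have hlt : E < W := lt_of_le_of_ne hEW (fun h => huE (by rw [h]; exact huW))
  have h1 := card_lt_of_lt hlt
  have h2 := hN W hWn hW2
  omega

theorem bound_E [Finite S] (hS : IsPGroup 2 S) {E : Subgroup S} [hn : E.Normal]
    (hE2 : ∀ e ∈ E, e * e = 1) (hE8 : Nat.card E = 8)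
    (hCE : ∀ y, (∀ e ∈ E, y * e = e * y) → y ∈ E) : SecBd 4 S := by
  intro H K hKH hc hs
  have hH := card_eq_inf_mul_map (E := E) H
  have hK := card_eq_inf_mul_map (E := E) K
  have hsec := sec2 hS hE2 hE8 E (fun y => ⟨fun hy e he => comm_of_sq hE2 hy he, hCE y⟩) H K hc
  have hKpos : 0 < Nat.card (K ⊓ E : Subgroup S) := Nat.card_pos
  have hHE8 : Nat.card (H ⊓ E : Subgroup S) ∣ 8 := by
    rw [← hE8]
    exact Subgroup.card_dvd_of_le inf_le_right
  by_cases hHE : H ≤ E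
  · have h1 : Nat.card H ≤ 8 := by
      rw [← hE8]
      exact Subgroup.card_le_of_le hHE
    have h2 : 0 < Nat.card K := Nat.card_pos
    norm_num
    omega
  obtain ⟨h₀, hh₀, hh₀E⟩ := SetLike.not_le_iff_exists.1 hHE
  have hB : Nat.card (H ⊓ E : Subgroup S) ≤ 4 * Nat.card (K ⊓ E : Subgroup S) := by
    by_cases hEH : E ≤ H
    · -- `K ⊓ E ≠ 1`
      have hne : K ⊓ E ≠ ⊥ := by
        intro h0
        apply hh₀E
        refine hCE h₀ (fun e he => ?_)
        have h1 := hc h₀ hh₀ e (hEH he)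
        have h2 : h₀ * e * h₀⁻¹ * e⁻¹ ∈ K ⊓ E :=
          ⟨h1, E.mul_mem (hn.conj_mem e he h₀) (E.inv_mem he)⟩
        rw [h0, mem_bot] at h2
        calc h₀ * e = (h₀ * e * h₀⁻¹ * e⁻¹) * e * h₀ := by group
          _ = _ := by rw [h2, one_mul]
      have h1 : 1 < Nat.card (K ⊓ E : Subgroup S) := (Subgroup.one_lt_card_iff_ne_bot _).2 hne
      have h2 : Nat.card (H ⊓ E : Subgroup S) ≤ 8 := Nat.le_of_dvd (by norm_num) hHE8
      omega
    · have hlt : H ⊓ E < E := lt_of_le_of_ne inf_le_right (fun h => hEH (inf_eq_right.1 h))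
      have h1 := card_lt_of_lt hlt
      rw [hE8] at h1
      have h2 : Nat.card (H ⊓ E : Subgroup S) ≠ 5 := by intro h; rw [h] at hHE8; revert hHE8; decide
      have h3 : Nat.card (H ⊓ E : Subgroup S) ≠ 6 := by intro h; rw [h] at hHE8; revert hHE8; decide
      have h4 : Nat.card (H ⊓ E : Subgroup S) ≠ 7 := by intro h; rw [h] at hHE8; revert hHE8; decide
      omega
  rw [hH, hK]
  calc _ ≤ (4 * Nat.card (K ⊓ E : Subgroup S)) * (4 * Nat.card (K.map (QuotientGroup.mk' E))) :=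
        Nat.mul_le_mul hB hsec
    _ = _ := by ring

/-- `S / E` with a cyclic subgroup of index two. -/
theorem bound_cyc [Finite S] (hS : IsPGroup 2 S) {E : Subgroup S} [hn : E.Normal]
    (hE2 : ∀ e ∈ E, e * e = 1) (hE8 : Nat.card E = 8)
    (hN : ∀ N : Subgroup S, N.Normal → (∀ x ∈ N, x * x = 1) → Nat.card N ≤ 8)
    (hcyc : ∃ C : Subgroup (S ⧸ E), IsCyclic C ∧ C.index = 2) : SecBd 4 S := by
  classical
  intro H K hKH hc hs
  let π := QuotientGroup.mk' E
  let R : Subgroup (S ⧸ E) := H.map π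
  let R₀ : Subgroup (S ⧸ E) := K.map π
  have hR₀R : R₀ ≤ R := Subgroup.map_mono hKH
  have hH := card_eq_inf_mul_map (E := E) H
  have hK := card_eq_inf_mul_map (E := E) K
  have hKpos : 0 < Nat.card (K ⊓ E : Subgroup S) := Nat.card_pos
  have hR₀pos : 0 < Nat.card R₀ := Nat.card_pos
  have hHE8 : Nat.card (H ⊓ E : Subgroup S) ≤ 8 := by
    rw [← hE8]
    exact Subgroup.card_le_of_le inf_le_right
  have hgoal : Nat.card (H ⊓ E : Subgroup S) * Nat.card R ≤
      16 * (Nat.card (K ⊓ E : Subgroup S) * Nat.card R₀) → Nat.card H ≤ 2 ^ 4 * Nat.card K := by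
    intro h
    rw [hH, hK]
    exact h
  apply hgoal
  by_cases hRc : IsCyclic R
  · obtain ⟨⟨c, hcR⟩, hgen⟩ := hRc.exists_generator
    have hRle : R ≤ zpowers c := by
      intro r hr
      obtain ⟨i, hi⟩ := mem_zpowers_iff.1 (hgen ⟨r, hr⟩)
      have : c ^ i = r := congrArg Subtype.val hi
      rw [← this]
      exact zpow_mem (mem_zpowers c) i
    have h1 := relIndex_le_two_of_cyclic (K := R₀) hRle (by
      rintro _ ⟨x, hx, rfl⟩
      exact ⟨x * x, hs x hx, by simp [π]⟩)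
    have h2 := card_eq_relIndex_mul hR₀R
    have h6 : Nat.card R ≤ 2 * Nat.card R₀ := by
      rw [h2]
      exact Nat.mul_le_mul_right _ h1
    have h5 : Nat.card (H ⊓ E : Subgroup S) ≤ 8 * Nat.card (K ⊓ E : Subgroup S) := by
      omega
    calc _ ≤ (8 * Nat.card (K ⊓ E : Subgroup S)) * (2 * Nat.card R₀) := Nat.mul_le_mul h5 h6
      _ = _ := by ring
  · obtain ⟨C, hCc, hCi⟩ := hcyc
    obtain ⟨⟨c, hcC⟩, hgen⟩ := hCc.exists_generator
    have hCle : C ≤ zpowers c := by
      intro r hr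
      obtain ⟨i, hi⟩ := mem_zpowers_iff.1 (hgen ⟨r, hr⟩)
      have : c ^ i = r := congrArg Subtype.val hi
      rw [← this]
      exact zpow_mem (mem_zpowers c) i
    let Y : Subgroup (S ⧸ E) := C ⊓ R
    have hYle : Y ≤ zpowers c := inf_le_left.trans hCle
    have h1 := card_eq_relIndex_mul_inf C R
    have h2 : C.relIndex R ≤ 2 := by
      haveI hCn : C.Normal := Subgroup.normal_of_index_eq_two hCi
      rw [← hCi]
      exact Nat.le_of_dvd (by rw [hCi]; norm_num) (Subgroup.relIndex_dvd_index_of_normal C R)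
    have hYne : Y ≠ ⊥ := by
      intro hY
      apply hRc
      have hY1 : Nat.card (C ⊓ R : Subgroup (S ⧸ E)) = 1 := by
        change Nat.card Y = 1
        rw [hY]
        simp
      rw [hY1, mul_one] at h1
      have hR2 : Nat.card R ≤ 2 := by omega
      have hRpos : 0 < Nat.card R := Nat.card_pos
      have hcases : Nat.card R = 1 ∨ Nat.card R = 2 := by omega
      rcases hcases with h | h
      · haveI : Subsingleton R := (Nat.card_eq_one_iff_unique.1 h).1
        exact isCyclic_of_subsingleton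
      · haveI : Fact (Nat.Prime (Nat.card R)) := ⟨by rw [h]; exact Nat.prime_two⟩
        exact isCyclic_of_prime_card rfl
    let K₁ : Subgroup (S ⧸ E) := R₀ ⊓ Y
    have hK₁Y : K₁ ≤ Y := inf_le_right
    have h3 := relIndex_le_two_of_cyclic (K := K₁) hYle (by
      intro y hy
      refine ⟨?_, Y.mul_mem hy hy⟩
      obtain ⟨x, hx, rfl⟩ := hy.2
      exact ⟨x * x, hs x hx, by simp [π]⟩)
    have h4 := card_eq_relIndex_mul hK₁Y
    have h5 : Nat.card K₁ ≤ Nat.card R₀ := Subgroup.card_le_of_le inf_le_left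
    have h6 : Nat.card R ≤ 4 * Nat.card R₀ := by
      have h7 : Nat.card Y ≤ 2 * Nat.card K₁ := by
        rw [h4]
        exact Nat.mul_le_mul_right _ h3
      have h8 : Nat.card R = C.relIndex R * Nat.card Y := h1
      rw [h8]
      calc _ ≤ 2 * (2 * Nat.card R₀) := Nat.mul_le_mul h2 (h7.trans (Nat.mul_le_mul_left _ h5))
        _ = _ := by ring
    -- the `E` part
    have hB : Nat.card (H ⊓ E : Subgroup S) ≤ 4 * Nat.card (K ⊓ E : Subgroup S) := by
      by_contra hcon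
      have hK1 : Nat.card (K ⊓ E : Subgroup S) = 1 := by omega
      have hbig : 4 < Nat.card (H ⊓ E : Subgroup S) := by omega
      have hdvd : Nat.card (H ⊓ E : Subgroup S) ∣ 8 := by
        rw [← hE8]
        exact Subgroup.card_dvd_of_le inf_le_right
      have h8 : Nat.card (H ⊓ E : Subgroup S) = 8 := by
        have h9 : Nat.card (H ⊓ E : Subgroup S) ≠ 5 := by intro h; rw [h] at hdvd; revert hdvd; decide
        have h10 : Nat.card (H ⊓ E : Subgroup S) ≠ 6 := by intro h; rw [h] at hdvd; revert hdvd; decide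
        have h11 : Nat.card (H ⊓ E : Subgroup S) ≠ 7 := by intro h; rw [h] at hdvd; revert hdvd; decide
        omega
      have hEH : E ≤ H := by
        have : H ⊓ E = E := Subgroup.eq_of_le_of_card_ge inf_le_right (by omega)
        exact inf_eq_right.1 this
      have hKbot : K ⊓ E = ⊥ := Subgroup.eq_bot_of_card_eq _ hK1
      -- an involution of `Y`
      obtain ⟨⟨r, hrY⟩, hr1⟩ := Subgroup.ne_bot_iff_exists_ne_one.1 hYne
      have hr1' : r ≠ 1 := fun h => hr1 (Subtype.ext h)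
      obtain ⟨h, hh, rfl⟩ := hrY.2
      have hP : IsPGroup 2 (S ⧸ E) := hS.to_quotient E
      obtain ⟨j, hj⟩ := IsPGroup.iff_orderOf.1 hP (π h)
      have hj0 : j ≠ 0 := by
        rintro rfl
        rw [pow_zero, orderOf_eq_one_iff] at hj
        exact hr1' hj
      obtain ⟨i, rfl⟩ := Nat.exists_eq_succ_of_ne_zero hj0
      let u := h ^ (2 ^ i)
      have huH : u ∈ H := H.pow_mem hh _
      have hπu : π u = (π h) ^ (2 ^ i) := map_pow _ _ _
      have hord : (π u) ^ 2 = 1 := by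
        rw [hπu, ← pow_mul, ← pow_succ, ← hj]
        exact pow_orderOf_eq_one _
      have hπu1 : π u ≠ 1 := by
        rw [hπu]
        intro h0
        have h1 := orderOf_dvd_of_pow_eq_one h0
        rw [hj] at h1
        have h2 : 2 ^ (i + 1) ≤ 2 ^ i := Nat.le_of_dvd (by positivity) h1
        rw [pow_succ] at h2
        have : 0 < 2 ^ i := by positivity
        omega
      have huE : u ∉ E := fun hu => hπu1 ((QuotientGroup.eq_one_iff u).2 hu)
      have hπuC : π u ∈ C := by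
        rw [hπu]
        exact C.pow_mem hrY.1 _
      have hcent : ∀ x : S, x * u * x⁻¹ * u⁻¹ ∈ E := by
        intro x
        have h1 := comm_cyclic_unique C hCc hCi hπuC (by rw [← sq]; exact hord) hπu1 (π x)
        rw [← QuotientGroup.eq_one_iff]
        change π (x * u * x⁻¹ * u⁻¹) = 1
        simp only [map_mul, map_inv]
        rw [h1]
        group
      have huu : u * u = 1 := by
        have h1 : u * u ∈ K ⊓ E := by
          refine ⟨hs u huH, (QuotientGroup.eq_one_iff _).1 ?_⟩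
          change π (u * u) = 1
          rw [map_mul, ← sq]
          exact hord
        rwa [hKbot, mem_bot] at h1
      have huc : ∀ e ∈ E, u * e = e * u := by
        intro e he
        have h1 : u * e * u⁻¹ * e⁻¹ ∈ K ⊓ E :=
          ⟨hc u huH e (hEH he), E.mul_mem (hn.conj_mem e he u) (E.inv_mem he)⟩
        rw [hKbot, mem_bot] at h1
        calc u * e = (u * e * u⁻¹ * e⁻¹) * e * u := by group
          _ = _ := by rw [h1, one_mul]
      exact no_ext hE2 hE8 hN huE huu huc hcent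
    calc _ ≤ (4 * Nat.card (K ⊓ E : Subgroup S)) * (4 * Nat.card R₀) := Nat.mul_le_mul hB h6
      _ = _ := by ring

/-- The abelian normal subgroup of order 16. -/
theorem bound_B [Finite S] (hS : IsPGroup 2 S) {E : Subgroup S} [hn : E.Normal]
    (hE2 : ∀ e ∈ E, e * e = 1) (hE8 : Nat.card E = 8) {y₀ z : S} (hy₀E : y₀ ∉ E)
    (hy₀c : ∀ e ∈ E, y₀ * e = e * y₀) (hy₀y₀ : y₀ * y₀ = z) (hzE : z ∈ E) (hz1 : z ≠ 1)
    (hy₀g : ∀ g, g * y₀ * g⁻¹ * y₀⁻¹ ∈ E)
    (hBC : ∀ y, (∀ e ∈ E, y * e = e * y) → y ∈ E ⊔ zpowers y₀)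
    (hKey : ∀ x, (∀ b ∈ E ⊔ zpowers y₀, x * b * x⁻¹ * b⁻¹ = 1 ∨ x * b * x⁻¹ * b⁻¹ = z) →
      x ∈ E ⊔ zpowers y₀) : SecBd 4 S := by
  classical
  let B : Subgroup S := E ⊔ zpowers y₀
  have hEB : E ≤ B := le_sup_left
  have hy₀B : y₀ ∈ B := (le_sup_right : zpowers y₀ ≤ B) (mem_zpowers y₀)
  -- `B = E ∪ y₀ E`
  have hBmem : ∀ b ∈ B, b ∈ E ∨ ∃ e ∈ E, b = y₀ * e := by
    let T : Subgroup S :=
      { carrier := {b | b ∈ E ∨ ∃ e ∈ E, b = y₀ * e}
        mul_mem' := by
          rintro a b (ha | ⟨e, he, rfl⟩) (hb | ⟨f, hf, rfl⟩)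
          · exact Or.inl (E.mul_mem ha hb)
          · refine Or.inr ⟨a * f, E.mul_mem ha hf, ?_⟩
            calc a * (y₀ * f) = (a * y₀) * f := by group
              _ = (y₀ * a) * f := by rw [hy₀c a ha]
              _ = _ := by group
          · exact Or.inr ⟨e * b, E.mul_mem he hb, by group⟩
          · left
            have h1 : y₀ * e * (y₀ * f) = (y₀ * y₀) * (e * f) := by
              calc y₀ * e * (y₀ * f) = y₀ * (e * y₀) * f := by group
                _ = y₀ * (y₀ * e) * f := by rw [hy₀c e he]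
                _ = _ := by group
            rw [h1, hy₀y₀]
            exact E.mul_mem hzE (E.mul_mem he hf)
        one_mem' := Or.inl E.one_mem
        inv_mem' := by
          rintro a (ha | ⟨e, he, rfl⟩)
          · exact Or.inl (E.inv_mem ha)
          · right
            refine ⟨z⁻¹ * e⁻¹, E.mul_mem (E.inv_mem hzE) (E.inv_mem he), ?_⟩
            have h4 : e⁻¹ * y₀⁻¹ = y₀⁻¹ * e⁻¹ := by
              have h5 := hy₀c e⁻¹ (E.inv_mem he)
              calc e⁻¹ * y₀⁻¹ = y₀⁻¹ * (y₀ * e⁻¹) * y₀⁻¹ := by group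
                _ = y₀⁻¹ * (e⁻¹ * y₀) * y₀⁻¹ := by rw [h5]
                _ = _ := by group
            rw [mul_inv_rev, h4, ← hy₀y₀]
            group }
    have hle : B ≤ T := sup_le (fun e he => Or.inl he) (by
      rw [zpowers_le]
      exact Or.inr ⟨1, E.one_mem, by simp⟩)
    exact fun b hb => hle hb
  have hBz : ∀ b ∈ B, b ∉ E → b * b = z := by
    intro b hb hbE
    rcases hBmem b hb with h | ⟨e, he, rfl⟩
    · exact absurd h hbE
    · calc y₀ * e * (y₀ * e) = y₀ * (e * y₀) * e := by group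
        _ = y₀ * (y₀ * e) * e := by rw [hy₀c e he]
        _ = (y₀ * y₀) * (e * e) := by group
        _ = z := by rw [hy₀y₀, hE2 e he, mul_one]
  have hBcE : ∀ b ∈ B, ∀ e ∈ E, b * e = e * b := by
    intro b hb e he
    rcases hBmem b hb with h | ⟨f, hf, rfl⟩
    · exact comm_of_sq hE2 h he
    · calc y₀ * f * e = y₀ * (f * e) := by group
        _ = y₀ * (e * f) := by rw [comm_of_sq hE2 hf he]
        _ = (y₀ * e) * f := by group
        _ = (e * y₀) * f := by rw [hy₀c e he]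
        _ = _ := by group
  have hBcomm : ∀ a ∈ B, ∀ b ∈ B, a * b = b * a := by
    intro a ha b hb
    rcases hBmem b hb with h | ⟨f, hf, rfl⟩
    · exact hBcE a ha b h
    · have h1 : a * y₀ = y₀ * a := by
        rcases hBmem a ha with h | ⟨e, he, rfl⟩
        · exact (hy₀c a h).symm
        · calc y₀ * e * y₀ = y₀ * (e * y₀) := by group
            _ = y₀ * (y₀ * e) := by rw [hy₀c e he]
            _ = _ := by group
      calc a * (y₀ * f) = (a * y₀) * f := by group
        _ = (y₀ * a) * f := by rw [h1]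
        _ = y₀ * (a * f) := by group
        _ = y₀ * (f * a) := by rw [hBcE a ha f hf]
        _ = _ := by group
  haveI hBn : B.Normal := by
    have hle : ∀ g : S, B ≤ B.comap (MulAut.conj g).toMonoidHom := by
      intro g
      refine sup_le ?_ ?_
      · intro e he
        exact hEB (hn.conj_mem e he g)
      · rw [zpowers_le]
        change g * y₀ * g⁻¹ ∈ B
        have h1 : g * y₀ * g⁻¹ = (g * y₀ * g⁻¹ * y₀⁻¹) * y₀ := by group
        rw [h1]
        exact B.mul_mem (hEB (hy₀g g)) hy₀B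
    constructor
    intro n hn g
    exact hle g hn
  have hCm : ∀ y, y ∈ B ↔ ∀ e ∈ E, y * e = e * y :=
    fun y => ⟨fun hy e he => hBcE y hy e he, hBC y⟩
  -- `|B| = 16`
  have hBcard : Nat.card B = 16 := by
    have hlt : E < B := lt_of_le_of_ne hEB (fun h => hy₀E (by rw [h]; exact hy₀B))
    have h1 := card_lt_of_lt hlt
    have h2 : E.relIndex B ≤ Nat.card Prop := by
      refine relIndex_le_of_fun E B (fun b => b ∈ E) ?_
      intro r hr r' hr' hf
      have hf' : r ∈ E ↔ r' ∈ E := iff_of_eq hf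
      by_cases hrE : r ∈ E
      · exact E.mul_mem (E.inv_mem hrE) (hf'.1 hrE)
      · have hr'E : r' ∉ E := fun h => hrE (hf'.2 h)
        rcases hBmem r hr with h | ⟨e, he, rfl⟩
        · exact absurd h hrE
        · rcases hBmem r' hr' with h | ⟨f, hf2, rfl⟩
          · exact absurd h hr'E
          · have : (y₀ * e)⁻¹ * (y₀ * f) = e⁻¹ * f := by group
            rw [this]
            exact E.mul_mem (E.inv_mem he) hf2
    rw [Nat.card_eq_fintype_card (α := Prop), Fintype.card_prop] at h2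
    have h3 := card_eq_relIndex_mul hEB
    rw [hE8] at h1 h3
    have h4 : E.relIndex B = 2 := by
      have h5 : E.relIndex B ≠ 0 := by
        intro h0
        rw [h0] at h3
        omega
      have h6 : E.relIndex B ≠ 1 := by
        intro h0
        rw [h0] at h3
        omega
      omega
    rw [h3, h4]
  intro H K hKH hc hs
  have hH := card_eq_inf_mul_map (E := B) H
  have hK := card_eq_inf_mul_map (E := B) K
  have hsec := sec2 hS hE2 hE8 B hCm H K hc
  have hKpos : 0 < Nat.card (K ⊓ B : Subgroup S) := Nat.card_pos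
  have hdvd : Nat.card (H ⊓ B : Subgroup S) ∣ 16 := by
    rw [← hBcard]
    exact Subgroup.card_dvd_of_le inf_le_right
  have hKdvd : Nat.card (K ⊓ B : Subgroup S) ∣ 16 := by
    rw [← hBcard]
    exact Subgroup.card_dvd_of_le inf_le_right
  by_cases hHB : H ≤ B
  · have h1 : Nat.card H ≤ 16 := by
      rw [← hBcard]
      exact Subgroup.card_le_of_le hHB
    have h2 : 0 < Nat.card K := Nat.card_pos
    norm_num
    omega
  obtain ⟨h₀, hh₀, hh₀B⟩ := SetLike.not_le_iff_exists.1 hHB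
  have hB : Nat.card (H ⊓ B : Subgroup S) ≤ 4 * Nat.card (K ⊓ B : Subgroup S) := by
    have hle16 : Nat.card (H ⊓ B : Subgroup S) ≤ 16 := Nat.le_of_dvd (by norm_num) hdvd
    by_cases hd4 : Nat.card (H ⊓ B : Subgroup S) ≤ 4
    · omega
    have hcases : Nat.card (H ⊓ B : Subgroup S) = 8 ∨ Nat.card (H ⊓ B : Subgroup S) = 16 := by
      generalize Nat.card (H ⊓ B : Subgroup S) = d at hdvd hle16 hd4
      interval_cases d <;> first | omega | (exfalso; revert hdvd; decide)
    rcases hcases with h8 | h16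
    · -- `|H ⊓ B| = 8`
      have hne : K ⊓ B ≠ ⊥ := by
        by_cases hall : ∀ t ∈ H ⊓ B, t * t = 1
        · -- then `H ⊓ B = E`
          have hleE : H ⊓ B ≤ E := by
            intro t ht
            by_contra htE
            exact hz1 ((hBz t ht.2 htE).symm.trans (hall t ht))
          have hEq : H ⊓ B = E := Subgroup.eq_of_le_of_card_ge hleE (by rw [h8, hE8])
          intro h0
          apply hh₀B
          refine hBC h₀ (fun e he => ?_)
          have heH : e ∈ H := by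
            rw [← hEq] at he
            exact he.1
          have h1 : h₀ * e * h₀⁻¹ * e⁻¹ ∈ K ⊓ B :=
            ⟨hc h₀ hh₀ e heH, hEB (E.mul_mem (hn.conj_mem e he h₀) (E.inv_mem he))⟩
          rw [h0, mem_bot] at h1
          calc h₀ * e = (h₀ * e * h₀⁻¹ * e⁻¹) * e * h₀ := by group
            _ = _ := by rw [h1, one_mul]
        · push Not at hall
          obtain ⟨t, ht, ht1⟩ := hall
          intro h0
          have h1 : t * t ∈ K ⊓ B := ⟨hs t ht.1, B.mul_mem ht.2 ht.2⟩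
          rw [h0, mem_bot] at h1
          exact ht1 h1
      have h1 : 1 < Nat.card (K ⊓ B : Subgroup S) := (Subgroup.one_lt_card_iff_ne_bot _).2 hne
      omega
    · -- `|H ⊓ B| = 16`
      have hBH : B ≤ H := by
        have : H ⊓ B = B := Subgroup.eq_of_le_of_card_ge inf_le_right (by rw [h16, hBcard])
        exact inf_eq_right.1 this
      have hzK : z ∈ K ⊓ B := by
        rw [← hy₀y₀]
        exact ⟨hs y₀ (hBH hy₀B), B.mul_mem hy₀B hy₀B⟩
      have hex : ∃ b ∈ B, ¬ (h₀ * b * h₀⁻¹ * b⁻¹ = 1 ∨ h₀ * b * h₀⁻¹ * b⁻¹ = z) := by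
        by_contra hcon
        push Not at hcon
        exact hh₀B (hKey h₀ hcon)
      obtain ⟨b, hb, hbc⟩ := hex
      push Not at hbc
      have hcK : h₀ * b * h₀⁻¹ * b⁻¹ ∈ K ⊓ B :=
        ⟨hc h₀ hh₀ b (hBH hb), B.mul_mem (hBn.conj_mem b hb h₀) (B.inv_mem hb)⟩
      have h2 := two_lt_card hzK hcK hz1 hbc.1 hbc.2
      have h3 : 4 ≤ Nat.card (K ⊓ B : Subgroup S) := by
        generalize Nat.card (K ⊓ B : Subgroup S) = d at hKdvd h2
        by_contra h4
        have h5 : d = 3 := by omega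
        rw [h5] at hKdvd
        revert hKdvd
        decide
      omega
  rw [hH, hK]
  calc _ ≤ (4 * Nat.card (K ⊓ B : Subgroup S)) * (4 * Nat.card (K.map (QuotientGroup.mk' B))) :=
        Nat.mul_le_mul hB hsec
    _ = _ := by ring

/-- From a nontrivial centralizer to the element `y₀`. -/
theorem exists_y0 [Finite S] (hS : IsPGroup 2 S) {E : Subgroup S} [hn : E.Normal]
    (hE2 : ∀ e ∈ E, e * e = 1) {y : S} (hyE : y ∉ E) (hyc : ∀ e ∈ E, y * e = e * y) :
    ∃ y₀, y₀ ∉ E ∧ (∀ e ∈ E, y₀ * e = e * y₀) ∧ y₀ * y₀ ∈ E ∧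
      ∀ g, g * y₀ * g⁻¹ * y₀⁻¹ ∈ E := by
  classical
  haveI : Fact (Nat.Prime 2) := ⟨Nat.prime_two⟩
  let Cn : Subgroup S := centralizer (E : Set S)
  have hmemC : ∀ x, x ∈ Cn ↔ ∀ e ∈ E, x * e = e * x := by
    intro x
    rw [mem_centralizer_iff]
    exact ⟨fun h e he => (h e he).symm, fun h e he => (h e he).symm⟩
  haveI hCn : Cn.Normal := by
    exact Subgroup.normal_centralizer (H := E)
  have hlt : E < Cn := by
    refine lt_of_le_of_ne ?_ ?_
    · intro e he
      exact (hmemC e).2 (fun f hf => comm_of_sq hE2 he hf)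
    · intro h0
      apply hyE
      rw [h0]
      exact (hmemC y).2 hyc
  obtain ⟨c, hcC, hcE, hcc⟩ :=
    Cfsg.Agent.Lib.Involutions2.NormalFour.exists_mem_comm_mem hS E Cn hlt
  obtain ⟨n, hn2⟩ := IsPGroup.iff_orderOf.1 hS c
  have hex : ∃ j, c ^ (2 ^ j) ∈ E := ⟨n, by rw [← hn2, pow_orderOf_eq_one]; exact E.one_mem⟩
  have hj0 : Nat.find hex ≠ 0 := by
    intro h0
    have h1 := Nat.find_spec hex
    rw [h0, pow_zero, pow_one] at h1
    exact hcE h1
  obtain ⟨i, hi⟩ := Nat.exists_eq_succ_of_ne_zero hj0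
  have hiE : c ^ (2 ^ i) ∉ E := Nat.find_min hex (by omega)
  have hi2 : c ^ (2 ^ (i + 1)) ∈ E := by
    have := Nat.find_spec hex
    rwa [hi] at this
  refine ⟨c ^ (2 ^ i), hiE, ?_, ?_, ?_⟩
  · exact (hmemC _).1 (Cn.pow_mem hcC _)
  · rw [← pow_add, ← two_mul, ← pow_succ']
    exact hi2
  · intro g
    rw [← QuotientGroup.eq_one_iff]
    have h1 : ((g * c * g⁻¹ * c⁻¹ : S) : S ⧸ E) = 1 := (QuotientGroup.eq_one_iff _).2 (hcc g)
    simp only [QuotientGroup.mk_mul, QuotientGroup.mk_inv] at h1 ⊢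
    have h2 : (g : S ⧸ E) * (c : S ⧸ E) = (c : S ⧸ E) * (g : S ⧸ E) := by
      calc (g : S ⧸ E) * (c : S ⧸ E) = ((g : S ⧸ E) * c * (g : S ⧸ E)⁻¹ * (c : S ⧸ E)⁻¹) * c * g := by group
        _ = _ := by rw [h1, one_mul]
    have h3 : Commute (g : S ⧸ E) (c : S ⧸ E) := h2
    have h4 := h3.pow_right (2 ^ i)
    rw [QuotientGroup.mk_pow]
    rw [h4.eq]
    group

/-- The centralizer of a nontrivial element has order at most `4`: cyclic subgroup of index two. -/
theorem cyc_of_centralizer_le {X : Type*} [Group X] [Finite X] (hP : IsPGroup 2 X) {c : X}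
    (hc1 : c ≠ 1) (hD : Nat.card (centralizer ({c} : Set X)) ≤ 4) :
    ∃ C : Subgroup X, IsCyclic C ∧ C.index = 2 := by
  classical
  haveI : Fact (Nat.Prime 2) := ⟨Nat.prime_two⟩
  let D : Subgroup X := centralizer ({c} : Set X)
  have hmemD : ∀ r, r ∈ D ↔ r * c = c * r := fun r => mem_centralizer_singleton_iff
  obtain ⟨m, hm⟩ := IsPGroup.iff_card.1 (hP.to_subgroup D)
  have hm2 : m ≤ 2 := by
    by_contra hcon
    have h1 : 2 ^ 3 ≤ 2 ^ m := Nat.pow_le_pow_right (by norm_num) (by omega)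
    have h2 : Nat.card D ≤ 4 := hD
    omega
  have hcD : c ∈ D := by
    rw [hmemD]
  have hm0 : m ≠ 0 := by
    rintro rfl
    have h1 : Nat.card D = 1 := by rw [hm]; norm_num
    have h2 := Subgroup.eq_bot_of_card_eq D h1
    rw [h2, mem_bot] at hcD
    exact hc1 hcD
  have hcases : m = 1 ∨ m = 2 := by omega
  rcases hcases with rfl | rfl
  · have hD2 : Nat.card D = 2 := by rw [hm]; norm_num
    haveI : Nontrivial X := ⟨⟨c, 1, hc1⟩⟩
    have hcn := hP.center_nontrivial
    obtain ⟨⟨c', hc'⟩, hc1'⟩ := exists_ne (1 : center X)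
    have hc1'' : c' ≠ 1 := fun h0 => hc1' (Subtype.ext h0)
    have hcD' : c' ∈ D := by
      rw [hmemD]
      exact (mem_center_iff.1 hc' c).symm
    have hca : c' = c := eq_of_card_two hD2 hcD' hc1'' hcD hc1
    have hDtop : D = ⊤ := by
      rw [eq_top_iff]
      intro r _
      rw [hmemD, ← hca]
      exact (mem_center_iff.1 hc' r)
    have hPc : Nat.card X = 2 := by
      rw [← hD2, hDtop]
      exact (Subgroup.card_top).symm
    refine ⟨⊥, inferInstance, ?_⟩
    rw [Subgroup.index_bot, hPc]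
  · have hD4 : Nat.card D = 4 := by rw [hm]; norm_num
    refine cyc_of_selfcent hP D hD4 ?_
    apply le_antisymm
    · intro r hr
      rw [hmemD]
      exact (mem_centralizer_iff.1 hr c hcD).symm
    · have hcD2 : IsMulCommutative D :=
        IsPGroup.isMulCommutative_of_card_eq_prime_sq (p := 2) (G := D) (by rw [hD4]; norm_num)
      intro r hr
      rw [mem_centralizer_iff]
      intro s hs
      have := hcD2.is_comm.comm (⟨s, hs⟩ : D) ⟨r, hr⟩
      exact congrArg Subtype.val this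

end Cfsg.Agent.Lib.SelfCentE8.R3Basic
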