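import Cfsg.Agent.Lib.SelfCentE8.R3Types

/-!
# Normal `E₈`: the branch `|A : C_A(E)| = 2`
-/

set_option autoImplicit false

namespace Cfsg.Agent.Lib.SelfCentE8.R3T1

open Subgroup
open Cfsg.Agent.Lib.SelfCentE8.Tools49
open Cfsg.Agent.Lib.SelfCentE8.R4
open Cfsg.Agent.Lib.SelfCentE8.R3Basic
open Cfsg.Agent.Lib.SelfCentE8.R3Types
open Cfsg.Agent.Lib.TwoFusion.SecRank

variable {S : Type*} [Group S] {A E : Subgroup S}

/-- Common data of the branch. -/
structure Data (A E : Subgroup S) (a e₁ z₀ : S) : Prop where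
  ha : a ∈ A
  haE : a ∉ E
  hai : a⁻¹ = a
  hfix : fix E a = A ⊓ E
  he₁ : e₁ ∈ E
  he₁Z : e₁ ∉ A ⊓ E
  hz₀ : z₀ = e₁ * (a * e₁ * a⁻¹)
  hz₀1 : z₀ ≠ 1
  hz₀Z : z₀ ∈ A ⊓ E
  hz₀z₀ : z₀ * z₀ = 1
  himg : ∀ e ∈ E, e * (a * e * a⁻¹) = 1 ∨ e * (a * e * a⁻¹) = z₀
  hidx : ((zpowers z₀).subgroupOf (A ⊓ E)).index = 2
  hidxE : ((A ⊓ E).subgroupOf E).index = 2

theorem exists_data [hn : E.Normal] [Finite S] (h : Hyp3 A E) (t : T1 A E) :
    ∃ a e₁ z₀, Data A E a e₁ z₀ := by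
  obtain ⟨a, ha, haE⟩ : ∃ a ∈ A, a ∉ E := by
    by_contra hc
    push Not at hc
    have h1 : A ⊓ E = A := inf_eq_left.2 hc
    have h2 := t.card4
    rw [h1, h.hA8] at h2
    omega
  have hai : a⁻¹ = a := inv_eq_of_mul_eq_one_left (h.hA2 a ha)
  have hfix := t.fixEq a ha haE
  have hZE : A ⊓ E ≤ E := inf_le_right
  obtain ⟨e₁, he₁, he₁Z⟩ : ∃ e ∈ E, e ∉ A ⊓ E := by
    by_contra hc
    push Not at hc
    have h1 := Subgroup.card_le_of_le (show E ≤ A ⊓ E from hc)
    rw [h.hE8, t.card4] at h1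
    omega
  have hidxE : ((A ⊓ E).subgroupOf E).index = 2 := by
    have h1 := ((A ⊓ E).subgroupOf E).card_mul_index
    have h2 : Nat.card ((A ⊓ E).subgroupOf E) = 4 := by
      rw [← t.card4]
      exact Nat.card_congr (Subgroup.subgroupOfEquivOfLe hZE).toEquiv
    rw [h2, h.hE8] at h1
    omega
  have hfixmem : ∀ e, e ∈ A ⊓ E ↔ e ∈ E ∧ a * e = e * a := by
    intro e
    rw [← hfix, mem_fix]
  have hconj : ∀ ζ ∈ A ⊓ E, a * ζ * a⁻¹ = ζ := by
    intro ζ hζ
    rw [((hfixmem ζ).1 hζ).2]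
    group
  let z₀ := e₁ * (a * e₁ * a⁻¹)
  have hae₁ : a * e₁ * a⁻¹ ∈ E := conj_mem a he₁
  have hz₀E : z₀ ∈ E := E.mul_mem he₁ hae₁
  have hz₀1 : z₀ ≠ 1 := by
    intro h0
    apply he₁Z
    rw [hfixmem]
    refine ⟨he₁, ?_⟩
    have h1 : a * e₁ * a⁻¹ = e₁ := by
      have h2 := eq_inv_of_mul_eq_one_right h0
      rw [h2, inv_eq_self h.hE2 he₁]
    calc a * e₁ = a * e₁ * a⁻¹ * a := by group
      _ = _ := by rw [h1]
  have hz₀Z : z₀ ∈ A ⊓ E := by
    rw [hfixmem]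
    refine ⟨hz₀E, ?_⟩
    have h1 : a * z₀ * a⁻¹ = z₀ := by
      change a * (e₁ * (a * e₁ * a⁻¹)) * a⁻¹ = e₁ * (a * e₁ * a⁻¹)
      have h2 : a * (a * e₁ * a⁻¹) * a⁻¹ = e₁ := by
        rw [hai]
        calc a * (a * e₁ * a) * a = (a * a) * e₁ * (a * a) := by group
          _ = e₁ := by rw [h.hA2 a ha]; group
      calc a * (e₁ * (a * e₁ * a⁻¹)) * a⁻¹
          = (a * e₁ * a⁻¹) * (a * (a * e₁ * a⁻¹) * a⁻¹) := by group
        _ = (a * e₁ * a⁻¹) * e₁ := by rw [h2]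
        _ = _ := (cE h he₁ hae₁).symm
    calc a * z₀ = a * z₀ * a⁻¹ * a := by group
      _ = _ := by rw [h1]
  have hz₀z₀ : z₀ * z₀ = 1 := h.hE2 _ hz₀E
  have himg : ∀ e ∈ E, e * (a * e * a⁻¹) = 1 ∨ e * (a * e * a⁻¹) = z₀ := by
    intro e he
    by_cases heZ : e ∈ A ⊓ E
    · left
      rw [hconj e heZ]
      exact h.hE2 e he
    · right
      -- `e * e₁ ∈ Z`
      have h1 := (Subgroup.mul_mem_iff_of_index_two hidxE (a := ⟨e, he⟩) (b := ⟨e₁, he₁⟩)).2 (by
        rw [Subgroup.mem_subgroupOf, Subgroup.mem_subgroupOf]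
        exact iff_of_false heZ he₁Z)
      rw [Subgroup.mem_subgroupOf] at h1
      have h2 : e * e₁ ∈ A ⊓ E := h1
      set ζ := e * e₁ with hζ
      have h3 : e = ζ * e₁ := by
        rw [hζ, mul_assoc, h.hE2 e₁ he₁, mul_one]
      have hζE : ζ ∈ E := h2.2
      have h4 : a * e * a⁻¹ = ζ * (a * e₁ * a⁻¹) := by
        rw [h3]
        calc a * (ζ * e₁) * a⁻¹ = (a * ζ * a⁻¹) * (a * e₁ * a⁻¹) := by group
          _ = _ := by rw [hconj ζ h2]
      rw [h4, h3]
      change ζ * e₁ * (ζ * (a * e₁ * a⁻¹)) = e₁ * (a * e₁ * a⁻¹)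
      calc ζ * e₁ * (ζ * (a * e₁ * a⁻¹)) = ζ * (e₁ * ζ) * (a * e₁ * a⁻¹) := by group
        _ = ζ * (ζ * e₁) * (a * e₁ * a⁻¹) := by rw [cE h he₁ hζE]
        _ = (ζ * ζ) * e₁ * (a * e₁ * a⁻¹) := by group
        _ = _ := by rw [h.hE2 ζ hζE, one_mul]
  have hidx : ((zpowers z₀).subgroupOf (A ⊓ E)).index = 2 := by
    have h1 := ((zpowers z₀).subgroupOf (A ⊓ E)).card_mul_index
    have hle : zpowers z₀ ≤ A ⊓ E := by
      rw [zpowers_le]
      exact hz₀Z
    have h2 : Nat.card ((zpowers z₀).subgroupOf (A ⊓ E)) = 2 := by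
      rw [← card_zpowers_of_sq hz₀z₀ hz₀1]
      exact Nat.card_congr (Subgroup.subgroupOfEquivOfLe hle).toEquiv
    rw [h2, t.card4] at h1
    omega
  exact ⟨a, e₁, z₀, ha, haE, hai, hfix, he₁, he₁Z, rfl, hz₀1, hz₀Z, hz₀z₀, himg, hidx, hidxE⟩

section
variable [hn : E.Normal] [Finite S] (h : Hyp3 A E) (t : T1 A E) {a e₁ z₀ : S}
  (d : Data A E a e₁ z₀)
include h t d

lemma ofAcomm {y : S} (hya : y * a = a * y) (hyZ : ∀ ζ ∈ A ⊓ E, y * ζ = ζ * y) : y ∈ A := by
  let T : Subgroup S := A ⊓ centralizer ({y} : Set S)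
  have hT : T = A := by
    refine t.gen a d.ha d.haE T inf_le_left ?_ ⟨d.ha, ?_⟩
    · intro z hzz
      exact ⟨hzz.1, mem_centralizer_singleton_iff.2 (hyZ z hzz).symm⟩
    · exact mem_centralizer_singleton_iff.2 hya.symm
  refine h.hC y (fun x hx => ?_)
  have : x ∈ T := by rw [hT]; exact hx
  exact (mem_centralizer_singleton_iff.1 this.2).symm

lemma killW {y : S} (hy : y * a * y⁻¹ * a⁻¹ ∈ zpowers z₀) :
    ∃ g ∈ E, (g * y) * a = a * (g * y) := by
  rcases (mem_zpowers_of_sq d.hz₀z₀).1 hy with h1 | h1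
  · refine ⟨1, E.one_mem, ?_⟩
    rw [one_mul]
    calc y * a = (y * a * y⁻¹ * a⁻¹) * a * y := by group
      _ = _ := by rw [h1, one_mul]
  · refine ⟨e₁, d.he₁, ?_⟩
    refine kill h.hE2 d.he₁ (e := z₀) ?_ d.hz₀
    rw [← h1]
    group

/-- A commutator with `a` that lies in `E` lies in `A ⊓ E`. -/
lemma G_mem {y : S} (hy : y * a * y⁻¹ * a⁻¹ ∈ E) : y * a * y⁻¹ * a⁻¹ ∈ A ⊓ E := by
  rw [← d.hfix]
  exact comm_mem_fix3 h d.ha hy

/-- Elements centralizing `a` modulo `E` centralize `A` modulo `E`. -/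
lemma comm_mod {x : S} (hx : x * a * x⁻¹ * a⁻¹ ∈ E) :
    ∀ x' ∈ A, x * x' * x⁻¹ * x'⁻¹ ∈ E := by
  let π := QuotientGroup.mk' E
  have h2 : π x * π a = π a * π x := by
    have h3 : π (x * a * x⁻¹ * a⁻¹) = 1 := (QuotientGroup.eq_one_iff _).2 hx
    simp only [map_mul, map_inv] at h3
    calc π x * π a = (π x * π a * (π x)⁻¹ * (π a)⁻¹) * π a * π x := by group
      _ = _ := by rw [h3, one_mul]
  let T : Subgroup S := A ⊓ (centralizer ({π x} : Set (S ⧸ E))).comap π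
  have hT : T = A := by
    refine t.gen a d.ha d.haE T inf_le_left ?_ ⟨d.ha, ?_⟩
    · intro z hz
      refine ⟨hz.1, ?_⟩
      change π z ∈ centralizer ({π x} : Set (S ⧸ E))
      rw [show π z = 1 from (QuotientGroup.eq_one_iff z).2 hz.2]
      exact Subgroup.one_mem _
    · change π a ∈ centralizer ({π x} : Set (S ⧸ E))
      rw [mem_centralizer_singleton_iff]
      exact h2.symm
  intro x' hx'
  have hx'T : x' ∈ T := by rw [hT]; exact hx'
  have h3 : π x' * π x = π x * π x' := mem_centralizer_singleton_iff.1 hx'T.2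
  rw [← QuotientGroup.eq_one_iff]
  change π (x * x' * x⁻¹ * x'⁻¹) = 1
  simp only [map_mul, map_inv]
  rw [← h3]
  group

/-- Case N: the quotient has a cyclic subgroup of index two. -/
theorem cyc_caseN (hS : IsPGroup 2 S)
    (hNo : ∀ x, x * a * x⁻¹ * a⁻¹ ∈ E → ∀ ζ ∈ A ⊓ E, x * ζ = ζ * x) :
    ∃ C : Subgroup (S ⧸ E), IsCyclic C ∧ C.index = 2 := by
  classical
  let π := QuotientGroup.mk' E
  have hP : IsPGroup 2 (S ⧸ E) := hS.to_quotient E
  let Abar : Subgroup (S ⧸ E) := A.map π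
  have hcard : Nat.card Abar = 2 := by
    have h1 := card_eq_inf_mul_map (E := E) A
    rw [h.hA8, t.card4] at h1
    change 8 = 4 * Nat.card Abar at h1
    omega
  have hπa : π a ≠ 1 := fun h0 => d.haE ((QuotientGroup.eq_one_iff a).1 h0)
  let D : Subgroup (S ⧸ E) := centralizer ({π a} : Set (S ⧸ E))
  have hmemD : ∀ r, r ∈ D ↔ r * π a = π a * r := fun r => mem_centralizer_singleton_iff
  have hAD : Abar ≤ D := by
    rintro _ ⟨b, hb, rfl⟩
    rw [hmemD, ← map_mul, ← map_mul, cA h hb d.ha]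
  have hG : ∀ x : S, π x ∈ D → x * a * x⁻¹ * a⁻¹ ∈ E := by
    intro x hx
    rw [← QuotientGroup.eq_one_iff]
    change π (x * a * x⁻¹ * a⁻¹) = 1
    simp only [map_mul, map_inv]
    rw [(hmemD _).1 hx]
    group
  have houtmk : ∀ r : S ⧸ E, π r.out = r := fun r => QuotientGroup.out_eq' r
  let f : S ⧸ E → Prop := fun r => r.out * a * r.out⁻¹ * a⁻¹ ∈ zpowers z₀
  have hrel : Abar.relIndex D ≤ Nat.card Prop := by
    refine relIndex_le_of_fun Abar D f ?_
    intro r hr r' hr' hf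
    have hx : π r.out ∈ D := by rw [houtmk]; exact hr
    have hx' : π r'.out ∈ D := by rw [houtmk]; exact hr'
    have hf' : r.out * a * r.out⁻¹ * a⁻¹ ∈ zpowers z₀ ↔ r'.out * a * r'.out⁻¹ * a⁻¹ ∈ zpowers z₀ :=
      iff_of_eq hf
    set x := r.out with hxdef
    set x' := r'.out with hx'def
    let w := x⁻¹ * x'
    have hπw : π w = r⁻¹ * r' := by
      change π (x⁻¹ * x') = _
      rw [map_mul, map_inv, houtmk, houtmk]
    have hGx := G_mem h t d (hG x hx)
    have hGx' := G_mem h t d (hG x' hx')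
    set c := x * a * x⁻¹ * a⁻¹ with hc
    set c' := x' * a * x'⁻¹ * a⁻¹ with hc'
    have hxZ := hNo x (hG x hx)
    have hxiZ : ∀ ζ ∈ A ⊓ E, x⁻¹ * ζ * x = ζ := by
      intro ζ hζ
      calc x⁻¹ * ζ * x = x⁻¹ * (ζ * x) := by group
        _ = x⁻¹ * (x * ζ) := by rw [hxZ ζ hζ]
        _ = ζ := by group
    -- the commutator of `w`
    have h1 : x * a * x⁻¹ = c * a := by rw [hc]; group
    have h2 : x' * a * x'⁻¹ = c' * a := by rw [hc']; group
    have h3 : x⁻¹ * a * x = c * a := by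
      have h4 : a = (x⁻¹ * c * x) * (x⁻¹ * a * x) := by
        calc a = x⁻¹ * (x * a * x⁻¹) * x := by group
          _ = x⁻¹ * (c * a) * x := by rw [h1]
          _ = _ := by group
      rw [hxiZ c hGx] at h4
      have hcc : c * c = 1 := h.hE2 c hGx.2
      calc x⁻¹ * a * x = (c * c) * (x⁻¹ * a * x) := by rw [hcc, one_mul]
        _ = c * (c * (x⁻¹ * a * x)) := by group
        _ = _ := by rw [← h4]
    have hGw : w * a * w⁻¹ * a⁻¹ = c' * c := by
      calc w * a * w⁻¹ * a⁻¹ = x⁻¹ * (x' * a * x'⁻¹) * x * a⁻¹ := by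
            change x⁻¹ * x' * a * (x⁻¹ * x')⁻¹ * a⁻¹ = _
            group
        _ = x⁻¹ * (c' * a) * x * a⁻¹ := by rw [h2]
        _ = (x⁻¹ * c' * x) * (x⁻¹ * a * x) * a⁻¹ := by group
        _ = c' * (c * a) * a⁻¹ := by rw [hxiZ c' hGx', h3]
        _ = _ := by group
    have hGwW : w * a * w⁻¹ * a⁻¹ ∈ zpowers z₀ := by
      rw [hGw]
      have h5 := (Subgroup.mul_mem_iff_of_index_two d.hidx (a := ⟨c', hGx'⟩) (b := ⟨c, hGx⟩)).2 (by
        rw [Subgroup.mem_subgroupOf, Subgroup.mem_subgroupOf]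
        exact hf'.symm)
      rw [Subgroup.mem_subgroupOf] at h5
      exact h5
    obtain ⟨g, hg, hgw⟩ := killW h t d hGwW
    have hwZ : ∀ ζ ∈ A ⊓ E, w * ζ = ζ * w := by
      intro ζ hζ
      have h6 := hNo x' (hG x' hx') ζ hζ
      have h7 := hxiZ ζ hζ
      change x⁻¹ * x' * ζ = ζ * (x⁻¹ * x')
      calc x⁻¹ * x' * ζ = x⁻¹ * (x' * ζ) := by group
        _ = x⁻¹ * (ζ * x') := by rw [h6]
        _ = (x⁻¹ * ζ * x) * (x⁻¹ * x') := by group
        _ = _ := by rw [h7]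
    have hgwZ : ∀ ζ ∈ A ⊓ E, (g * w) * ζ = ζ * (g * w) := by
      intro ζ hζ
      calc g * w * ζ = g * (w * ζ) := by group
        _ = g * (ζ * w) := by rw [hwZ ζ hζ]
        _ = (g * ζ) * w := by group
        _ = (ζ * g) * w := by rw [cE h hg hζ.2]
        _ = _ := by group
    have hA' := ofAcomm h t d hgw hgwZ
    refine ⟨g * w, hA', ?_⟩
    change π (g * w) = r⁻¹ * r'
    rw [map_mul, show π g = 1 from (QuotientGroup.eq_one_iff g).2 hg, one_mul, hπw]
  rw [Nat.card_eq_fintype_card (α := Prop), Fintype.card_prop] at hrel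
  refine cyc_of_centralizer_le hP hπa ?_
  change Nat.card D ≤ 4
  rw [card_eq_relIndex_mul hAD, hcard]
  omega

/-- Case X and the whole branch. -/
theorem branch1 (hS : IsPGroup 2 S) {y₀ u : S} (hy : Y0 E y₀ u) : SecBd 4 S := by
  classical
  haveI : Fact (Nat.Prime 2) := ⟨Nat.prime_two⟩
  have hai := d.hai
  have haa : a * a = 1 := h.hA2 a d.ha
  -- the commutator of `y₀`
  have hinvmem : ∀ y, a * y * a⁻¹ * y⁻¹ ∈ E → y * a * y⁻¹ * a⁻¹ ∈ E := by
    intro y hy'
    have h1 := E.inv_mem hy'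
    have h2 : (a * y * a⁻¹ * y⁻¹)⁻¹ = y * a * y⁻¹ * a⁻¹ := by group
    rwa [h2] at h1
  set e₀ := y₀ * a * y₀⁻¹ * a⁻¹ with he₀
  have he₀E : e₀ ∈ E := hinvmem y₀ (hy.conj a)
  have he₀Z : e₀ ∈ A ⊓ E := G_mem h t d he₀E
  have he₀W : e₀ ∉ zpowers z₀ := by
    intro hW
    obtain ⟨g, hg, hga⟩ := killW h t d hW
    have hZ : ∀ ζ ∈ A ⊓ E, (g * y₀) * ζ = ζ * (g * y₀) := by
      intro ζ hζ
      calc g * y₀ * ζ = g * (y₀ * ζ) := by group
        _ = g * (ζ * y₀) := by rw [hy.comm ζ hζ.2]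
        _ = (g * ζ) * y₀ := by group
        _ = (ζ * g) * y₀ := by rw [cE h hg hζ.2]
        _ = _ := by group
    have hA' := ofAcomm h t d hga hZ
    have h1 := h.hA2 _ hA'
    have h2 : (g * y₀) * (g * y₀) = u := by
      calc g * y₀ * (g * y₀) = g * (y₀ * g) * y₀ := by group
        _ = g * (g * y₀) * y₀ := by rw [hy.comm g hg]
        _ = (g * g) * (y₀ * y₀) := by group
        _ = u := by rw [h.hE2 g hg, one_mul, hy.sq]
    exact hy.u1 (h2.symm.trans h1)
  by_cases hX : ∀ x, x * a * x⁻¹ * a⁻¹ ∈ E → ∀ ζ ∈ A ⊓ E, x * ζ = ζ * x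
  · exact bound_cyc hS h.hE2 h.hE8 h.hN (cyc_caseN h t d hS hX)
  -- Case X
  push Not at hX
  obtain ⟨x₂, hx₂, ζ₂, hζ₂, hζ₂c⟩ := hX
  have hz₀E : z₀ ∈ E := d.hz₀Z.2
  have hz₀x₂ : x₂ * z₀ * x₂⁻¹ = z₀ := by
    set e := x₂ * a * x₂⁻¹ * a⁻¹ with he
    have hea : x₂ * a * x₂⁻¹ = e * a := by rw [he]; group
    set e₂ := x₂ * e₁ * x₂⁻¹ with he₂
    have he₂E : e₂ ∈ E := conj_mem x₂ d.he₁
    have h1 : x₂ * (a * e₁ * a⁻¹) * x₂⁻¹ = a * e₂ * a⁻¹ := by
      calc x₂ * (a * e₁ * a⁻¹) * x₂⁻¹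
          = (x₂ * a * x₂⁻¹) * e₂ * (x₂ * a * x₂⁻¹)⁻¹ := by rw [he₂]; group
        _ = (e * a) * e₂ * (e * a)⁻¹ := by rw [hea]
        _ = e * (a * e₂ * a⁻¹) * e⁻¹ := by group
        _ = (a * e₂ * a⁻¹) * e * e⁻¹ := by rw [cE h hx₂ (conj_mem a he₂E)]
        _ = _ := by group
    have h2 : x₂ * z₀ * x₂⁻¹ = e₂ * (a * e₂ * a⁻¹) := by
      rw [d.hz₀]
      calc x₂ * (e₁ * (a * e₁ * a⁻¹)) * x₂⁻¹
          = (x₂ * e₁ * x₂⁻¹) * (x₂ * (a * e₁ * a⁻¹) * x₂⁻¹) := by group
        _ = _ := by rw [h1]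
    rcases d.himg e₂ he₂E with h3 | h3
    · exfalso
      apply d.hz₀1
      have h4 : x₂ * z₀ * x₂⁻¹ = 1 := h2.trans h3
      calc z₀ = x₂⁻¹ * (x₂ * z₀ * x₂⁻¹) * x₂ := by group
        _ = 1 := by rw [h4]; group
    · exact h2.trans h3
  -- `u = z₀`
  have huZ : u ∈ A ⊓ E := mem_inf3 h hy.uE (fun a _ => (hy.central a).symm)
  have hu : u = z₀ := by
    by_contra hne
    apply hζ₂c
    let T : Subgroup S := (A ⊓ E) ⊓ centralizer ({x₂} : Set S)
    have hTle : T ≤ A ⊓ E := inf_le_left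
    have huT : u ∈ T := ⟨huZ, mem_centralizer_singleton_iff.2 (hy.central x₂).symm⟩
    have hz₀T : z₀ ∈ T := ⟨d.hz₀Z, mem_centralizer_singleton_iff.2 (by
      calc z₀ * x₂ = (x₂ * z₀ * x₂⁻¹) * x₂ := by rw [hz₀x₂]
        _ = x₂ * z₀ := by group)⟩
    have h5 := two_lt_card huT hz₀T hy.u1 d.hz₀1 (fun h0 => hne h0.symm)
    have h6 : Nat.card T ∣ 4 := by
      rw [← t.card4]
      exact Subgroup.card_dvd_of_le hTle
    have h7 : Nat.card T ≤ 4 := Nat.le_of_dvd (by norm_num) h6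
    have h8 : Nat.card T = 4 := by
      have : Nat.card T ≠ 3 := by
        intro h9
        rw [h9] at h6
        revert h6
        decide
      omega
    have hTeq : T = A ⊓ E := Subgroup.eq_of_le_of_card_ge hTle (by rw [h8, t.card4])
    have hzT : ζ₂ ∈ T := by rw [hTeq]; exact hζ₂
    exact (mem_centralizer_singleton_iff.1 hzT.2).symm
  have hsq : y₀ * y₀ = z₀ := hy.sq.trans hu
  have hz₀c : ∀ g, g * z₀ = z₀ * g := by
    intro g
    rw [← hu]
    exact hy.central g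
  -- relation of `a` with `y₀`
  have hay₀ : a * y₀ * a⁻¹ = e₀ * y₀ := by
    have h1 : a * y₀ * a⁻¹ * y₀⁻¹ = e₀⁻¹ := by rw [he₀]; group
    rw [inv_eq_self h.hE2 he₀E] at h1
    calc a * y₀ * a⁻¹ = (a * y₀ * a⁻¹ * y₀⁻¹) * y₀ := by group
      _ = _ := by rw [h1]
  have he₀e₀ : e₀ * e₀ = 1 := h.hE2 e₀ he₀E
  -- `C_S(E) = B`
  have hBn := normal_B hy
  set B := E ⊔ zpowers y₀ with hB
  have hEB : E ≤ B := le_sup_left
  have hy₀B : y₀ ∈ B := (le_sup_right : zpowers y₀ ≤ B) (mem_zpowers y₀)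
  have hy₀i : y₀⁻¹ * a * y₀ = e₀ * a := by
    have h1 : a = e₀ * (y₀⁻¹ * a * y₀) := by
      calc a = y₀⁻¹ * (y₀ * a * y₀⁻¹) * y₀ := by group
        _ = y₀⁻¹ * (e₀ * a) * y₀ := by rw [show y₀ * a * y₀⁻¹ = e₀ * a by rw [he₀]; group]
        _ = (y₀⁻¹ * e₀ * y₀) * (y₀⁻¹ * a * y₀) := by group
        _ = _ := by
          have h2 : y₀⁻¹ * e₀ * y₀ = e₀ := by
            calc y₀⁻¹ * e₀ * y₀ = y₀⁻¹ * (e₀ * y₀) := by group
              _ = y₀⁻¹ * (y₀ * e₀) := by rw [hy.comm e₀ he₀E]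
              _ = e₀ := by group
          rw [h2]
    calc y₀⁻¹ * a * y₀ = (e₀ * e₀) * (y₀⁻¹ * a * y₀) := by rw [he₀e₀, one_mul]
      _ = e₀ * (e₀ * (y₀⁻¹ * a * y₀)) := by group
      _ = _ := by rw [← h1]
  have hBC : ∀ y, (∀ e ∈ E, y * e = e * y) → y ∈ B := by
    by_contra hcon
    push Not at hcon
    obtain ⟨y, hyc, hyB⟩ := hcon
    let Cn : Subgroup S := centralizer (E : Set S)
    have hlt : B < Cn := by
      refine lt_of_le_of_ne ?_ ?_
      · intro b hb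
        rw [mem_centE]
        intro e he
        exact comm_B h hy hb (hEB he)
      · intro h0
        apply hyB
        rw [h0, mem_centE]
        exact hyc
    haveI hCn : Cn.Normal := Subgroup.normal_centralizer (H := E)
    haveI := hBn
    obtain ⟨y₁, hy₁C, hy₁B, hy₁c⟩ :=
      Cfsg.Agent.Lib.Involutions2.NormalFour.exists_mem_comm_mem hS B Cn hlt
    have hy₁E : ∀ e ∈ E, y₁ * e = e * y₁ := mem_centE.1 hy₁C
    set w := a * y₁ * a⁻¹ * y₁⁻¹ with hw
    have hwB : w ∈ B := hy₁c a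
    by_cases hwE : w ∈ E
    · -- `y₁` centralizes `a` modulo `E`
      have hG : y₁ * a * y₁⁻¹ * a⁻¹ ∈ E := hinvmem y₁ hwE
      have hGZ := G_mem h t d hG
      -- from a commutator in `W₀` to `E`
      have hto : ∀ y', (∀ e ∈ E, y' * e = e * y') → y' * a * y'⁻¹ * a⁻¹ ∈ zpowers z₀ → y' ∈ E := by
        intro y' hy'E hy'W
        obtain ⟨g, hg, hga⟩ := killW h t d hy'W
        have hgE : ∀ e ∈ E, (g * y') * e = e * (g * y') := by
          intro e he
          calc g * y' * e = g * (y' * e) := by group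
            _ = g * (e * y') := by rw [hy'E e he]
            _ = (g * e) * y' := by group
            _ = (e * g) * y' := by rw [cE h hg he]
            _ = _ := by group
        have hA' := ofAcomm h t d hga (fun ζ hζ => hgE ζ hζ.2)
        have hgyE := t.central _ hA' hgE
        have : y' = g⁻¹ * (g * y') := by group
        rw [this]
        exact E.mul_mem (E.inv_mem hg) hgyE
      by_cases hGW : y₁ * a * y₁⁻¹ * a⁻¹ ∈ zpowers z₀
      · exact hy₁B (hEB (hto y₁ hy₁E hGW))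
      · -- subtract `y₀`
        have h5 := (Subgroup.mul_mem_iff_of_index_two d.hidx (a := ⟨e₀, he₀Z⟩)
          (b := ⟨_, hGZ⟩)).2 (by
            rw [Subgroup.mem_subgroupOf, Subgroup.mem_subgroupOf]
            exact iff_of_false he₀W hGW)
        rw [Subgroup.mem_subgroupOf] at h5
        have h6 : e₀ * (y₁ * a * y₁⁻¹ * a⁻¹) ∈ zpowers z₀ := h5
        have h7 : (y₁ * y₀⁻¹) * a * (y₁ * y₀⁻¹)⁻¹ * a⁻¹ = e₀ * (y₁ * a * y₁⁻¹ * a⁻¹) := by
          calc (y₁ * y₀⁻¹) * a * (y₁ * y₀⁻¹)⁻¹ * a⁻¹ = y₁ * (y₀⁻¹ * a * y₀) * y₁⁻¹ * a⁻¹ := by group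
            _ = y₁ * (e₀ * a) * y₁⁻¹ * a⁻¹ := by rw [hy₀i]
            _ = (y₁ * e₀) * a * y₁⁻¹ * a⁻¹ := by group
            _ = (e₀ * y₁) * a * y₁⁻¹ * a⁻¹ := by rw [hy₁E e₀ he₀E]
            _ = _ := by group
        have h8 : ∀ e ∈ E, (y₁ * y₀⁻¹) * e = e * (y₁ * y₀⁻¹) := by
          intro e he
          have h9 : y₀⁻¹ * e = e * y₀⁻¹ := by
            calc y₀⁻¹ * e = y₀⁻¹ * (e * y₀) * y₀⁻¹ := by group
              _ = y₀⁻¹ * (y₀ * e) * y₀⁻¹ := by rw [hy.comm e he]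
              _ = _ := by group
          calc y₁ * y₀⁻¹ * e = y₁ * (y₀⁻¹ * e) := by group
            _ = y₁ * (e * y₀⁻¹) := by rw [h9]
            _ = (y₁ * e) * y₀⁻¹ := by group
            _ = (e * y₁) * y₀⁻¹ := by rw [hy₁E e he]
            _ = _ := by group
        have h10 := hto _ h8 (by rw [h7]; exact h6)
        apply hy₁B
        have : y₁ = (y₁ * y₀⁻¹) * y₀ := by group
        rw [this]
        exact B.mul_mem (hEB h10) hy₀B
    · -- the `a² = 1` computation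
      rcases mem_B h hy hwB with h1 | ⟨e₃, he₃, h1⟩
      · exact hwE h1
      have h2 : (a * w * a⁻¹) * w = 1 := by
        rw [hw, hai]
        calc a * (a * y₁ * a * y₁⁻¹) * a * (a * y₁ * a * y₁⁻¹)
            = (a * a) * y₁ * a * y₁⁻¹ * (a * a) * y₁ * a * y₁⁻¹ := by group
          _ = y₁ * a * y₁⁻¹ * y₁ * a * y₁⁻¹ := by rw [haa]; group
          _ = y₁ * (a * a) * y₁⁻¹ := by group
          _ = 1 := by rw [haa]; group
      have hae₃ : a * e₃ * a⁻¹ ∈ E := conj_mem a he₃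
      have h3 : a * w * a⁻¹ = e₀ * y₀ * (a * e₃ * a⁻¹) := by
        rw [h1]
        calc a * (y₀ * e₃) * a⁻¹ = (a * y₀ * a⁻¹) * (a * e₃ * a⁻¹) := by group
          _ = _ := by rw [hay₀]
      rw [h3, h1] at h2
      have h4 : e₀ * y₀ * (a * e₃ * a⁻¹) * (y₀ * e₃) = e₀ * z₀ * (e₃ * (a * e₃ * a⁻¹)) := by
        calc e₀ * y₀ * (a * e₃ * a⁻¹) * (y₀ * e₃)
            = e₀ * y₀ * ((a * e₃ * a⁻¹) * y₀) * e₃ := by group
          _ = e₀ * y₀ * (y₀ * (a * e₃ * a⁻¹)) * e₃ := by rw [hy.comm _ hae₃]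
          _ = e₀ * (y₀ * y₀) * ((a * e₃ * a⁻¹) * e₃) := by group
          _ = _ := by rw [hsq, cE h hae₃ he₃]
      rw [h4] at h2
      apply he₀W
      rw [mem_zpowers_of_sq d.hz₀z₀]
      rcases d.himg e₃ he₃ with h5 | h5
      · right
        rw [h5, mul_one] at h2
        have h6 := eq_inv_of_mul_eq_one_left h2
        rw [h6, inv_eq_self h.hE2 hz₀E]
      · left
        rw [h5, mul_assoc, d.hz₀z₀, mul_one] at h2
        exact h2
  -- the key
  have hKey : ∀ x, (∀ b ∈ B, x * b * x⁻¹ * b⁻¹ = 1 ∨ x * b * x⁻¹ * b⁻¹ = z₀) → x ∈ B := by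
    intro x hxb
    by_contra hxB
    have hWe₀ : e₀ = 1 ∨ e₀ = z₀ → False := fun h1 =>
      he₀W ((mem_zpowers_of_sq d.hz₀z₀).2 h1)
    have hxEact : ∀ e ∈ E, x * e * x⁻¹ = e ∨ x * e * x⁻¹ = z₀ * e := by
      intro e he
      rcases hxb e (hEB he) with h1 | h1
      · left
        calc x * e * x⁻¹ = (x * e * x⁻¹ * e⁻¹) * e := by group
          _ = e := by rw [h1, one_mul]
      · right
        calc x * e * x⁻¹ = (x * e * x⁻¹ * e⁻¹) * e := by group
          _ = _ := by rw [h1]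
    have haEact : ∀ e ∈ E, a * e * a⁻¹ = e ∨ a * e * a⁻¹ = z₀ * e := by
      intro e he
      rcases d.himg e he with h1 | h1
      · left
        have h2 := eq_inv_of_mul_eq_one_right h1
        rw [h2, inv_eq_self h.hE2 he]
      · right
        calc a * e * a⁻¹ = (e * e) * (a * e * a⁻¹) := by rw [h.hE2 e he, one_mul]
          _ = e * (e * (a * e * a⁻¹)) := by group
          _ = e * z₀ := by rw [h1]
          _ = _ := cE h he hz₀E
    have haz₀ : a * z₀ * a⁻¹ = z₀ := by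
      rw [hz₀c a]
      group
    have hxz₀ : x * z₀ * x⁻¹ = z₀ := by
      rw [hz₀c x]
      group
    by_cases hxa : ∀ e ∈ E, (x * a) * e = e * (x * a)
    · have hb' := hBC _ hxa
      have h1 : x = (x * a) * a := by
        rw [mul_assoc, haa, mul_one]
      have h2 : x * y₀ * x⁻¹ = e₀ * y₀ := by
        have h3 : e₀ * y₀ ∈ B := B.mul_mem (hEB he₀E) hy₀B
        calc x * y₀ * x⁻¹ = (x * a) * (a * y₀ * a⁻¹) * (x * a)⁻¹ := by
              nth_rw 1 [h1]
              nth_rw 2 [h1]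
              group
          _ = (x * a) * (e₀ * y₀) * (x * a)⁻¹ := by rw [hay₀]
          _ = (e₀ * y₀) * (x * a) * (x * a)⁻¹ := by rw [comm_B h hy hb' h3]
          _ = _ := by group
      have h3 : x * y₀ * x⁻¹ * y₀⁻¹ = e₀ := by
        rw [h2]
        group
      rcases hxb y₀ hy₀B with h4 | h4
      · exact hWe₀ (Or.inl (h3.symm.trans h4))
      · exact hWe₀ (Or.inr (h3.symm.trans h4))
    · apply hxa
      -- `x` and `a` commute on `E`
      have hcommE : ∀ e ∈ E, x * (a * e * a⁻¹) * x⁻¹ = a * (x * e * x⁻¹) * a⁻¹ := by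
        intro e he
        have hz₀e : ∀ f, x * (z₀ * f) * x⁻¹ = z₀ * (x * f * x⁻¹) := by
          intro f
          calc x * (z₀ * f) * x⁻¹ = (x * z₀ * x⁻¹) * (x * f * x⁻¹) := by group
            _ = _ := by rw [hxz₀]
        have hz₀a : ∀ f, a * (z₀ * f) * a⁻¹ = z₀ * (a * f * a⁻¹) := by
          intro f
          calc a * (z₀ * f) * a⁻¹ = (a * z₀ * a⁻¹) * (a * f * a⁻¹) := by group
            _ = _ := by rw [haz₀]
        rcases haEact e he with h1 | h1 <;> rcases hxEact e he with h2 | h2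
        · rw [h1, h2, h1]
        · rw [h1, h2, hz₀a, h1]
        · rw [h1, h2, hz₀e, h2, h1]
        · rw [h1, h2, hz₀e, hz₀a, h2, h1]
      let c' := x * a * x⁻¹ * a⁻¹
      have hc'C : ∀ e ∈ E, c' * e = e * c' := by
        intro e he
        set e' := (a * x)⁻¹ * e * (a * x) with he'
        have he'E : e' ∈ E := by
          have := conj_mem (a * x)⁻¹ he
          simpa [he'] using this
        have h1 : e = a * (x * e' * x⁻¹) * a⁻¹ := by
          rw [he']
          group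
        have h2 : c' * e * c'⁻¹ = e := by
          have h3 : c' * e * c'⁻¹ = x * (a * e' * a⁻¹) * x⁻¹ := by
            change x * a * x⁻¹ * a⁻¹ * e * (x * a * x⁻¹ * a⁻¹)⁻¹ = _
            rw [he']
            group
          rw [h3, hcommE e' he'E, ← h1]
        calc c' * e = c' * e * c'⁻¹ * c' := by group
          _ = _ := by rw [h2]
      have hc'B := hBC c' hc'C
      have hxaconj : x * a * x⁻¹ = c' * a := by
        change _ = x * a * x⁻¹ * a⁻¹ * a
        group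
      -- `x` fixes `e₀`
      have hε : ∃ ε, (ε = 1 ∨ ε = z₀) ∧ x * y₀ * x⁻¹ = ε * y₀ := by
        refine ⟨x * y₀ * x⁻¹ * y₀⁻¹, hxb y₀ hy₀B, by group⟩
      obtain ⟨ε, hεm, hxy₀⟩ := hε
      have hεE : ε ∈ E := by
        rcases hεm with rfl | rfl
        · exact E.one_mem
        · exact hz₀E
      have haε : a * ε * a⁻¹ = ε := by
        rcases hεm with rfl | rfl
        · group
        · exact haz₀
      have hxe₀ : x * e₀ * x⁻¹ = e₀ := by
        have hB1 : ε * (e₀ * y₀) ∈ B :=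
          B.mul_mem (hEB hεE) (B.mul_mem (hEB he₀E) hy₀B)
        have h1 : x * (a * y₀ * a⁻¹) * x⁻¹ = ε * (e₀ * y₀) := by
          calc x * (a * y₀ * a⁻¹) * x⁻¹
              = (x * a * x⁻¹) * (x * y₀ * x⁻¹) * (x * a * x⁻¹)⁻¹ := by group
            _ = (c' * a) * (ε * y₀) * (c' * a)⁻¹ := by rw [hxaconj, hxy₀]
            _ = c' * ((a * ε * a⁻¹) * (a * y₀ * a⁻¹)) * c'⁻¹ := by group
            _ = c' * (ε * (e₀ * y₀)) * c'⁻¹ := by rw [haε, hay₀]
            _ = (ε * (e₀ * y₀)) * c' * c'⁻¹ := by rw [comm_B h hy hc'B hB1]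
            _ = _ := by group
        have h2 : x * (a * y₀ * a⁻¹) * x⁻¹ = (x * e₀ * x⁻¹) * (ε * y₀) := by
          rw [hay₀]
          calc x * (e₀ * y₀) * x⁻¹ = (x * e₀ * x⁻¹) * (x * y₀ * x⁻¹) := by group
            _ = _ := by rw [hxy₀]
        rw [h2] at h1
        have hxe₀E : x * e₀ * x⁻¹ ∈ E := conj_mem x he₀E
        have h3 : (x * e₀ * x⁻¹) * ε = ε * e₀ := by
          have h4 : (x * e₀ * x⁻¹) * ε * y₀ = ε * e₀ * y₀ :=
            (mul_assoc _ _ _).trans (h1.trans (mul_assoc _ _ _).symm)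
          exact mul_right_cancel h4
        rw [cE h hxe₀E hεE] at h3
        exact mul_left_cancel h3
      -- `x` centralizes `A ⊓ E`
      have hxZ : ∀ ζ ∈ A ⊓ E, x * ζ = ζ * x := by
        let T : Subgroup S := (A ⊓ E) ⊓ centralizer ({x} : Set S)
        have hTle : T ≤ A ⊓ E := inf_le_left
        have hz₀T : z₀ ∈ T := ⟨d.hz₀Z, mem_centralizer_singleton_iff.2 (hz₀c x).symm⟩
        have he₀T : e₀ ∈ T := ⟨he₀Z, mem_centralizer_singleton_iff.2 (by
          calc e₀ * x = (x * e₀ * x⁻¹) * x := by rw [hxe₀]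
            _ = x * e₀ := by group)⟩
        have h5 := two_lt_card hz₀T he₀T d.hz₀1 (fun h0 => hWe₀ (Or.inl h0))
          (fun h0 => hWe₀ (Or.inr h0))
        have h6 : Nat.card T ∣ 4 := by
          rw [← t.card4]
          exact Subgroup.card_dvd_of_le hTle
        have h7 : Nat.card T ≤ 4 := Nat.le_of_dvd (by norm_num) h6
        have h8 : Nat.card T = 4 := by
          have : Nat.card T ≠ 3 := by
            intro h9
            rw [h9] at h6
            revert h6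
            decide
          omega
        have hTeq : T = A ⊓ E := Subgroup.eq_of_le_of_card_ge hTle (by rw [h8, t.card4])
        intro ζ hζ
        have hzT : ζ ∈ T := by rw [hTeq]; exact hζ
        exact (mem_centralizer_singleton_iff.1 hzT.2).symm
      -- `x` moves everything outside `A ⊓ E`
      have hxmove : ∀ e ∈ E, e ∉ A ⊓ E → x * e * x⁻¹ = z₀ * e := by
        intro e he heZ
        rcases hxEact e he with h1 | h1
        · exfalso
          apply hxB
          apply hBC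
          let T : Subgroup S := E ⊓ centralizer ({x} : Set S)
          have hTle : T ≤ E := inf_le_left
          have hZT : A ⊓ E ≤ T := fun ζ hζ =>
            ⟨hζ.2, mem_centralizer_singleton_iff.2 (hxZ ζ hζ).symm⟩
          have heT : e ∈ T := ⟨he, mem_centralizer_singleton_iff.2 (by
            calc e * x = (x * e * x⁻¹) * x := by rw [h1]
              _ = x * e := by group)⟩
          have hlt : A ⊓ E < T := lt_of_le_of_ne hZT (fun h0 => heZ (by rw [h0]; exact heT))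
          have h2 := card_lt_of_lt hlt
          rw [t.card4] at h2
          have h3 : Nat.card T ∣ 8 := by
            rw [← h.hE8]
            exact Subgroup.card_dvd_of_le hTle
          have h4 : Nat.card T ≤ 8 := Nat.le_of_dvd (by norm_num) h3
          have h5 : Nat.card T = 8 := by
            have h6 : Nat.card T ≠ 5 := by intro h; rw [h] at h3; revert h3; decide
            have h7 : Nat.card T ≠ 6 := by intro h; rw [h] at h3; revert h3; decide
            have h8 : Nat.card T ≠ 7 := by intro h; rw [h] at h3; revert h3; decide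
            omega
          have hTeq : T = E := Subgroup.eq_of_le_of_card_ge hTle (by rw [h5, h.hE8])
          intro f hf
          have hfT : f ∈ T := by rw [hTeq]; exact hf
          exact (mem_centralizer_singleton_iff.1 hfT.2).symm
        · exact h1
      have hamove : ∀ e ∈ E, e ∉ A ⊓ E → a * e * a⁻¹ = z₀ * e := by
        intro e he heZ
        rcases haEact e he with h1 | h1
        · exfalso
          apply heZ
          rw [← d.hfix, mem_fix]
          refine ⟨he, ?_⟩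
          calc a * e = a * e * a⁻¹ * a := by group
            _ = _ := by rw [h1]
        · exact h1
      intro e he
      by_cases heZ : e ∈ A ⊓ E
      · have h1 : a * e = e * a := ((mem_fix.1 (by rw [d.hfix]; exact heZ)).2)
        calc x * a * e = x * (a * e) := by group
          _ = x * (e * a) := by rw [h1]
          _ = (x * e) * a := by group
          _ = (e * x) * a := by rw [hxZ e heZ]
          _ = _ := by group
      · have h1 : x * (a * e * a⁻¹) * x⁻¹ = e := by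
          rw [hamove e he heZ]
          calc x * (z₀ * e) * x⁻¹ = (x * z₀ * x⁻¹) * (x * e * x⁻¹) := by group
            _ = z₀ * (z₀ * e) := by rw [hxz₀, hxmove e he heZ]
            _ = (z₀ * z₀) * e := by group
            _ = e := by rw [d.hz₀z₀, one_mul]
        calc x * a * e = (x * (a * e * a⁻¹) * x⁻¹) * (x * a) := by group
          _ = _ := by rw [h1]
  exact bound_B hS h.hE2 h.hE8 hy.notE hy.comm hsq hz₀E d.hz₀1 hy.conj hBC hKey

end

end Cfsg.Agent.Lib.SelfCentE8.R3T1
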