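import Cfsg.Agent.Lib.SelfCentE8.R3Basic

/-!
# Normal `E₈`: the action of the self-centralizing `E₈`
-/

set_option autoImplicit false

namespace Cfsg.Agent.Lib.SelfCentE8.R3Types

open Subgroup
open Cfsg.Agent.Lib.SelfCentE8.Tools49
open Cfsg.Agent.Lib.SelfCentE8.R4
open Cfsg.Agent.Lib.SelfCentE8.R3Basic
open Cfsg.Agent.Lib.TwoFusion.SecRank

variable {S : Type*} [Group S]

/-- The hypotheses. -/
structure Hyp3 (A E : Subgroup S) : Prop where
  hA2 : ∀ a ∈ A, a * a = 1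
  hA8 : Nat.card A = 8
  hC : ∀ x, (∀ a ∈ A, x * a = a * x) → x ∈ A
  hE2 : ∀ e ∈ E, e * e = 1
  hE8 : Nat.card E = 8
  hN : ∀ N : Subgroup S, N.Normal → (∀ x ∈ N, x * x = 1) → Nat.card N ≤ 8

variable {A E : Subgroup S}

lemma cE (h : Hyp3 A E) {e f : S} (he : e ∈ E) (hf : f ∈ E) : e * f = f * e :=
  comm_of_sq h.hE2 he hf

lemma cA (h : Hyp3 A E) {e f : S} (he : e ∈ A) (hf : f ∈ A) : e * f = f * e :=
  comm_of_sq h.hA2 he hf

lemma mem_inf3 (h : Hyp3 A E) {e : S} (he : e ∈ E)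
    (hc : ∀ a ∈ A, e * a = a * e) : e ∈ A ⊓ E := ⟨h.hC e hc, he⟩

lemma inf_ne_bot3 [Finite S] (hS : IsPGroup 2 S) [hn : E.Normal] (h : Hyp3 A E) :
    A ⊓ E ≠ ⊥ := by
  haveI : Fact (Nat.Prime 2) := ⟨Nat.prime_two⟩
  have hE1 : E ≠ ⊥ := by
    intro h0
    have := h.hE8
    rw [h0] at this
    simp at this
  have h2 := Cfsg.Agent.Lib.Involutions2.NormalFour.inf_center_ne_bot hS E hE1
  obtain ⟨⟨z, hz⟩, hz1⟩ := Subgroup.ne_bot_iff_exists_ne_one.1 h2
  have hz1' : z ≠ 1 := fun h => hz1 (Subtype.ext h)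
  intro h0
  have : z ∈ A ⊓ E := by
    refine ⟨h.hC z (fun a _ => (mem_center_iff.1 hz.2 a).symm), hz.1⟩
  rw [h0, mem_bot] at this
  exact hz1' this

theorem types3 [Finite S] (hS : IsPGroup 2 S) [hn : E.Normal] (h : Hyp3 A E) (hne : E ≠ A) :
    T1 A E ∨ T2 A E := by
  have hZ1 := inf_ne_bot3 hS h
  let Y : Subgroup S := A ⊓ centralizer (E : Set S)
  have hYmem : ∀ x, x ∈ Y ↔ x ∈ A ∧ ∀ e ∈ E, x * e = e * x := by
    intro x
    change x ∈ A ⊓ centralizer (E : Set S) ↔ _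
    rw [mem_inf, mem_centralizer_iff]
    constructor
    · rintro ⟨h1, h2⟩
      exact ⟨h1, fun e he => (h2 e he).symm⟩
    · rintro ⟨h1, h2⟩
      exact ⟨h1, fun e he => (h2 e he).symm⟩
  have hZY : A ⊓ E ≤ Y := fun z hz => (hYmem z).2 ⟨hz.1, fun e he => cE h hz.2 he⟩
  have hYA : Y ≤ A := inf_le_left
  have hYne : Y ≠ A := by
    intro hYA'
    have hEle : E ≤ A := by
      intro e he
      refine h.hC e (fun a ha => ?_)
      have : a ∈ Y := by rw [hYA']; exact ha
      exact ((hYmem a).1 this).2 e he |>.symm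
    exact hne (Subgroup.eq_of_le_of_card_ge hEle (by rw [h.hE8, h.hA8]))
  have hYcard : Nat.card Y ≤ 4 := by
    by_contra hc
    exact hYne (eq_of_card_gt hYA h.hA8 (by omega))
  have hZpos : 1 < Nat.card (A ⊓ E : Subgroup S) := by
    rw [Subgroup.one_lt_card_iff_ne_bot]
    exact hZ1
  have hZA : A ⊓ E ≤ A := inf_le_left
  have hZ8 : Nat.card (A ⊓ E : Subgroup S) ∣ 8 := by
    rw [← h.hA8]
    exact Subgroup.card_dvd_of_le hZA
  have hY8 : Nat.card Y ∣ 8 := by
    rw [← h.hA8]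
    exact Subgroup.card_dvd_of_le hYA
  have hYpos : 0 < Nat.card Y := Nat.card_pos
  have hYZ : Nat.card (A ⊓ E : Subgroup S) ≤ Nat.card Y := Subgroup.card_le_of_le hZY
  have hlow : ∀ x ∈ A, 4 ≤ Nat.card (fix E x) := by
    intro x hx
    have h1 := card_le_sq (W := E) (x := x) h.hE2 (fun w hw => conj_mem x hw) (h.hA2 x hx)
    rw [h.hE8] at h1
    have h3 : Nat.card (fix E x) ∣ 8 := by
      rw [← h.hE8]
      exact Subgroup.card_dvd_of_le fix_le
    by_contra hc
    have h2 : Nat.card (fix E x) ≤ 3 := by omega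
    have h4 : Nat.card (fix E x) ≠ 3 := by intro h5; rw [h5] at h3; revert h3; decide
    have h5 : Nat.card (fix E x) ≤ 2 := by omega
    have h6 : Nat.card (fix E x) ^ 2 ≤ 2 ^ 2 := Nat.pow_le_pow_left h5 2
    omega
  have hcases : Nat.card Y = 4 ∨ Nat.card Y ≤ 2 := by
    have : Nat.card Y ≠ 3 := by
      intro h3
      rw [h3] at hY8
      revert hY8
      decide
    omega
  rcases hcases with hY4 | hY2
  · left
    have hfixle : ∀ x ∈ A, x ∉ Y → fix E x ≤ A ⊓ E := by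
      intro x hx hxY e he
      rw [mem_fix] at he
      refine mem_inf3 h he.1 ?_
      let T : Subgroup S := A ⊓ centralizer ({e} : Set S)
      have hTA : T ≤ A := inf_le_left
      have hYT : Y ≤ T := by
        intro y hy
        refine ⟨((hYmem y).1 hy).1, ?_⟩
        exact mem_centralizer_singleton_iff.2 (((hYmem y).1 hy).2 e he.1)
      have hxT : x ∈ T := by
        refine ⟨hx, ?_⟩
        exact mem_centralizer_singleton_iff.2 (he.2)
      have hlt : Y < T := lt_of_le_of_ne hYT (fun h' => hxY (h' ▸ hxT))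
      have hTcard : 4 < Nat.card T := by
        rw [← hY4]
        exact card_lt_of_lt hlt
      have hTeq := eq_of_card_gt hTA h.hA8 hTcard
      intro a ha
      have : a ∈ T := by rw [hTeq]; exact ha
      exact (mem_centralizer_singleton_iff.1 this.2).symm
    obtain ⟨a₀, ha₀, ha₀Y⟩ : ∃ a ∈ A, a ∉ Y := by
      by_contra hc
      push Not at hc
      exact hYne (le_antisymm hYA hc)
    have hZ4 : Nat.card (A ⊓ E : Subgroup S) = 4 := by
      have h1 := Subgroup.card_le_of_le (hfixle a₀ ha₀ ha₀Y)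
      have h2 := hlow a₀ ha₀
      omega
    have hZYeq : A ⊓ E = Y := Subgroup.eq_of_le_of_card_ge hZY (by omega)
    have hnotY : ∀ x ∈ A, x ∉ E → x ∉ Y := by
      intro x hx hxE hxY
      rw [← hZYeq] at hxY
      exact hxE hxY.2
    refine ⟨hZ4, ?_, ?_, ?_⟩
    · intro x hx hxE
      refine Subgroup.eq_of_le_of_card_ge (hfixle x hx (hnotY x hx hxE)) ?_
      rw [hZ4]
      exact hlow x hx
    · intro x hx hxE T hTA hZT hxT
      have hlt : A ⊓ E < T := lt_of_le_of_ne hZT (fun h' => hxE (by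
        rw [← h'] at hxT
        exact hxT.2))
      have hTcard : 4 < Nat.card T := by
        rw [← hZ4]
        exact card_lt_of_lt hlt
      exact eq_of_card_gt hTA h.hA8 hTcard
    · intro x hx hc
      have : x ∈ Y := (hYmem x).2 ⟨hx, hc⟩
      rw [← hZYeq] at this
      exact this.2
  · right
    have hZ2 : Nat.card (A ⊓ E : Subgroup S) = 2 := by omega
    have hZYeq : A ⊓ E = Y := Subgroup.eq_of_le_of_card_ge hZY (by omega)
    have hcent : ∀ x ∈ A, (∀ e ∈ E, x * e = e * x) → x ∈ E := by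
      intro x hx hc
      have : x ∈ Y := (hYmem x).2 ⟨hx, hc⟩
      rw [← hZYeq] at this
      exact this.2
    have key : ∀ x ∈ A, x ∉ E → ∃ b ∈ A, b ∉ E ∧
        (∀ T : Subgroup S, T ≤ A → A ⊓ E ≤ T → x ∈ T → b ∈ T → T = A) ∧
        fix (fix E x) b = A ⊓ E := by
      intro x hx hxE
      have hlt0 : Nat.card (A ⊓ E : Subgroup S) < Nat.card (fix E x) := by
        have := hlow x hx
        omega
      obtain ⟨e₀, he₀, he₀Z⟩ : ∃ e ∈ fix E x, e ∉ A ⊓ E := by
        by_contra hc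
        push Not at hc
        have := Subgroup.card_le_of_le (show fix E x ≤ A ⊓ E from hc)
        omega
      rw [mem_fix] at he₀
      let T₀ : Subgroup S := A ⊓ centralizer ({e₀} : Set S)
      have hT₀A : T₀ ≤ A := inf_le_left
      have hT₀ne : T₀ ≠ A := by
        intro h'
        apply he₀Z
        refine mem_inf3 h he₀.1 (fun a ha => ?_)
        have : a ∈ T₀ := by rw [h']; exact ha
        exact (mem_centralizer_singleton_iff.1 this.2).symm
      have hT₀card : Nat.card T₀ ≤ 4 := by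
        by_contra hc
        exact hT₀ne (eq_of_card_gt hT₀A h.hA8 (by omega))
      let W₁ : Subgroup S := (A ⊓ E) ⊔ zpowers x
      have hZW : A ⊓ E ≤ W₁ := le_sup_left
      have hxW : x ∈ W₁ := (le_sup_right : zpowers x ≤ W₁) (mem_zpowers x)
      have hW₁le : ∀ T : Subgroup S, A ⊓ E ≤ T → x ∈ T → W₁ ≤ T := by
        intro T h1 h2
        refine sup_le h1 ?_
        rw [zpowers_le]
        exact h2
      have hW₁T₀ : W₁ ≤ T₀ := by
        refine hW₁le T₀ ?_ ?_
        · intro z hz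
          refine ⟨hz.1, ?_⟩
          exact mem_centralizer_singleton_iff.2 (cE h hz.2 he₀.1)
        · refine ⟨hx, ?_⟩
          exact mem_centralizer_singleton_iff.2 (he₀.2)
      have hW₁card : 4 ≤ Nat.card W₁ := by
        have hlt : A ⊓ E < W₁ := lt_of_le_of_ne hZW (fun h' => hxE (by
          rw [← h'] at hxW
          exact hxW.2))
        have h1 := card_lt_of_lt hlt
        have h2 : Nat.card (A ⊓ E : Subgroup S) ∣ Nat.card W₁ := Subgroup.card_dvd_of_le hZW
        rw [hZ2] at h1 h2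
        omega
      have hW₁eq : W₁ = T₀ := Subgroup.eq_of_le_of_card_ge hW₁T₀ (by omega)
      obtain ⟨b, hbA, hbT₀⟩ : ∃ b ∈ A, b ∉ T₀ := by
        by_contra hc
        push Not at hc
        exact hT₀ne (le_antisymm hT₀A hc)
      have hbW : b ∉ W₁ := by rw [hW₁eq]; exact hbT₀
      have hbE : b ∉ E := fun hbE => hbW (hZW ⟨hbA, hbE⟩)
      have hgen : ∀ T : Subgroup S, T ≤ A → A ⊓ E ≤ T → x ∈ T → b ∈ T → T = A := by
        intro T hTA hZT hxT hbT
        have hle := hW₁le T hZT hxT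
        have hlt : W₁ < T := lt_of_le_of_ne hle (fun h' => hbW (by rw [h']; exact hbT))
        exact eq_of_card_gt hTA h.hA8 (lt_of_le_of_lt hW₁card (card_lt_of_lt hlt))
      refine ⟨b, hbA, hbE, hgen, ?_⟩
      apply le_antisymm
      · intro e he
        rw [mem_fix, mem_fix] at he
        refine mem_inf3 h he.1.1 ?_
        let T : Subgroup S := A ⊓ centralizer ({e} : Set S)
        have hTeq : T = A := by
          refine hgen T inf_le_left ?_ ⟨hx, ?_⟩ ⟨hbA, ?_⟩
          · intro z hz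
            refine ⟨hz.1, ?_⟩
            exact mem_centralizer_singleton_iff.2 (cE h hz.2 he.1.1)
          · exact mem_centralizer_singleton_iff.2 (he.1.2)
          · exact mem_centralizer_singleton_iff.2 (he.2)
        intro a ha
        have : a ∈ T := by rw [hTeq]; exact ha
        exact (mem_centralizer_singleton_iff.1 this.2).symm
      · intro z hz
        rw [mem_fix, mem_fix]
        exact ⟨⟨hz.2, cA h hx hz.1⟩, cA h hbA hz.1⟩
    refine ⟨hZ2, ?_, key, hcent⟩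
    intro x hx hxE
    obtain ⟨b, hbA, _, _, hfix⟩ := key x hx hxE
    have h1 := card_le_sq (W := fix E x) (x := b)
      (fun w hw => h.hE2 w (fix_le hw)) (conj_fix (cA h hx hbA)) (h.hA2 b hbA)
    rw [hfix, hZ2] at h1
    have h2 := hlow x hx
    omega

/-- The commutator of `y` with an involution `a` modulo `E` lies in `C_E(a)`. -/
lemma comm_mem_fix3 (h : Hyp3 A E) {y a : S} (ha : a ∈ A)
    (hy : y * a * y⁻¹ * a⁻¹ ∈ E) : y * a * y⁻¹ * a⁻¹ ∈ fix E a := by
  rw [mem_fix]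
  refine ⟨hy, ?_⟩
  set e := y * a * y⁻¹ * a⁻¹ with he
  have h1 : y * a * y⁻¹ = e * a := by rw [he]; group
  have h2 : (e * a) * (e * a) = 1 := by
    rw [← h1]
    calc y * a * y⁻¹ * (y * a * y⁻¹) = y * (a * a) * y⁻¹ := by group
      _ = 1 := by rw [h.hA2 a ha]; group
  exact comm_of_inv (h.hE2 e hy) (h.hA2 a ha) h2

/-- Conjugates of elements of `A ⊓ E` under elements centralizing `A` modulo `E`. -/
lemma conj_mem_inf3 [hn : E.Normal] (h : Hyp3 A E) {u : S}
    (hu : ∀ x ∈ A, u * x * u⁻¹ * x⁻¹ ∈ E) {z : S} (hz : z ∈ A ⊓ E) : u * z * u⁻¹ ∈ A ⊓ E := by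
  refine mem_inf3 h (conj_mem u hz.2) (fun a ha => ?_)
  have h1 : u⁻¹ * a * u * a⁻¹ ∈ E := by
    have h2 := conj_mem u⁻¹ (hu a ha)
    have h3 := E.inv_mem h2
    have h4 : (u⁻¹ * (u * a * u⁻¹ * a⁻¹) * u⁻¹⁻¹)⁻¹ = u⁻¹ * a * u * a⁻¹ := by group
    rw [h4] at h3
    exact h3
  set e := u⁻¹ * a * u * a⁻¹ with he
  have h5 : u⁻¹ * a * u = e * a := by rw [he]; group
  have h6 : z * (e * a) = (e * a) * z := by
    calc z * (e * a) = (z * e) * a := by group
      _ = (e * z) * a := by rw [cE h hz.2 h1]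
      _ = e * (z * a) := by group
      _ = e * (a * z) := by rw [cA h hz.1 ha]
      _ = _ := by group
  rw [← h5] at h6
  calc u * z * u⁻¹ * a = u * (z * (u⁻¹ * a * u)) * u⁻¹ := by group
    _ = u * ((u⁻¹ * a * u) * z) * u⁻¹ := by rw [h6]
    _ = _ := by group

/-- The element `y₀`. -/
structure Y0 (E : Subgroup S) (y₀ u : S) : Prop where
  notE : y₀ ∉ E
  comm : ∀ e ∈ E, y₀ * e = e * y₀
  sq : y₀ * y₀ = u
  uE : u ∈ E
  u1 : u ≠ 1
  conj : ∀ g, g * y₀ * g⁻¹ * y₀⁻¹ ∈ E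
  central : ∀ g, g * u = u * g

theorem exists_Y0 [Finite S] (hS : IsPGroup 2 S) [hn : E.Normal] (h : Hyp3 A E) {y : S}
    (hyE : y ∉ E) (hyc : ∀ e ∈ E, y * e = e * y) : ∃ y₀ u, Y0 E y₀ u := by
  obtain ⟨y₀, h1, h2, h3, h4⟩ := exists_y0 hS h.hE2 hyE hyc
  refine ⟨y₀, y₀ * y₀, h1, h2, rfl, h3, ?_, h4, ?_⟩
  · exact fun h5 => no_ext h.hE2 h.hE8 h.hN h1 h5 h2 h4
  · intro g
    set e := g * y₀ * g⁻¹ * y₀⁻¹ with he
    have heE : e ∈ E := h4 g
    have h5 : g * y₀ * g⁻¹ = e * y₀ := by rw [he]; group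
    have h6 : g * (y₀ * y₀) * g⁻¹ = y₀ * y₀ := by
      calc g * (y₀ * y₀) * g⁻¹ = (g * y₀ * g⁻¹) * (g * y₀ * g⁻¹) := by group
        _ = (e * y₀) * (e * y₀) := by rw [h5]
        _ = e * (y₀ * e) * y₀ := by group
        _ = e * (e * y₀) * y₀ := by rw [h2 e heE]
        _ = (e * e) * (y₀ * y₀) := by group
        _ = _ := by rw [h.hE2 e heE, one_mul]
    calc g * (y₀ * y₀) = g * (y₀ * y₀) * g⁻¹ * g := by group
      _ = _ := by rw [h6]

/-- Structure of `E ⊔ ⟨y₀⟩`. -/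
theorem mem_B {y₀ u : S} (h : Hyp3 A E) (hy : Y0 E y₀ u) {b : S} (hb : b ∈ E ⊔ zpowers y₀) :
    b ∈ E ∨ ∃ e ∈ E, b = y₀ * e := by
  have hy₀c := hy.comm
  let T : Subgroup S :=
    { carrier := {b | b ∈ E ∨ ∃ e ∈ E, b = y₀ * e}
      mul_mem' := by
        rintro a b (ha | ⟨e, he, rfl⟩) (hb | ⟨f, hf, rfl⟩)
        · exact Or.inl (E.mul_mem ha hb)
        · refine Or.inr ⟨a * f, E.mul_mem ha hf, ?_⟩
          calc a * (y₀ * f) = (a * y₀) * f := by group
            _ = (y₀ * a) * f := by rw [hy₀c a ha]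
            _ = _ := by group
        · exact Or.inr ⟨e * b, E.mul_mem he hb, by group⟩
        · left
          have h1 : y₀ * e * (y₀ * f) = (y₀ * y₀) * (e * f) := by
            calc y₀ * e * (y₀ * f) = y₀ * (e * y₀) * f := by group
              _ = y₀ * (y₀ * e) * f := by rw [hy₀c e he]
              _ = _ := by group
          rw [h1, hy.sq]
          exact E.mul_mem hy.uE (E.mul_mem he hf)
      one_mem' := Or.inl E.one_mem
      inv_mem' := by
        rintro a (ha | ⟨e, he, rfl⟩)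
        · exact Or.inl (E.inv_mem ha)
        · right
          refine ⟨u⁻¹ * e⁻¹, E.mul_mem (E.inv_mem hy.uE) (E.inv_mem he), ?_⟩
          have h4 : e⁻¹ * y₀⁻¹ = y₀⁻¹ * e⁻¹ := by
            have h5 := hy₀c e⁻¹ (E.inv_mem he)
            calc e⁻¹ * y₀⁻¹ = y₀⁻¹ * (y₀ * e⁻¹) * y₀⁻¹ := by group
              _ = y₀⁻¹ * (e⁻¹ * y₀) * y₀⁻¹ := by rw [h5]
              _ = _ := by group
          rw [mul_inv_rev, h4, ← hy.sq]
          group }
  have hle : E ⊔ zpowers y₀ ≤ T := sup_le (fun e he => Or.inl he) (by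
    rw [zpowers_le]
    exact Or.inr ⟨1, E.one_mem, by simp⟩)
  exact hle hb

/-- `E ⊔ ⟨y₀⟩` is normal. -/
theorem normal_B [hn : E.Normal] {y₀ u : S} (hy : Y0 E y₀ u) : (E ⊔ zpowers y₀).Normal := by
  let B := E ⊔ zpowers y₀
  have hEB : E ≤ B := le_sup_left
  have hy₀B : y₀ ∈ B := (le_sup_right : zpowers y₀ ≤ B) (mem_zpowers y₀)
  have hle : ∀ g : S, B ≤ B.comap (MulAut.conj g).toMonoidHom := by
    intro g
    refine sup_le ?_ ?_
    · intro e he
      exact hEB (hn.conj_mem e he g)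
    · rw [zpowers_le]
      change g * y₀ * g⁻¹ ∈ B
      have h1 : g * y₀ * g⁻¹ = (g * y₀ * g⁻¹ * y₀⁻¹) * y₀ := by group
      rw [h1]
      exact B.mul_mem (hEB (hy.conj g)) hy₀B
  constructor
  intro n hn g
  exact hle g hn

/-- `E ⊔ ⟨y₀⟩` is abelian. -/
theorem comm_B {y₀ u : S} (h : Hyp3 A E) (hy : Y0 E y₀ u) {a b : S} (ha : a ∈ E ⊔ zpowers y₀)
    (hb : b ∈ E ⊔ zpowers y₀) : a * b = b * a := by
  have hBcE : ∀ a ∈ E ⊔ zpowers y₀, ∀ e ∈ E, a * e = e * a := by
    intro b hb e he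
    rcases mem_B h hy hb with h1 | ⟨f, hf, rfl⟩
    · exact cE h h1 he
    · calc y₀ * f * e = y₀ * (f * e) := by group
        _ = y₀ * (e * f) := by rw [cE h hf he]
        _ = (y₀ * e) * f := by group
        _ = (e * y₀) * f := by rw [hy.comm e he]
        _ = _ := by group
  rcases mem_B h hy hb with h1 | ⟨f, hf, rfl⟩
  · exact hBcE a ha b h1
  · have h1 : a * y₀ = y₀ * a := by
      rcases mem_B h hy ha with h2 | ⟨e, he, rfl⟩
      · exact (hy.comm a h2).symm
      · calc y₀ * e * y₀ = y₀ * (e * y₀) := by group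
          _ = y₀ * (y₀ * e) := by rw [hy.comm e he]
          _ = _ := by group
    calc a * (y₀ * f) = (a * y₀) * f := by group
      _ = (y₀ * a) * f := by rw [h1]
      _ = y₀ * (a * f) := by group
      _ = y₀ * (f * a) := by rw [hBcE a ha f hf]
      _ = _ := by group

/-- The centralizer of `E` is normal, with the elementwise description. -/
lemma mem_centE {x : S} : x ∈ centralizer (E : Set S) ↔ ∀ e ∈ E, x * e = e * x := by
  rw [mem_centralizer_iff]
  exact ⟨fun h e he => (h e he).symm, fun h e he => (h e he).symm⟩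

end Cfsg.Agent.Lib.SelfCentE8.R3Types
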