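import Cfsg.Agent.Lib.SelfCentE8.Z44
import Cfsg.Agent.Lib.SelfCentE8.N1

/-!
# The choice of the involution `a`
-/

set_option autoImplicit false
set_option linter.unusedSectionVars false

namespace Cfsg.Agent.Lib.SelfCentE8.Sel

open Cfsg.Agent.Lib.TwoFusion.SecRank Cfsg.Agent.Lib.SelfCentE8.Setup Cfsg.Agent.Lib.SelfCentE8.Count
open Cfsg.Agent.Lib.SelfCentE8.TCore Cfsg.Agent.Lib.SelfCentE8.TCount Cfsg.Agent.Lib.SelfCentE8.Gamma
open Cfsg.Agent.Lib.SelfCentE8.Level Cfsg.Agent.Lib.SelfCentE8.Xhat Cfsg.Agent.Lib.SelfCentE8.K2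
open Cfsg.Agent.Lib.SelfCentE8.K1 Cfsg.Agent.Lib.SelfCentE8.Z44 Cfsg.Agent.Lib.SelfCentE8.N1
open Mod
open scoped commutatorElement

variable {S V : Type*} [Group S] [AddCommGroup V] {D : Mod S V}

/-- Iterated commutators with an element of a finite 2-group reach `1`. -/
lemma exists_comm_step [Finite S] (hS : IsPGroup 2 S) (τ : S) (Q P : S → Prop)
    (hQ : ∀ x, Q x → Q (τ * x * τ⁻¹ * x⁻¹)) (h1 : P 1) {n : S} (hn : Q n) (hP : ¬ P n) :
    ∃ m, Q m ∧ ¬ P m ∧ P (τ * m * τ⁻¹ * m⁻¹) := by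
  by_contra hall
  push Not at hall
  haveI : Fact (Nat.Prime 2) := ⟨Nat.prime_two⟩
  have hnil : Group.IsNilpotent S := hS.isNilpotent
  obtain ⟨c, hc⟩ := Subgroup.nilpotent_iff_lowerCentralSeries.1 hnil
  have key : ∀ i : ℕ, ∃ m, Q m ∧ ¬ P m ∧ m ∈ (⊤ : Subgroup S).lowerCentralSeries i := by
    intro i
    induction i with
    | zero => exact ⟨n, hn, hP, trivial⟩
    | succ i ih =>
      obtain ⟨m, hm1, hm2, hm3⟩ := ih
      refine ⟨_, hQ m hm1, hall m hm1 hm2, ?_⟩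
      have h2 : ⁅m, τ⁆ ∈ (⊤ : Subgroup S).lowerCentralSeries (i + 1) :=
        Subgroup.commutator_mem_commutator hm3 (Subgroup.mem_top τ)
      have h3 := Subgroup.inv_mem _ h2
      have e : (⁅m, τ⁆)⁻¹ = τ * m * τ⁻¹ * m⁻¹ := by
        rw [commutatorElement_def]
        group
      rwa [e] at h3
  obtain ⟨m, _, hm2, hm3⟩ := key c
  rw [hc, Subgroup.mem_bot] at hm3
  exact hm2 (hm3 ▸ h1)

/-- The centralizer of `a` in `X` is small. -/
def LA (D : Mod S V) (a : S) : Prop :=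
  ∀ m ∈ X D, m * a = a * m → ∃ w : V, (2 : ℕ) • w = 0 ∧ (m = D.ι w ∨ m = a * D.ι w)

/-- Data when `V[2]` is not in `A`. -/
structure BD (D : Mod S V) (a τ : S) (z e : V) : Prop where
  ττ : τ * τ = 1
  τX : τ ∉ X D
  τa : τ * a = a * τ
  z0 : z ≠ 0
  z2 : (2 : ℕ) • z = 0
  e2 : (2 : ℕ) • e = 0
  τe : D.ρ τ e = e + z
  cov : ∀ w : V, (2 : ℕ) • w = 0 → w = 0 ∨ w = z ∨ w = e ∨ w = z + e
  cent : ∀ m ∈ X D, m * a = a * m → m * τ = τ * m → ∃ w, (w = 0 ∨ w = z) ∧ (m = D.ι w ∨ m = a * D.ι w)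

section
variable [Finite S] [Finite V] {a : S} (C : TC D a)
include C

lemma a_not_S2 (h4 : ∃ v : V, (4 : ℕ) • v ≠ 0) : a ∉ S2 D := by
  intro hS2
  obtain ⟨M, hM⟩ := exists_exp D C.hS
  have hstep : ∀ v : V, ∃ u, (4 : ℕ) • v = (8 : ℕ) • u := by
    intro v
    obtain ⟨u, w, hw, he⟩ := mem_S2.1 hS2 v
    refine ⟨-u, ?_⟩
    have h1 := two_θ C.toInv2 v
    have e1 : (4 : ℕ) • v = (2 : ℕ) • (D.ρ a v + v) - (2 : ℕ) • D.δ a v := by
      rw [δ_def]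
      abel
    rw [e1, h1, he, nsmul_add, hw, add_zero, ← mul_nsmul', zero_sub, smul_neg]
  have iter : ∀ j : ℕ, ∀ v : V, ∃ u, (4 : ℕ) • v = (2 ^ j * 4 : ℕ) • u := by
    intro j
    induction j with
    | zero => exact fun v => ⟨v, by simp⟩
    | succ j ih =>
      intro v
      obtain ⟨u, hu⟩ := ih v
      obtain ⟨u', hu'⟩ := hstep u
      refine ⟨u', ?_⟩
      rw [hu, mul_nsmul', hu', ← mul_nsmul']
      congr 1
      rw [pow_succ]
      ring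
  obtain ⟨v, hv4⟩ := h4
  obtain ⟨u, hu⟩ := iter M v
  apply hv4
  rw [hu, mul_nsmul', hM]

omit C in
lemma comm_ι_of_X {x : S} (hx : x ∈ X D) {w : V} (hw : (2 : ℕ) • w = 0) : x * D.ι w = D.ι w * x :=
  comm_of_fix (mem_X.1 hx w hw)

lemma HL_of_LA (hLA : LA D a) (h4 : ∃ v : V, (4 : ℕ) • v ≠ 0) : HL D a := by
  intro x hX h2 hcomm
  obtain ⟨w, hw, h | h⟩ := hLA x hX hcomm
  · exact ⟨w, hw, h⟩
  · exfalso
    apply a_not_S2 C h4
    have e : a = x * (D.ι w)⁻¹ := by rw [h]; group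
    rw [e]
    exact (S2 D).mul_mem h2 ((S2 D).inv_mem (B_le_S2 (D.ι_mem w)))

lemma Z1_of_LA (hLA : LA D a) : ∀ l ∈ T D, l * a = a * l → l ∉ D.B → a * l ∉ D.B → ∀ τ, τ ∉ T D →
    a * (τ * l * τ⁻¹ * l⁻¹) ∈ D.B := by
  intro l hl hcomm h1 h2
  exfalso
  obtain ⟨w, _, h | h⟩ := hLA l (T_le_X C hl) hcomm
  · exact h1 (D.mem_B.2 ⟨w, h⟩)
  · apply h2
    rw [h, ← mul_assoc, C.haa, one_mul]
    exact D.ι_mem w

lemma Z2_of_LA (hLA : LA D a) : ∀ l ∈ T D, l * a = a * l → l ∉ D.B → a * l ∉ D.B → ∀ l' ∈ T D, l' * a = a * l' →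
    l' ∉ D.B → a * l' ∉ D.B → l⁻¹ * l' ∈ D.B ∨ a * (l⁻¹ * l') ∈ D.B := by
  intro l hl hcomm h1 h2
  exfalso
  obtain ⟨w, _, h | h⟩ := hLA l (T_le_X C hl) hcomm
  · exact h1 (D.mem_B.2 ⟨w, h⟩)
  · apply h2
    rw [h, ← mul_assoc, C.haa, one_mul]
    exact D.ι_mem w

variable {τ : S} {z e : V} (Bd : BD D a τ z e)
include Bd

/-- The key step: elements commuting with `τ` modulo `ι V[2]`. -/
lemma claim1 {m : S} (hm : m ∈ X D) (hma : m * a = a * m) {w : V} (hw : (2 : ℕ) • w = 0)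
    (hτ : τ * m * τ⁻¹ * m⁻¹ = D.ι w) : ∃ w', (2 : ℕ) • w' = 0 ∧ (m = D.ι w' ∨ m = a * D.ι w') := by
  have ainv := a_inv C.toInv2
  have haX := a_mem_X C.toInv2
  have hτinv : τ⁻¹ = τ := inv_eq_of_mul_eq_one_left Bd.ττ
  have hm' : τ * m * τ⁻¹ = D.ι w * m := by
    rw [← hτ]; group
  -- `τ w = w`
  have h1 : D.ρ τ w = w := by
    have h2 : τ * (τ * m * τ⁻¹) * τ⁻¹ = m := by
      rw [hτinv]
      calc τ * (τ * m * τ) * τ = (τ * τ) * m * (τ * τ) := by group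
        _ = m := by rw [Bd.ττ]; group
    rw [hm'] at h2
    have h3 : τ * (D.ι w * m) * τ⁻¹ = D.ι (D.ρ τ w) * (τ * m * τ⁻¹) := by
      rw [← D.conj]; group
    rw [h3, hm', ← mul_assoc, ← D.ι_add] at h2
    have h4 : D.ι (D.ρ τ w + w) = 1 := mul_eq_right.1 h2
    have h5 := D.ι_eq_one.1 h4
    have h6 : w + w = 0 := by rw [← two_nsmul]; exact hw
    have h7 : D.ρ τ w + w = w + w := h5.trans h6.symm
    exact add_right_cancel h7
  have hz2' : z + z = 0 := by rw [← two_nsmul]; exact Bd.z2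
  have hτz : D.ρ τ z = z := by
    have h2 : D.ρ τ (D.ρ τ e) = e := by rw [← D.ρ_mul, Bd.ττ, D.ρ_one]
    rw [Bd.τe, map_add, Bd.τe] at h2
    have h3 : e + z + D.ρ τ z = e + (z + z) + (D.ρ τ z - z) := by abel
    rw [h3, hz2', add_zero] at h2
    have h4 : D.ρ τ z - z = 0 := by
      have : e + (D.ρ τ z - z) = e + 0 := by rw [add_zero]; exact h2
      exact add_left_cancel this
    exact sub_eq_zero.1 h4
  have hcase : ∀ m' : S, m' ∈ X D → m' * a = a * m' → m' * τ = τ * m' →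
      ∃ w', (2 : ℕ) • w' = 0 ∧ (m' = D.ι w' ∨ m' = a * D.ι w') := by
    intro m' h1' h2' h3'
    obtain ⟨w', hw', h⟩ := Bd.cent m' h1' h2' h3'
    refine ⟨w', ?_, h⟩
    rcases hw' with rfl | rfl
    · simp
    · exact Bd.z2
  rcases Bd.cov w hw with h | h | h | h
  · -- `w = 0`
    rw [h, D.ι_zero, one_mul] at hm'
    apply hcase m hm hma
    calc m * τ = (τ * m * τ⁻¹) * τ := by rw [hm']
      _ = τ * m := by group
  · -- `w = z`
    have he2 : D.ι e * a = a * D.ι e := (comm_ι_of_X haX Bd.e2).symm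
    have hme : D.ι e * m ∈ X D := (X D).mul_mem (B_le_X (D.ι_mem e)) hm
    have hmea : (D.ι e * m) * a = a * (D.ι e * m) := by
      rw [mul_assoc, hma, ← mul_assoc, he2, mul_assoc]
    have hmeτ : (D.ι e * m) * τ = τ * (D.ι e * m) := by
      have h2 : τ * (D.ι e * m) * τ⁻¹ = D.ι e * m := by
        have h3 : τ * (D.ι e * m) * τ⁻¹ = D.ι (D.ρ τ e) * (τ * m * τ⁻¹) := by
          rw [← D.conj]; group
        rw [h3, hm', h, Bd.τe, ← mul_assoc, ← D.ι_add]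
        congr 2
        rw [add_assoc, hz2', add_zero]
      calc (D.ι e * m) * τ = (τ * (D.ι e * m) * τ⁻¹) * τ := by rw [h2]
        _ = _ := by group
    have he3 : (D.ι e)⁻¹ * a = a * (D.ι e)⁻¹ := by
      have h5 : Commute (D.ι e) a := he2
      exact h5.inv_left
    obtain ⟨w', hw', h' | h'⟩ := hcase _ hme hmea hmeτ
    · refine ⟨-e + w', ?_, Or.inl ?_⟩
      · rw [smul_add, smul_neg, hw', Bd.e2]
        simp
      · rw [D.ι_add, D.ι_neg, ← h']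
        group
    · refine ⟨-e + w', ?_, Or.inr ?_⟩
      · rw [smul_add, smul_neg, hw', Bd.e2]
        simp
      · rw [D.ι_add, D.ι_neg]
        calc m = (D.ι e)⁻¹ * (D.ι e * m) := by group
          _ = (D.ι e)⁻¹ * (a * D.ι w') := by rw [h']
          _ = ((D.ι e)⁻¹ * a) * D.ι w' := by group
          _ = (a * (D.ι e)⁻¹) * D.ι w' := by rw [he3]
          _ = _ := by group
  · exfalso
    rw [h, Bd.τe] at h1
    exact Bd.z0 (by simpa using h1)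
  · exfalso
    rw [h, map_add, hτz, Bd.τe] at h1
    have h2 : z + (e + z) = z + e + z := by abel
    rw [h2] at h1
    exact Bd.z0 (by simpa using h1)

lemma HL_of_BD (h4 : ∃ v : V, (4 : ℕ) • v ≠ 0) : HL D a := by
  intro x hX h2 hcomm
  by_contra hx
  push Not at hx
  have hτcomm : Commute τ a := Bd.τa
  obtain ⟨m, ⟨hm1, hm2, hm3⟩, hmP, w, hw, hmw⟩ := exists_comm_step C.hS τ
    (fun m => m ∈ X D ∧ m ∈ S2 D ∧ m * a = a * m)
    (fun m => ∃ w : V, (2 : ℕ) • w = 0 ∧ m = D.ι w)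
    (by
      rintro y ⟨h1, h2', h3⟩
      refine ⟨(X D).mul_mem (X_normal.conj_mem y h1 τ) ((X D).inv_mem h1),
        (S2 D).mul_mem (S2_normal.conj_mem y h2' τ) ((S2 D).inv_mem h2'), ?_⟩
      have h4' : Commute y a := h3
      exact ((hτcomm.mul_left h4').mul_left hτcomm.inv_left).mul_left h4'.inv_left)
    ⟨0, by simp, by simp⟩ (n := x) ⟨hX, h2, hcomm⟩ (by
      rintro ⟨w, hw, h⟩
      exact hx w hw h)
  obtain ⟨w', hw', h | h⟩ := claim1 C Bd hm1 hm3 hw hmw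
  · exact hmP ⟨w', hw', h⟩
  · apply a_not_S2 C h4
    have e : a = m * (D.ι w')⁻¹ := by rw [h]; group
    rw [e]
    exact (S2 D).mul_mem hm2 ((S2 D).inv_mem (B_le_S2 (D.ι_mem w')))

/-- The commutator with `τ` lies in `a V[2]`. -/
lemma claim2 (h4 : ∀ v : V, (4 : ℕ) • v = 0) {l : S} (hl : l ∈ T D) (hcomm : l * a = a * l) (h1 : l ∉ D.B)
    (h2 : a * l ∉ D.B) : ∃ w, (2 : ℕ) • w = 0 ∧ τ * l * τ⁻¹ * l⁻¹ = a * D.ι w := by
  have hτinv : τ⁻¹ = τ := inv_eq_of_mul_eq_one_left Bd.ττ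
  have hτcomm : Commute τ a := Bd.τa
  have hlc : Commute l a := hcomm
  obtain ⟨y, hy⟩ : ∃ y, y = τ * l * τ⁻¹ * l⁻¹ := ⟨_, rfl⟩
  have hyT : y ∈ T D := by
    rw [hy]
    exact (T D).mul_mem (T_normal.conj_mem l hl τ) ((T D).inv_mem hl)
  have hyX := T_le_X C hyT
  have hya : y * a = a * y := by
    rw [hy]
    exact ((hτcomm.mul_left hlc).mul_left hτcomm.inv_left).mul_left hlc.inv_left
  -- `y² ∈ ι V[2]`
  obtain ⟨b, hb⟩ : ∃ b, y * y = D.ι b := by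
    apply D.cent
    intro v
    simp only [ρ_mul]
    rw [D.ρ_eq y v, map_add, D.ρ_eq y v, mem_X.1 hyX _ (mem_T.1 hyT v)]
    have := mem_T.1 hyT v
    rw [two_nsmul] at this
    rw [add_assoc, this, add_zero]
  have hb2 : (2 : ℕ) • b = 0 := by
    rw [← C.hfix]
    apply D.ι_inj
    rw [← D.conj, ← hb]
    have hya' : Commute y a := hya
    have h3 : Commute (y * y) a := hya'.mul_left hya'
    calc a * (y * y) * a⁻¹ = (y * y) * a * a⁻¹ := by rw [h3.eq]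
      _ = _ := by group
  -- `[τ, y]`
  have hτy : τ * y * τ⁻¹ * y⁻¹ = D.ι (-b) := by
    have h3 : τ * y * τ⁻¹ = y⁻¹ := by
      rw [hy, hτinv]
      calc τ * (τ * l * τ * l⁻¹) * τ = (τ * τ) * l * τ * l⁻¹ * τ := by group
        _ = l * τ * l⁻¹ * τ := by rw [Bd.ττ]; group
        _ = (τ * l * τ * l⁻¹)⁻¹ := by
          rw [mul_inv_rev, mul_inv_rev, mul_inv_rev, inv_inv, hτinv]
          group
    rw [h3, D.ι_neg, ← hb]
    group
  have hb2' : (2 : ℕ) • (-b) = 0 := by rw [smul_neg, hb2, neg_zero]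
  obtain ⟨w', hw', h | h⟩ := claim1 C Bd hyX hya hb2' hτy
  · exfalso
    rw [hy] at h
    obtain ⟨w'', _, h' | h'⟩ := claim1 C Bd (T_le_X C hl) hcomm hw' h
    · exact h1 (D.mem_B.2 ⟨w'', h'⟩)
    · apply h2
      rw [h', ← mul_assoc, C.haa, one_mul]
      exact D.ι_mem w''
  · exact ⟨w', hw', by rw [← hy]; exact h⟩

lemma Z1_of_BD (h4 : ∀ v : V, (4 : ℕ) • v = 0) : ∀ l ∈ T D, l * a = a * l → l ∉ D.B → a * l ∉ D.B → ∀ τ', τ' ∉ T D →
    a * (τ' * l * τ'⁻¹ * l⁻¹) ∈ D.B := by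
  intro l hl hcomm h1 h2 τ' hτ'
  obtain ⟨w, _, hw⟩ := claim2 C Bd h4 hl hcomm h1 h2
  have hTX : T D = X D := le_antisymm (T_le_X C) (X_le_T C h4)
  have hidx : (X D).index = 2 := by
    have h3 := index_X_le (D := D) C.hS C.hW
    have h4' : (X D).index ≠ 0 := Subgroup.index_ne_zero_of_finite
    have h5 : (X D).index ≠ 1 := by
      intro h
      exact Bd.τX (Subgroup.index_eq_one.1 h ▸ Subgroup.mem_top τ)
    omega
  have hτ'X : τ' ∉ X D := hTX ▸ hτ'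
  have hx : τ⁻¹ * τ' ∈ X D := by
    rw [Subgroup.mul_mem_iff_of_index_two hidx]
    exact iff_of_false (fun h => Bd.τX ((X D).inv_mem_iff.1 h)) hτ'X
  obtain ⟨x, hx'⟩ : ∃ x, x = τ⁻¹ * τ' := ⟨_, rfl⟩
  rw [← hx'] at hx
  have hτ'x : τ' = τ * x := by rw [hx']; group
  obtain ⟨r, hr, _⟩ := comm_T C (hTX ▸ hx) hl
  have hrl : x * l * x⁻¹ = D.ι r * l := by
    rw [← hr]; group
  have e : a * (τ' * l * τ'⁻¹ * l⁻¹) = (a * D.ι (D.ρ τ r) * a⁻¹) * (a * (τ * l * τ⁻¹ * l⁻¹)) := by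
    rw [hτ'x, ← D.conj τ r]
    calc a * (τ * x * l * (τ * x)⁻¹ * l⁻¹) = a * (τ * (x * l * x⁻¹) * τ⁻¹ * l⁻¹) := by group
      _ = a * (τ * (D.ι r * l) * τ⁻¹ * l⁻¹) := by rw [hrl]
      _ = _ := by group
  have e2 : a * (a * D.ι w) = D.ι w := by rw [← mul_assoc, C.haa, one_mul]
  rw [e, hw, e2]
  exact D.B.mul_mem (D.B_normal.conj_mem _ (D.ι_mem _) a) (D.ι_mem w)

lemma Z2_of_BD (h4 : ∀ v : V, (4 : ℕ) • v = 0) : ∀ l ∈ T D, l * a = a * l → l ∉ D.B → a * l ∉ D.B → ∀ l' ∈ T D,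
    l' * a = a * l' → l' ∉ D.B → a * l' ∉ D.B → l⁻¹ * l' ∈ D.B ∨ a * (l⁻¹ * l') ∈ D.B := by
  intro l hl hcomm h1 h2 l' hl' hcomm' h1' h2'
  obtain ⟨w, hw2, hw⟩ := claim2 C Bd h4 hl hcomm h1 h2
  obtain ⟨w', hw'2, hw'⟩ := claim2 C Bd h4 hl' hcomm' h1' h2'
  have ainv := a_inv C.toInv2
  have hlX := T_le_X C hl
  have hm : l⁻¹ * l' ∈ X D := (X D).mul_mem ((X D).inv_mem hlX) (T_le_X C hl')
  have hlc : Commute l a := hcomm
  have hlc' : Commute l' a := hcomm'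
  have hma : (l⁻¹ * l') * a = a * (l⁻¹ * l') := hlc.inv_left.mul_left hlc'
  have hww : (2 : ℕ) • (w' - w) = 0 := by rw [smul_sub, hw2, hw'2, sub_zero]
  have hcomm2 : τ * (l⁻¹ * l') * τ⁻¹ * (l⁻¹ * l')⁻¹ = D.ι (w' - w) := by
    have h3 : τ * l * τ⁻¹ = a * D.ι w * l := by rw [← hw]; group
    have h4' : τ * l' * τ⁻¹ = a * D.ι w' * l' := by rw [← hw']; group
    have h5 : l⁻¹ * D.ι (w' - w) * l = D.ι (w' - w) := by
      have := comm_ι_of_X ((X D).inv_mem hlX) hww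
      rw [this]
      group
    calc τ * (l⁻¹ * l') * τ⁻¹ * (l⁻¹ * l')⁻¹
        = (τ * l * τ⁻¹)⁻¹ * (τ * l' * τ⁻¹) * l'⁻¹ * l := by group
      _ = (a * D.ι w * l)⁻¹ * (a * D.ι w' * l') * l'⁻¹ * l := by rw [h3, h4']
      _ = l⁻¹ * ((D.ι w)⁻¹ * (a⁻¹ * a) * D.ι w') * l := by group
      _ = l⁻¹ * ((D.ι w)⁻¹ * D.ι w') * l := by rw [inv_mul_cancel, mul_one]
      _ = l⁻¹ * D.ι (w' - w) * l := by
        rw [D.ι_sub]
        have h6 : Commute (D.ι w) (D.ι w') := D.ι_comm w w'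
        rw [h6.inv_left.eq]
      _ = _ := h5
  obtain ⟨w'', _, h | h⟩ := claim1 C Bd hm hma hww hcomm2
  · exact Or.inl (D.mem_B.2 ⟨w'', h⟩)
  · right
    rw [h, ← mul_assoc, C.haa, one_mul]
    exact D.ι_mem w''

end

/-- The dispatch for a given involution. -/
theorem secBd_of_TC [Finite S] [Finite V] {a : S} (C : TC D a) (h : LA D a ∨ ∃ τ z e, BD D a τ z e) {k : ℕ}
    (L : Lev V k) (hk : 1 ≤ k) : SecBd 4 S := by
  by_cases h4 : ∃ v : V, (4 : ℕ) • v ≠ 0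
  · have hL : HL D a := by
      rcases h with h | ⟨τ, z, e, Bd⟩
      · exact HL_of_LA C h h4
      · exact HL_of_BD C Bd h4
    by_cases hk2 : 2 ≤ k
    · exact secBd_k2 C hL L hk2
    · obtain rfl : k = 1 := by omega
      exact secBd_k1 C hL L h4
  · push Not at h4
    rcases h with h | ⟨τ, z, e, Bd⟩
    · exact secBd_z44 C h4 (Z1_of_LA C h) (Z2_of_LA C h)
    · exact secBd_z44 C h4 (Z1_of_BD C Bd h4) (Z2_of_BD C Bd h4)

end Cfsg.Agent.Lib.SelfCentE8.Sel
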