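import Cfsg.Agent.Lib.SelfCentE8.Sel

/-!
# Existence of the involution `a`
-/

set_option autoImplicit false
set_option linter.unusedSectionVars false

namespace Cfsg.Agent.Lib.SelfCentE8.Sel2

open Cfsg.Agent.Lib.TwoFusion.SecRank Cfsg.Agent.Lib.SelfCentE8.Setup Cfsg.Agent.Lib.SelfCentE8.Count
open Cfsg.Agent.Lib.SelfCentE8.TCore Cfsg.Agent.Lib.SelfCentE8.TCount Cfsg.Agent.Lib.SelfCentE8.Gamma
open Cfsg.Agent.Lib.SelfCentE8.Level Cfsg.Agent.Lib.SelfCentE8.Xhat Cfsg.Agent.Lib.SelfCentE8.K2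
open Cfsg.Agent.Lib.SelfCentE8.K1 Cfsg.Agent.Lib.SelfCentE8.Z44 Cfsg.Agent.Lib.SelfCentE8.N1
open Cfsg.Agent.Lib.SelfCentE8.Sel
open Cfsg.Agent.Lib.TwoFusion.SelfCentE16
open Mod

variable {S V : Type*} [Group S] [AddCommGroup V] {D : Mod S V}

lemma mul_mem_of_two [Finite S] {P Q : Subgroup S} (hPQ : P ≤ Q) (h : Nat.card Q = 2 * Nat.card P) {x y : S}
    (hx : x ∈ Q) (hy : y ∈ Q) (hxP : x ∉ P) (hyP : y ∉ P) : x * y ∈ P := by
  have h1 := card_eq_relIndex_mul hPQ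
  have h2 : P.relIndex Q = 2 := by
    rw [h] at h1
    exact (Nat.eq_of_mul_eq_mul_right Nat.card_pos h1).symm
  have h3 : (P.subgroupOf Q).index = 2 := h2
  have h4 := (Subgroup.mul_mem_iff_of_index_two h3 (a := ⟨x, hx⟩) (b := ⟨y, hy⟩)).2
    (iff_of_false (by rwa [Subgroup.mem_subgroupOf]) (by rwa [Subgroup.mem_subgroupOf]))
  rwa [Subgroup.mem_subgroupOf] at h4

/-- `{0, z}`. -/
def Zs (z : V) (hz : z + z = 0) : AddSubgroup V where
  carrier := {v | v = 0 ∨ v = z}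
  add_mem' := by
    rintro _ _ (rfl | rfl) (rfl | rfl)
    · exact Or.inl (add_zero _)
    · exact Or.inr (zero_add _)
    · exact Or.inr (add_zero _)
    · exact Or.inl hz
  zero_mem' := Or.inl rfl
  neg_mem' := by
    rintro _ (rfl | rfl)
    · exact Or.inl neg_zero
    · exact Or.inr (neg_eq_of_add_eq_zero_left hz)

lemma card_Zs {z : V} (hz : z + z = 0) (h0 : z ≠ 0) : Nat.card (Zs z hz) = 2 := by
  have h1 : Nat.card (Zs z hz) = (({0, z} : Set V)).ncard := Nat.card_coe_set_eq _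
  rw [h1]
  exact Set.ncard_pair h0.symm

section
variable [Finite S] [Finite V] (hS : IsPGroup 2 S) (hW : Nat.card (Tor 2 : AddSubgroup V) = 4) (A : Subgroup S)
  (hA2 : ∀ a ∈ A, a * a = 1) (hA8 : Nat.card A = 8) (hAc : ∀ x, (∀ a ∈ A, x * a = a * x) → x ∈ A)
include hS hW hA2 hA8 hAc

/-- The case `ι V[2] ≤ A`. -/
lemma exists_a_α (hα : ∀ w : V, (2 : ℕ) • w = 0 → D.ι w ∈ A) : ∃ a, Inv2 D a ∧ LA D a := by
  have hΩ : Bsub D (Tor 2) ≤ A := by
    rintro _ ⟨w, hw, rfl⟩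
    exact hα w hw
  have hΩ4 : Nat.card (Bsub D (Tor 2)) = 4 := by rw [card_Bsub, hW]
  obtain ⟨a, ha, haΩ⟩ : ∃ a ∈ A, a ∉ Bsub D (Tor 2) := by
    by_contra h
    push Not at h
    have := Subgroup.card_le_of_le (show A ≤ Bsub D (Tor 2) from h)
    omega
  have haa := hA2 a ha
  have ainv : a⁻¹ = a := inv_eq_of_mul_eq_one_left haa
  have hdi : ∀ y ∈ A, y ∈ Bsub D (Tor 2) ∨ a * y ∈ Bsub D (Tor 2) := by
    intro y hy
    by_cases h : y ∈ Bsub D (Tor 2)
    · exact Or.inl h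
    · exact Or.inr (mul_mem_of_two hΩ (by omega) ha hy haΩ h)
  have hcomm : ∀ g : S, Commute g a → (∀ w : V, (2 : ℕ) • w = 0 → Commute g (D.ι w)) → ∀ y ∈ A, g * y = y * g := by
    intro g hga hgw y hy
    rcases hdi y hy with ⟨w, hw, rfl⟩ | ⟨w, hw, h⟩
    · exact hgw w hw
    · have e : y = a * D.ι w := by rw [← h, ← mul_assoc, haa, one_mul]
      rw [e]
      exact hga.mul_right (hgw w hw)
  refine ⟨a, ⟨haa, fun v => ?_⟩, ?_⟩
  · constructor
    · intro h
      have h1 : D.ι v ∈ A := by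
        apply hAc
        apply hcomm
        · exact (comm_of_fix h).symm
        · intro w _
          exact D.ι_comm v w
      have h2 := hA2 _ h1
      rw [← D.ι_add, ← two_nsmul] at h2
      exact D.ι_eq_one.1 h2
    · intro h
      have h1 := comm_of_el hA2 ha (hα v h)
      apply D.ι_inj
      rw [← D.conj, h1]
      group
  · intro m hm hma
    have h1 : m ∈ A := by
      apply hAc
      apply hcomm _ hma
      intro w hw
      exact comm_of_fix (mem_X.1 hm w hw)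
    rcases hdi m h1 with ⟨w, hw, h⟩ | ⟨w, hw, h⟩
    · exact ⟨w, hw, Or.inl h⟩
    · refine ⟨w, hw, Or.inr ?_⟩
      rw [← h, ← mul_assoc, haa, one_mul]

/-- The case `ι V[2] ≰ A`. -/
lemma exists_a_β (hβ : ¬ ∀ w : V, (2 : ℕ) • w = 0 → D.ι w ∈ A) : ∃ a τ z e, Inv2 D a ∧ BD D a τ z e := by
  classical
  obtain ⟨M, hM⟩ := exists_exp D hS
  push Not at hβ
  obtain ⟨e', he'2, he'A⟩ := hβ
  obtain ⟨τ, hτA, hτX⟩ : ∃ τ ∈ A, τ ∉ X D := by
    by_contra h
    push Not at h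
    apply he'A
    apply hAc
    intro y hy
    exact (comm_of_fix (mem_X.1 (h y hy) e' he'2)).symm
  have hcA : ∀ {x y : S}, x ∈ A → y ∈ A → Commute x y := fun hx hy => comm_of_el hA2 hx hy
  obtain ⟨e, he2, hne⟩ : ∃ e : V, (2 : ℕ) • e = 0 ∧ D.ρ τ e ≠ e := by
    by_contra h
    push Not at h
    exact hτX (mem_X.2 h)
  obtain ⟨z, hz⟩ : ∃ z, z = D.ρ τ e - e := ⟨_, rfl⟩
  have hz0 : z ≠ 0 := by
    rw [hz]
    exact sub_ne_zero.2 hne
  have hz2 : (2 : ℕ) • z = 0 := by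
    rw [hz, smul_sub, ← map_nsmul, he2, map_zero, sub_zero]
  have hzz : z + z = 0 := by rw [← two_nsmul]; exact hz2
  have hτe : D.ρ τ e = e + z := by rw [hz]; abel
  have hττ := hA2 τ hτA
  have hτz : D.ρ τ z = z := by
    have h2 : D.ρ τ (D.ρ τ e) = e := by rw [← D.ρ_mul, hττ, D.ρ_one]
    rw [hτe, map_add, hτe] at h2
    have h3 : e + z + D.ρ τ z = e + (z + z) + (D.ρ τ z - z) := by abel
    rw [h3, hzz, add_zero] at h2
    have h4 : D.ρ τ z - z = 0 := by
      have : e + (D.ρ τ z - z) = e + 0 := by rw [add_zero]; exact h2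
      exact add_left_cancel this
    exact sub_eq_zero.1 h4
  have he0 : e ≠ 0 := by
    rintro rfl
    exact hne (map_zero _)
  have hze : z ≠ e := by
    rintro rfl
    exact hne hτz
  have hcov := fun w (hw : (2 : ℕ) • w = 0) => tor_cover hW hz2 he2 hz0 he0 hze hw
  have hδτ : ∀ w : V, (2 : ℕ) • w = 0 → D.ρ τ w - w = 0 ∨ D.ρ τ w - w = z := by
    intro w hw
    rcases hcov w hw with h | h | h | h
    · left; rw [h, map_zero, sub_zero]
    · left; rw [h, hτz, sub_self]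
    · right; rw [h, hτe]; abel
    · right; rw [h, map_add, hτz, hτe]; abel
  have hzfix : ∀ y ∈ A, D.ρ y z = z := by
    intro y hy
    have hc : Commute y τ := hcA hy hτA
    have h1 : D.ρ y z = D.ρ τ (D.ρ y e) - D.ρ y e := by
      rw [hz, map_sub, ← D.ρ_mul, ← D.ρ_mul, hc.eq]
    have h2 : (2 : ℕ) • D.ρ y e = 0 := by rw [← map_nsmul, he2, map_zero]
    rcases hδτ _ h2 with h | h
    · exfalso
      rw [h] at h1
      exact hz0 (D.ρ_inj y (h1.trans (map_zero _).symm))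
    · rw [h1, h]
  have hzA : D.ι z ∈ A := by
    apply hAc
    intro y hy
    exact (comm_of_fix (hzfix y hy)).symm
  have heA : D.ι e ∉ A := by
    intro h
    apply hne
    have h1 := comm_of_el hA2 hτA h
    apply D.ι_inj
    rw [← D.conj, h1]
    group
  have hzeA : D.ι (z + e) ∉ A := by
    intro h
    apply heA
    have : D.ι e = D.ι z * D.ι (z + e) := by
      rw [← D.ι_add, ← add_assoc, hzz, zero_add]
    rw [this]
    exact A.mul_mem hzA h
  -- `A₀ = X ⊓ A`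
  have hidx : (X D).relIndex A = 2 := by
    have h1 : (X D).relIndex A ∣ (X D).index := Subgroup.relIndex_dvd_index_of_normal _ _
    have h2 : (X D).index ≠ 0 := Subgroup.index_ne_zero_of_finite
    have h3 := Nat.le_of_dvd (Nat.pos_of_ne_zero h2) h1
    have h4 := index_X_le (D := D) hS hW
    have h5 : (X D).relIndex A ≠ 1 := by
      intro h
      exact hτX (Subgroup.relIndex_eq_one.1 h hτA)
    have h6 : (X D).relIndex A ≠ 0 := Subgroup.index_ne_zero_of_finite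
    omega
  have hA₀ : Nat.card (X D ⊓ A : Subgroup S) = 4 := by
    have h1 := card_eq_relIndex_mul_inf (X D) A
    rw [hidx, hA8] at h1
    omega
  have hA₀A : (X D ⊓ A : Subgroup S) ≤ A := inf_le_right
  have hdi₁ : ∀ y ∈ A, y ∈ (X D ⊓ A : Subgroup S) ∨ τ * y ∈ (X D ⊓ A : Subgroup S) := by
    intro y hy
    by_cases h : y ∈ (X D ⊓ A : Subgroup S)
    · exact Or.inl h
    · exact Or.inr (mul_mem_of_two hA₀A (by omega) hτA hy (fun h' => hτX h'.1) h)
  -- `P₀ = ⟨ι z⟩`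
  have hP₀ : Nat.card (Bsub D (Zs z hzz)) = 2 := by rw [card_Bsub, card_Zs hzz hz0]
  have hP₀A : Bsub D (Zs z hzz) ≤ (X D ⊓ A : Subgroup S) := by
    rintro _ ⟨w, rfl | rfl, rfl⟩
    · rw [D.ι_zero]
      exact one_mem _
    · exact ⟨B_le_X (D.ι_mem _), hzA⟩
  obtain ⟨a, ha, haP⟩ : ∃ a ∈ (X D ⊓ A : Subgroup S), a ∉ Bsub D (Zs z hzz) := by
    by_contra h
    push Not at h
    have := Subgroup.card_le_of_le (show (X D ⊓ A : Subgroup S) ≤ Bsub D (Zs z hzz) from h)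
    omega
  have haa := hA2 a ha.2
  have hdi₀ : ∀ y ∈ (X D ⊓ A : Subgroup S), y ∈ Bsub D (Zs z hzz) ∨ a * y ∈ Bsub D (Zs z hzz) := by
    intro y hy
    by_cases h : y ∈ Bsub D (Zs z hzz)
    · exact Or.inl h
    · exact Or.inr (mul_mem_of_two hP₀A (by omega) ha hy haP h)
  have hτa : Commute τ a := hcA hτA ha.2
  -- commuting with all of `A`
  have hgen : ∀ g : S, Commute g a → Commute g τ → Commute g (D.ι z) → ∀ y ∈ A, g * y = y * g := by
    intro g hga hgτ hgz y hy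
    have h0 : ∀ y₀ ∈ (X D ⊓ A : Subgroup S), Commute g y₀ := by
      intro y₀ hy₀
      have hP : ∀ t ∈ Bsub D (Zs z hzz), Commute g t := by
        rintro _ ⟨w, rfl | rfl, rfl⟩
        · rw [D.ι_zero]
          exact Commute.one_right g
        · exact hgz
      rcases hdi₀ y₀ hy₀ with h | h
      · exact hP _ h
      · have e : y₀ = a * (a * y₀) := by rw [← mul_assoc, haa, one_mul]
        rw [e]
        exact hga.mul_right (hP _ h)
    rcases hdi₁ y hy with h | h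
    · exact h0 _ h
    · have e : y = τ * (τ * y) := by rw [← mul_assoc, hττ, one_mul]
      rw [e]
      exact hgτ.mul_right (h0 _ h)
  have hU0 : ∀ u : V, D.ρ a u = u → D.ρ τ u = u → u = 0 ∨ u = z := by
    intro u h1 h2
    have h3 : D.ι u ∈ A := by
      apply hAc
      apply hgen
      · exact (comm_of_fix h1).symm
      · exact (comm_of_fix h2).symm
      · exact D.ι_comm u z
    have h4 := hA2 _ h3
    rw [← D.ι_add, ← two_nsmul] at h4
    rcases hcov u (D.ι_eq_one.1 h4) with h | h | h | h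
    · exact Or.inl h
    · exact Or.inr h
    · exact absurd (h ▸ h3) heA
    · exact absurd (h ▸ h3) hzeA
  have haX : a ∈ X D := ha.1
  have hfix : ∀ v : V, D.ρ a v = v ↔ (2 : ℕ) • v = 0 := by
    intro v
    refine ⟨fun hv => ?_, fun hv => mem_X.1 haX v hv⟩
    by_contra hv2
    have hex : ∃ t, (2 ^ t : ℕ) • ((2 : ℕ) • v) = 0 := ⟨M, hM _⟩
    obtain ⟨t', ht'0, ht'⟩ : ∃ t', (2 ^ t' : ℕ) • ((2 : ℕ) • v) ≠ 0 ∧ (2 ^ (t' + 1) : ℕ) • ((2 : ℕ) • v) = 0 := by
      have h1 : Nat.find hex ≠ 0 := by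
        intro h
        have := Nat.find_spec hex
        rw [h] at this
        simp at this
        exact hv2 this
      obtain ⟨t', ht'⟩ := Nat.exists_eq_succ_of_ne_zero h1
      refine ⟨t', Nat.find_min hex (by omega), ?_⟩
      have := Nat.find_spec hex
      rw [ht'] at this
      exact this
    obtain ⟨u, hu⟩ : ∃ u, u = (2 ^ t' : ℕ) • v := ⟨_, rfl⟩
    have hau : D.ρ a u = u := by rw [hu, map_nsmul, hv]
    have h2u : (2 : ℕ) • u ≠ 0 := by
      rw [hu, smul_comm]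
      exact ht'0
    have h4u : (2 : ℕ) • (2 : ℕ) • u = 0 := by
      rw [hu, smul_comm 2 (2 ^ t'), ← mul_nsmul', ← pow_succ']
      exact ht'
    have hcomm_aτ : ∀ r : V, D.ρ a (D.ρ τ r) = D.ρ τ (D.ρ a r) := by
      intro r
      rw [← D.ρ_mul, ← D.ρ_mul, hτa.eq]
    have hττ' : ∀ r : V, D.ρ τ (D.ρ τ r) = r := by
      intro r
      rw [← D.ρ_mul, hττ, D.ρ_one]
    obtain ⟨η, hη⟩ : ∃ η, η = u + D.ρ τ u := ⟨_, rfl⟩
    have hηc := hU0 η (by rw [hη, map_add, hau, hcomm_aτ, hau]) (by rw [hη, map_add, hττ']; abel)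
    have hη2 : (2 : ℕ) • η = 0 := by
      rcases hηc with h | h
      · rw [h, smul_zero]
      · rw [h, hz2]
    have hτu : D.ρ τ u = η - u := by rw [hη]; abel
    -- `2u = z`
    have h2z : (2 : ℕ) • u = z := by
      have h1 : D.ρ a ((2 : ℕ) • u) = (2 : ℕ) • u := by rw [map_nsmul, hau]
      have h2 : D.ρ τ ((2 : ℕ) • u) = (2 : ℕ) • u := by
        rw [map_nsmul, hτu, smul_sub, hη2, zero_sub]
        exact neg_eq_of_add_eq_zero_left (by
          rw [← two_nsmul]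
          exact h4u)
      exact (hU0 _ h1 h2).resolve_left h2u
    rcases hηc with h | h
    · -- `τ u = -u`
      have h1 : D.ρ a (u + e) = u + e := by
        rw [map_add, hau, mem_X.1 haX e he2]
      have h2 : D.ρ τ (u + e) = u + e := by
        rw [map_add, hτu, h, hτe, ← h2z, two_nsmul]
        abel
      have h3 : (2 : ℕ) • (u + e) = 0 := by
        rcases hU0 _ h1 h2 with h' | h'
        · rw [h', smul_zero]
        · rw [h', hz2]
      rw [smul_add, he2, add_zero] at h3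
      exact h2u h3
    · -- `τ u = u`
      have h2 : D.ρ τ u = u := by
        rw [hτu, h, ← h2z, two_nsmul]
        abel
      have h3 : (2 : ℕ) • u = 0 := by
        rcases hU0 _ hau h2 with h' | h'
        · rw [h', smul_zero]
        · rw [h', hz2]
      exact h2u h3
  refine ⟨a, τ, z, e, ⟨haa, hfix⟩, ⟨hττ, hτX, hτa, hz0, hz2, he2, hτe, hcov, ?_⟩⟩
  intro m hm hma hmτ
  have h1 : m ∈ A := by
    apply hAc
    apply hgen _ hma hmτ
    exact comm_of_fix (mem_X.1 hm z hz2)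
  rcases hdi₀ m ⟨hm, h1⟩ with ⟨w, hw, h⟩ | ⟨w, hw, h⟩
  · exact ⟨w, hw, Or.inl h⟩
  · refine ⟨w, hw, Or.inr ?_⟩
    rw [← h, ← mul_assoc, haa, one_mul]

/-- The module form of the main case. -/
theorem secBd_of_Mod {k : ℕ} (L : Lev V k) (hk : 1 ≤ k) (D : Mod S V) : SecBd 4 S := by
  have hW2 : ∀ w : V, (2 : ℕ) • w = 0 → ∃ u, (2 : ℕ) • u = w := by
    intro w hw
    obtain ⟨j, rfl⟩ : ∃ j, k = j + 1 := ⟨k - 1, by omega⟩
    obtain ⟨v, hv⟩ := L.le w hw
    have hv' : (2 ^ (j + 1) : ℕ) • v = w := hv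
    refine ⟨(2 ^ j : ℕ) • v, ?_⟩
    rw [← mul_nsmul', ← pow_succ', hv']
  by_cases hα : ∀ w : V, (2 : ℕ) • w = 0 → D.ι w ∈ A
  · obtain ⟨a, I, hLA⟩ := exists_a_α hS hW A hA2 hA8 hAc hα
    exact secBd_of_TC (a := a) ⟨I, hS, hW, hW2⟩ (Or.inl hLA) L hk
  · obtain ⟨a, τ, z, e, I, Bd⟩ := exists_a_β hS hW A hA2 hA8 hAc hα
    exact secBd_of_TC (a := a) ⟨I, hS, hW, hW2⟩ (Or.inr ⟨τ, z, e, Bd⟩) L hk

end

end Cfsg.Agent.Lib.SelfCentE8.Sel2
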