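import Cfsg.Agent.Lib.TwoFusion.SecRank

/-!
# Abelian normal subgroups as modules

`Mod S V` packages an abelian normal self-centralizing subgroup of `S`, written additively as `V`.
-/

set_option autoImplicit false

namespace Cfsg.Agent.Lib.SelfCentE8.Setup

open Cfsg.Agent.Lib.TwoFusion.SecRank

/-- An abelian self-centralizing normal subgroup, written additively. -/
structure Mod (S V : Type*) [Group S] [AddCommGroup V] where
  ι : V → S
  ι_add : ∀ u v, ι (u + v) = ι u * ι v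
  ι_inj : Function.Injective ι
  ρ : S → V →+ V
  conj : ∀ x v, x * ι v * x⁻¹ = ι (ρ x v)
  cent : ∀ x, (∀ v, ρ x v = v) → ∃ v, x = ι v

namespace Mod

variable {S V : Type*} [Group S] [AddCommGroup V] (D : Mod S V)

@[simp] lemma ι_zero : D.ι 0 = 1 := by
  have h := D.ι_add 0 0
  rw [add_zero] at h
  exact (mul_eq_left.1 h.symm)

@[simp] lemma ι_neg (v : V) : D.ι (-v) = (D.ι v)⁻¹ := by
  rw [eq_inv_iff_mul_eq_one, ← D.ι_add, neg_add_cancel, D.ι_zero]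

lemma ι_sub (u v : V) : D.ι (u - v) = D.ι u * (D.ι v)⁻¹ := by
  rw [sub_eq_add_neg, D.ι_add, D.ι_neg]

lemma ι_eq_one {v : V} : D.ι v = 1 ↔ v = 0 :=
  ⟨fun h => D.ι_inj (h.trans D.ι_zero.symm), fun h => h ▸ D.ι_zero⟩

lemma ι_comm (u v : V) : D.ι u * D.ι v = D.ι v * D.ι u := by
  rw [← D.ι_add, ← D.ι_add, add_comm]

lemma ι_nsmul (k : ℕ) (v : V) : D.ι (k • v) = D.ι v ^ k := by
  induction k with
  | zero => simp
  | succ n ih => rw [succ_nsmul, D.ι_add, ih, pow_succ]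

@[simp] lemma ρ_mul (x y : S) (v : V) : D.ρ (x * y) v = D.ρ x (D.ρ y v) := by
  apply D.ι_inj
  rw [← D.conj, ← D.conj, ← D.conj]
  group

@[simp] lemma ρ_one (v : V) : D.ρ 1 v = v := by
  apply D.ι_inj
  rw [← D.conj]
  group

@[simp] lemma ρ_inv_ρ (x : S) (v : V) : D.ρ x⁻¹ (D.ρ x v) = v := by
  rw [← D.ρ_mul]; simp

@[simp] lemma ρ_ρ_inv (x : S) (v : V) : D.ρ x (D.ρ x⁻¹ v) = v := by
  rw [← D.ρ_mul]; simp

@[simp] lemma ρ_ι (u v : V) : D.ρ (D.ι u) v = v := by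
  apply D.ι_inj
  rw [← D.conj, D.ι_comm]
  group

lemma ρ_inj (x : S) : Function.Injective (D.ρ x) := fun u v h => by
  have := congrArg (D.ρ x⁻¹) h
  simpa using this

/-- The subgroup `ι V`. -/
def B : Subgroup S where
  carrier := Set.range D.ι
  mul_mem' := by
    rintro _ _ ⟨u, rfl⟩ ⟨v, rfl⟩
    exact ⟨u + v, D.ι_add u v⟩
  one_mem' := ⟨0, D.ι_zero⟩
  inv_mem' := by
    rintro _ ⟨u, rfl⟩
    exact ⟨-u, D.ι_neg u⟩

lemma mem_B {x : S} : x ∈ D.B ↔ ∃ v, x = D.ι v :=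
  ⟨fun ⟨v, h⟩ => ⟨v, h.symm⟩, fun ⟨v, h⟩ => ⟨v, h.symm⟩⟩

lemma ι_mem (v : V) : D.ι v ∈ D.B := ⟨v, rfl⟩

lemma mem_B_iff {x : S} : x ∈ D.B ↔ ∀ v, D.ρ x v = v := by
  constructor
  · rintro ⟨u, rfl⟩ v
    exact D.ρ_ι u v
  · intro h
    obtain ⟨v, hv⟩ := D.cent x h
    exact ⟨v, hv.symm⟩

instance B_normal : D.B.Normal := by
  constructor
  rintro _ ⟨v, rfl⟩ g
  exact ⟨D.ρ g v, (D.conj g v).symm⟩

/-- The map `x ↦ x v - v`. -/
def δ (x : S) (v : V) : V := D.ρ x v - v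

lemma δ_def (x : S) (v : V) : D.δ x v = D.ρ x v - v := rfl

lemma ρ_eq (x : S) (v : V) : D.ρ x v = v + D.δ x v := by simp [δ]

lemma δ_add (x : S) (u v : V) : D.δ x (u + v) = D.δ x u + D.δ x v := by
  simp only [δ, map_add]; abel

lemma δ_nsmul (x : S) (k : ℕ) (v : V) : D.δ x (k • v) = k • D.δ x v := by
  simp only [δ, map_nsmul, nsmul_sub]

lemma δ_zero (x : S) : D.δ x 0 = 0 := by simp [δ]

lemma δ_neg (x : S) (v : V) : D.δ x (-v) = - D.δ x v := by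
  simp only [δ, map_neg]; abel

lemma δ_sub (x : S) (u v : V) : D.δ x (u - v) = D.δ x u - D.δ x v := by
  simp only [δ, map_sub]; abel

lemma δ_mul (x y : S) (v : V) : D.δ (x * y) v = D.ρ x (D.δ y v) + D.δ x v := by
  simp only [δ, ρ_mul, map_sub]; abel

lemma δ_inv (x : S) (v : V) : D.δ x⁻¹ v = - D.ρ x⁻¹ (D.δ x v) := by
  simp only [δ, map_sub, ρ_inv_ρ]; abel

lemma δ_conj (g x : S) (v : V) : D.δ (g * x * g⁻¹) v = D.ρ g (D.δ x (D.ρ g⁻¹ v)) := by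
  simp only [δ, ρ_mul, map_sub, ρ_ρ_inv]

/-- An `S`-invariant subgroup of `V`. -/
def Inv (F : AddSubgroup V) : Prop := ∀ x, ∀ v ∈ F, D.ρ x v ∈ F

/-- The stabilizer of the section: `x` with `δ x E ⊆ F`. -/
def Stab (E F : AddSubgroup V) (hF : D.Inv F) : Subgroup S where
  carrier := {x | ∀ v ∈ E, D.δ x v ∈ F}
  mul_mem' := by
    intro x y hx hy v hv
    rw [D.δ_mul]
    exact F.add_mem (hF x _ (hy v hv)) (hx v hv)
  one_mem' := by
    intro v _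
    simp [δ]
  inv_mem' := by
    intro x hx v hv
    rw [D.δ_inv]
    exact F.neg_mem (hF _ _ (hx v hv))

lemma mem_Stab {E F : AddSubgroup V} {hF : D.Inv F} {x : S} :
    x ∈ D.Stab E F hF ↔ ∀ v ∈ E, D.δ x v ∈ F := Iff.rfl

lemma Stab_normal {E F : AddSubgroup V} (hE : D.Inv E) (hF : D.Inv F) : (D.Stab E F hF).Normal := by
  constructor
  intro x hx g v hv
  rw [D.δ_conj]
  exact hF g _ (hx _ (hE _ _ hv))

lemma B_le_Stab {E F : AddSubgroup V} (hF : D.Inv F) : D.B ≤ D.Stab E F hF := by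
  rintro _ ⟨u, rfl⟩ v _
  simp [δ, F.zero_mem]

/-- The subgroup `k V`. -/
def Dbl (k : ℕ) : AddSubgroup V := (nsmulAddMonoidHom k : V →+ V).range

/-- The subgroup of elements killed by `k`. -/
def Tor (k : ℕ) : AddSubgroup V := (nsmulAddMonoidHom k : V →+ V).ker

omit [Group S] in
lemma mem_Dbl {k : ℕ} {v : V} : v ∈ (Dbl k : AddSubgroup V) ↔ ∃ u, k • u = v := Iff.rfl

omit [Group S] in
lemma mem_Tor {k : ℕ} {v : V} : v ∈ (Tor k : AddSubgroup V) ↔ k • v = 0 := Iff.rfl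

lemma inv_Dbl (k : ℕ) : D.Inv (Dbl k) := by
  rintro x _ ⟨u, rfl⟩
  exact ⟨D.ρ x u, by simp⟩

lemma inv_Tor (k : ℕ) : D.Inv (Tor k) := by
  intro x v hv
  change k • D.ρ x v = 0
  rw [← map_nsmul, show k • v = 0 from hv, map_zero]

lemma inv_sup {E F : AddSubgroup V} (hE : D.Inv E) (hF : D.Inv F) : D.Inv (E ⊔ F) := by
  intro x v hv
  obtain ⟨e, he, f, hf, rfl⟩ := AddSubgroup.mem_sup.1 hv
  rw [map_add]
  exact AddSubgroup.add_mem_sup (hE x e he) (hF x f hf)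

lemma inv_bot : D.Inv (⊥ : AddSubgroup V) := by
  intro x v hv
  rw [AddSubgroup.mem_bot] at hv ⊢
  simp [hv]

lemma inv_top : D.Inv (⊤ : AddSubgroup V) := fun _ _ _ => trivial

end Mod

end Cfsg.Agent.Lib.SelfCentE8.Setup
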