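import Cfsg.Agent.Lib.SelfCentE8.Count

/-!
# The commutator map with an inverting involution

`V` an abelian normal self-centralizing subgroup with `V[2] ≤ 2V`, `a` an involution with
fixed points exactly `V[2]`.
-/

set_option autoImplicit false

namespace Cfsg.Agent.Lib.SelfCentE8.TCore

open Cfsg.Agent.Lib.TwoFusion.SecRank Cfsg.Agent.Lib.SelfCentE8.Setup Cfsg.Agent.Lib.SelfCentE8.Count
open Mod

variable {S V : Type*} [Group S] [AddCommGroup V] (D : Mod S V)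

include D in
lemma exists_exp [Finite S] (hS : IsPGroup 2 S) : ∃ M : ℕ, ∀ v : V, (2 ^ M : ℕ) • v = 0 := by
  obtain ⟨n, hn⟩ := IsPGroup.iff_card.1 hS
  refine ⟨n, fun v => D.ι_inj ?_⟩
  rw [D.ι_nsmul, ← hn, pow_card_eq_one', D.ι_zero]

/-- `X`: the centralizer of `V[2]`. -/
def X : Subgroup S := D.Stab (Tor 2) ⊥ D.inv_bot

/-- `S₁`: trivial on `V / 2V`. -/
def S1 : Subgroup S := D.Stab ⊤ (Dbl 2) (D.inv_Dbl 2)

/-- `T`: trivial on `V / V[2]`. -/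
def T : Subgroup S := D.Stab ⊤ (Tor 2) (D.inv_Tor 2)

/-- `S₂`: trivial modulo `4V + V[2]`. -/
def S2 : Subgroup S := D.Stab ⊤ (Dbl 4 ⊔ Tor 2) (D.inv_sup (D.inv_Dbl 4) (D.inv_Tor 2))

variable {D}

lemma mem_X {x : S} : x ∈ X D ↔ ∀ w : V, (2 : ℕ) • w = 0 → D.ρ x w = w := by
  constructor
  · intro h w hw
    have := h w hw
    rw [AddSubgroup.mem_bot, δ_def, sub_eq_zero] at this
    exact this
  · intro h w hw
    have := h w hw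
    rw [AddSubgroup.mem_bot, δ_def, this, sub_self]

lemma mem_S1 {x : S} : x ∈ S1 D ↔ ∀ v : V, ∃ u, (2 : ℕ) • u = D.δ x v :=
  ⟨fun h v => h v trivial, fun h v _ => h v⟩

lemma mem_T {x : S} : x ∈ T D ↔ ∀ v : V, (2 : ℕ) • D.δ x v = 0 :=
  ⟨fun h v => h v trivial, fun h v _ => h v⟩

lemma mem_S2 {x : S} : x ∈ S2 D ↔ ∀ v : V, ∃ u w, (2 : ℕ) • w = 0 ∧ D.δ x v = (4 : ℕ) • u + w := by
  constructor
  · intro h v
    obtain ⟨e, ⟨u, rfl⟩, w, hw, hew⟩ := AddSubgroup.mem_sup.1 (h v trivial)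
    exact ⟨u, w, hw, hew.symm⟩
  · intro h v _
    obtain ⟨u, w, hw, he⟩ := h v
    rw [he]
    exact AddSubgroup.add_mem_sup ⟨u, rfl⟩ hw

instance X_normal : (X D).Normal := D.Stab_normal (D.inv_Tor 2) D.inv_bot
instance S1_normal : (S1 D).Normal := D.Stab_normal D.inv_top (D.inv_Dbl 2)
instance T_normal : (T D).Normal := D.Stab_normal D.inv_top (D.inv_Tor 2)
instance S2_normal : (S2 D).Normal :=
  D.Stab_normal D.inv_top (D.inv_sup (D.inv_Dbl 4) (D.inv_Tor 2))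

lemma B_le_X : D.B ≤ X D := D.B_le_Stab _
lemma B_le_S1 : D.B ≤ S1 D := D.B_le_Stab _
lemma B_le_T : D.B ≤ T D := D.B_le_Stab _
lemma B_le_S2 : D.B ≤ S2 D := D.B_le_Stab _

/-- Hypotheses on the involution. -/
structure Inv2 (D : Mod S V) (a : S) : Prop where
  haa : a * a = 1
  hfix : ∀ v : V, D.ρ a v = v ↔ (2 : ℕ) • v = 0

section inv
variable {a : S} (I : Inv2 D a)
include I

lemma ρ_ρ_a (v : V) : D.ρ a (D.ρ a v) = v := by
  rw [← D.ρ_mul, I.haa, D.ρ_one]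

lemma a_inv : a⁻¹ = a := inv_eq_of_mul_eq_one_left I.haa

/-- `θ v = a v + v ∈ V[2]`. -/
lemma two_θ (v : V) : (2 : ℕ) • (D.ρ a v + v) = 0 := by
  rw [← I.hfix, map_add, ρ_ρ_a I, add_comm]

lemma ρ_a_two (v : V) : D.ρ a ((2 : ℕ) • v) = - ((2 : ℕ) • v) := by
  have h := two_θ I v
  rw [map_nsmul, eq_neg_iff_add_eq_zero, ← nsmul_add]
  exact h

lemma a_mem_X : a ∈ X D := mem_X.2 (fun w hw => (I.hfix w).2 hw)

/-- The commutator of `x` and `a` as an element of `V`. -/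
lemma exists_c {x : S} (hx : ∀ v, D.ρ x (D.ρ a v) = D.ρ a (D.ρ x v)) :
    ∃ c, x * a * x⁻¹ * a⁻¹ = D.ι c := by
  apply D.cent
  intro v
  simp only [ρ_mul]
  rw [a_inv I, hx]
  simp [ρ_ρ_a I]

lemma ρ_a_c {x : S} {c : V} (h : x * a * x⁻¹ * a⁻¹ = D.ι c) : D.ρ a c = - c := by
  apply D.ι_inj
  have ainv := a_inv I
  rw [← D.conj, ← h, D.ι_neg, ← h]
  calc a * (x * a * x⁻¹ * a⁻¹) * a⁻¹ = a * x * a * x⁻¹ * (a⁻¹ * a⁻¹) := by group
    _ = a * x * a * x⁻¹ := by rw [ainv, I.haa, mul_one]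
    _ = (x * a * x⁻¹ * a⁻¹)⁻¹ := by
      have : (x * a * x⁻¹ * a⁻¹)⁻¹ = a * x * a⁻¹ * x⁻¹ := by group
      rw [this, ainv]

omit I in
lemma c_mul {x y : S} {c d : V} (hx : x * a * x⁻¹ * a⁻¹ = D.ι c) (hy : y * a * y⁻¹ * a⁻¹ = D.ι d) :
    (x * y) * a * (x * y)⁻¹ * a⁻¹ = D.ι (D.ρ x d + c) := by
  rw [D.ι_add, ← D.conj, ← hy, ← hx]
  group

lemma c_ι (b : V) : D.ι b * a * (D.ι b)⁻¹ * a⁻¹ = D.ι (b - D.ρ a b) := by
  rw [D.ι_sub, ← D.conj]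
  group

lemma c_ι_mul {x : S} {c : V} (hx : x * a * x⁻¹ * a⁻¹ = D.ι c) (b : V) :
    (D.ι b * x) * a * (D.ι b * x)⁻¹ * a⁻¹ = D.ι (c + (b - D.ρ a b)) := by
  have h := c_mul (c_ι I b) hx
  rw [h, D.ρ_ι]

lemma comm_of_c {x : S} (h : x * a * x⁻¹ * a⁻¹ = 1) : x * a = a * x := by
  have h1 : x * a * x⁻¹ = a := by
    rwa [mul_inv_eq_one] at h
  calc x * a = x * a * x⁻¹ * x := by group
    _ = a * x := by rw [h1]

/-- Squares: the relation between `x²` and `c`. -/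
lemma square_rel {x : S} {b c : V} (hc : x * a * x⁻¹ * a⁻¹ = D.ι c) (hb : x * x = D.ι b) :
    D.ρ a b - b = -((2 : ℕ) • c) - D.δ x c := by
  have ainv := a_inv I
  have h1 : a * x * a⁻¹ = (D.ι c)⁻¹ * x := by
    rw [← hc]
    have e : (x * a * x⁻¹ * a⁻¹)⁻¹ * x = a * x * a⁻¹ * x⁻¹ * x := by group
    rw [e]
    group
  have h2 : D.ι (D.ρ a b) = D.ι (-c) * D.ι (D.ρ x (-c)) * D.ι b := by
    rw [← D.conj, ← D.conj, ← hb, D.ι_neg]
    calc a * (x * x) * a⁻¹ = (a * x * a⁻¹) * (a * x * a⁻¹) := by group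
      _ = (D.ι c)⁻¹ * x * ((D.ι c)⁻¹ * x) := by rw [h1]
      _ = _ := by group
  rw [← D.ι_add, ← D.ι_add] at h2
  have h3 := D.ι_inj h2
  rw [h3, map_neg, D.ρ_eq x c, two_nsmul]
  abel

end inv

/-- The branch `V[2] ≤ 2V`. -/
structure TC (D : Mod S V) (a : S) : Prop extends Inv2 D a where
  hS : IsPGroup 2 S
  hW : Nat.card (Tor 2 : AddSubgroup V) = 4
  hW2 : ∀ w : V, (2 : ℕ) • w = 0 → ∃ u, (2 : ℕ) • u = w

section tc
variable {a : S} (C : TC D a)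
include C

lemma T_le_X : T D ≤ X D := by
  refine fun x hx => mem_X.2 (fun w hw => ?_)
  obtain ⟨u, rfl⟩ := C.hW2 w hw
  have h := mem_T.1 hx u
  rw [← D.δ_nsmul, δ_def, sub_eq_zero] at h
  exact h

lemma comm_of_Y {y : S} (hX : y ∈ X D) (h1 : y ∈ S1 D) (v : V) :
    D.ρ y (D.ρ a v) = D.ρ a (D.ρ y v) := by
  have hθ := two_θ C.toInv2 v
  have hy := mem_X.1 hX _ hθ
  obtain ⟨u, hu⟩ := mem_S1.1 h1 v
  have h2 := ρ_a_two C.toInv2 u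
  rw [hu] at h2
  rw [map_add, D.ρ_eq y v] at hy
  rw [D.ρ_eq y v, map_add, h2]
  have : D.ρ y (D.ρ a v) = D.ρ a v + v - (v + D.δ y v) := by
    rw [← hy]; abel
  rw [this]; abel

lemma S2_le_S1 : S2 D ≤ S1 D := by
  refine fun x hx => mem_S1.2 (fun v => ?_)
  obtain ⟨u, w, hw, he⟩ := mem_S2.1 hx v
  obtain ⟨t, ht⟩ := C.hW2 w hw
  refine ⟨(2 : ℕ) • u + t, ?_⟩
  rw [he, nsmul_add, ht, smul_smul]
  norm_num

lemma T_le_S2 : T D ≤ S2 D := by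
  refine fun x hx => mem_S2.2 (fun v => ⟨0, D.δ x v, mem_T.1 hx v, by simp⟩)

lemma surj_sub [Finite V] {w : V} (hw : ∃ u, (2 : ℕ) • u = w) : ∃ u, D.ρ a u - u = w := by
  classical
  let f : V →+ V := (D.ρ a) - AddMonoidHom.id V
  have hk : f.ker = (Tor 2 : AddSubgroup V) := by
    ext v
    rw [AddMonoidHom.mem_ker, mem_Tor, ← C.hfix]
    simp [f, sub_eq_zero]
  have hr : f.range ≤ (Dbl 2 : AddSubgroup V) := by
    rintro _ ⟨v, rfl⟩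
    have h1 := two_θ C.toInv2 v
    obtain ⟨t, ht⟩ := C.hW2 _ h1
    refine ⟨t - v, ?_⟩
    change (2 : ℕ) • (t - v) = D.ρ a v - v
    rw [nsmul_sub, ht, two_nsmul]
    abel
  have h1 : Nat.card f.ker * Nat.card f.range = Nat.card V := by
    rw [← AddSubgroup.index_ker]
    exact AddSubgroup.card_mul_index _
  have h2 := card_Tor_mul_Dbl (V := V)
  rw [hk, C.hW] at h1
  rw [C.hW] at h2
  have h3 : Nat.card f.range = Nat.card (Dbl 2 : AddSubgroup V) := by omega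
  have h4 : f.range = (Dbl 2 : AddSubgroup V) := AddSubgroup.eq_of_le_of_card_ge hr (le_of_eq h3.symm)
  have h5 : w ∈ f.range := by
    rw [h4]
    exact hw
  obtain ⟨u, hu⟩ := h5
  exact ⟨u, hu⟩

/-- The hypothesis on centralizers of `a`. -/
def HL (D : Mod S V) (a : S) : Prop :=
  ∀ x ∈ X D, x ∈ S2 D → x * a = a * x → ∃ w : V, (2 : ℕ) • w = 0 ∧ x = D.ι w

variable [Finite V]

lemma exists_c_of_S2 {x : S} (hX : x ∈ X D) (h2 : x ∈ S2 D) : ∃ c, x * a * x⁻¹ * a⁻¹ = D.ι c :=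
  exists_c C.toInv2 (comm_of_Y C hX (S2_le_S1 C h2))

lemma mem_B_of_c (hL : HL D a) {x : S} (hX : x ∈ X D) (h2 : x ∈ S2 D) {c : V}
    (hc : x * a * x⁻¹ * a⁻¹ = D.ι c) (hc2 : ∃ u, (2 : ℕ) • u = c) : x ∈ D.B := by
  obtain ⟨u, hu⟩ := surj_sub C hc2
  have h1 := c_ι_mul C.toInv2 hc u
  have h0 : c + (u - D.ρ a u) = 0 := by rw [← hu]; abel
  rw [h0, D.ι_zero] at h1
  have h3 := comm_of_c C.toInv2 h1
  have hbX : D.ι u * x ∈ X D := (X D).mul_mem (B_le_X (D.ι_mem u)) hX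
  have hb2 : D.ι u * x ∈ S2 D := (S2 D).mul_mem (B_le_S2 (D.ι_mem u)) h2
  obtain ⟨w, _, hw⟩ := hL _ hbX hb2 h3
  have : x = D.ι (-u + w) := by
    rw [D.ι_add, D.ι_neg, ← hw]
    group
  exact D.mem_B.2 ⟨_, this⟩

lemma sq_mem_B (hL : HL D a) {x : S} (hX : x ∈ X D) (h2 : x ∈ S2 D) : x * x ∈ D.B := by
  obtain ⟨c, hc⟩ := exists_c_of_S2 C hX h2
  have h1 := c_mul hc hc
  refine mem_B_of_c C hL ((X D).mul_mem hX hX) ((S2 D).mul_mem h2 h2) h1 ?_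
  obtain ⟨u, hu⟩ := mem_S1.1 (S2_le_S1 C h2) c
  refine ⟨c + u, ?_⟩
  rw [nsmul_add, hu, D.ρ_eq x c, two_nsmul]
  abel

/-- The key: `X ∩ S₂ = T`. -/
lemma mem_T_of_S2 [Finite S] (hL : HL D a) {x : S} (hX : x ∈ X D) (h2 : x ∈ S2 D) : x ∈ T D := by
  obtain ⟨M, hM⟩ := exists_exp D C.hS
  have hsq := D.mem_B_iff.1 (sq_mem_B C hL hX h2)
  have step : ∀ v, ∃ u, (2 : ℕ) • D.δ x v = (4 : ℕ) • D.δ x u := by
    intro v
    obtain ⟨u, w, hw, he⟩ := mem_S2.1 h2 v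
    refine ⟨-u, ?_⟩
    have h3 := hsq v
    rw [D.ρ_mul, D.ρ_eq x v, map_add, D.ρ_eq x v, D.ρ_eq x (D.δ x v), he, D.δ_add, D.δ_nsmul] at h3
    have h4 : D.δ x w = 0 := by
      rw [δ_def, mem_X.1 hX w hw, sub_self]
    rw [h4, ← he] at h3
    rw [D.δ_neg, two_nsmul, smul_neg]
    have e : D.δ x v + D.δ x v = v + D.δ x v + (D.δ x v + ((4 : ℕ) • D.δ x u + 0)) - v - (4 : ℕ) • D.δ x u := by
      abel
    rw [e, h3]
    abel
  have iter : ∀ k : ℕ, ∀ v, ∃ u, (2 : ℕ) • D.δ x v = (2 ^ (k + 1) : ℕ) • D.δ x u := by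
    intro k
    induction k with
    | zero => exact fun v => ⟨v, by norm_num⟩
    | succ k ih =>
      intro v
      obtain ⟨u, hu⟩ := ih v
      obtain ⟨u', hu'⟩ := step u
      refine ⟨u', ?_⟩
      rw [hu, pow_succ, mul_nsmul', hu', ← mul_nsmul']
      congr 1
      rw [pow_succ]
      ring
  refine mem_T.2 (fun v => ?_)
  obtain ⟨u, hu⟩ := iter M v
  rw [hu, pow_succ, mul_nsmul', hM]

/-- Data at elements of `T`. -/
lemma T_data [Finite S] (hL : HL D a) {x : S} (hx : x ∈ T D) :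
    ∃ c b, x * a * x⁻¹ * a⁻¹ = D.ι c ∧ x * x = D.ι b ∧ (4 : ℕ) • (b - c) = 0 := by
  have hX := T_le_X C hx
  have h2 := T_le_S2 C hx
  obtain ⟨c, hc⟩ := exists_c_of_S2 C hX h2
  obtain ⟨b, hb⟩ := D.mem_B.1 (sq_mem_B C hL hX h2)
  refine ⟨c, b, hc, hb, ?_⟩
  have h1 := square_rel C.toInv2 hc hb
  have h3 := two_θ C.toInv2 b
  have h4 := mem_T.1 hx c
  have e : (4 : ℕ) • (b - c) = (2 : ℕ) • (D.ρ a b + b) + (2 : ℕ) • D.δ x c - (2 : ℕ) • (D.ρ a b - b + (2 : ℕ) • c + D.δ x c) := by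
    simp only [nsmul_add, nsmul_sub, smul_smul]
    norm_num
    abel
  have h5 : D.ρ a b - b + (2 : ℕ) • c + D.δ x c = 0 := by
    rw [h1]; abel
  rw [e, h3, h4, h5]
  simp

/-- Difference of elements of `T` with congruent `c`. -/
lemma inv_mul_mem_B [Finite S] (hL : HL D a) {x y : S} (hx : x ∈ T D) (hy : y ∈ T D) {c d : V}
    (hc : x * a * x⁻¹ * a⁻¹ = D.ι c) (hd : y * a * y⁻¹ * a⁻¹ = D.ι d)
    (hcd : ∃ u, (2 : ℕ) • u = c - d) : x⁻¹ * y ∈ D.B := by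
  have hx' : x⁻¹ ∈ T D := (T D).inv_mem hx
  have hc' : x⁻¹ * a * x⁻¹⁻¹ * a⁻¹ = D.ι (- D.ρ x⁻¹ c) := by
    rw [D.ι_neg, ← D.conj, ← hc]
    group
  have h1 := c_mul hc' hd
  have hm := (T D).mul_mem hx' hy
  refine mem_B_of_c C hL (T_le_X C hm) (T_le_S2 C hm) h1 ?_
  obtain ⟨u, hu⟩ := hcd
  refine ⟨- D.ρ x⁻¹ u, ?_⟩
  rw [smul_neg, ← map_nsmul, hu, map_sub]
  abel

end tc

end Cfsg.Agent.Lib.SelfCentE8.TCore
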