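import Cfsg.Agent.Lib.SelfCentE8.TCore

/-!
# Counting inside `T`
-/

set_option autoImplicit false
set_option linter.unusedSectionVars false

namespace Cfsg.Agent.Lib.SelfCentE8.TCount

open Cfsg.Agent.Lib.TwoFusion.SecRank Cfsg.Agent.Lib.SelfCentE8.Setup Cfsg.Agent.Lib.SelfCentE8.Count
open Cfsg.Agent.Lib.SelfCentE8.TCore
open Mod

section klein
variable {V : Type*} [AddCommGroup V] [Finite V]

/-- `Q = V / 2V`. -/
abbrev Q (V : Type*) [AddCommGroup V] := V ⧸ (Dbl 2 : AddSubgroup V)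

/-- The quotient map. -/
abbrev mkQ (v : V) : Q V := QuotientAddGroup.mk v

lemma mkQ_eq_zero {v : V} : mkQ v = 0 ↔ v ∈ (Dbl 2 : AddSubgroup V) :=
  QuotientAddGroup.eq_zero_iff v

lemma mkQ_eq {u v : V} : mkQ u = mkQ v ↔ u - v ∈ (Dbl 2 : AddSubgroup V) := by
  rw [← sub_eq_zero, ← QuotientAddGroup.mk_sub]
  exact mkQ_eq_zero

lemma Q_two (q : Q V) : q + q = 0 := by
  obtain ⟨v, rfl⟩ := QuotientAddGroup.mk_surjective q
  rw [← QuotientAddGroup.mk_add, ← two_nsmul]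
  exact mkQ_eq_zero.2 ⟨v, rfl⟩

lemma card_Q (hW : Nat.card (Tor 2 : AddSubgroup V) = 4) : Nat.card (Q V) = 4 := by
  have h1 := card_Tor_mul_Dbl (V := V)
  have h2 := AddSubgroup.card_mul_index (Dbl 2 : AddSubgroup V)
  rw [hW] at h1
  have h3 : Nat.card (Dbl 2 : AddSubgroup V) ≠ 0 := Nat.card_pos.ne'
  have h4 : (Dbl 2 : AddSubgroup V).index = 4 := by
    apply Nat.eq_of_mul_eq_mul_left (Nat.pos_of_ne_zero h3)
    rw [h2, ← h1, mul_comm]
  exact h4

/-- Klein cover. -/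
lemma klein_cover {G : Type*} [AddCommGroup G] [Finite G] (h4 : Nat.card G = 4) {p q : G}
    (h2 : ∀ x : G, x + x = 0) (hp : p ≠ 0) (hq : q ≠ 0) (hpq : p ≠ q) (r : G) :
    r = 0 ∨ r = p ∨ r = q ∨ r = p + q := by
  classical
  have := Fintype.ofFinite G
  have hc : Fintype.card G = 4 := by rwa [← Nat.card_eq_fintype_card]
  have hpq0 : p + q ≠ 0 := by
    intro h
    apply hpq
    have := h2 q
    exact add_right_cancel (h.trans this.symm)
  have hpq1 : p + q ≠ p := by simpa using hq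
  have hpq2 : p + q ≠ q := by simpa using hp
  have hS : ({0, p, q, p + q} : Finset G) = Finset.univ := by
    apply Finset.eq_univ_of_card
    rw [hc]
    rw [Finset.card_insert_of_notMem, Finset.card_insert_of_notMem, Finset.card_insert_of_notMem,
      Finset.card_singleton]
    · simpa using hpq2.symm
    · simp only [Finset.mem_insert, Finset.mem_singleton]
      push Not
      exact ⟨hpq, hpq1.symm⟩
    · simp only [Finset.mem_insert, Finset.mem_singleton]
      push Not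
      exact ⟨hp.symm, hq.symm, hpq0.symm⟩
  have hr : r ∈ ({0, p, q, p + q} : Finset G) := hS ▸ Finset.mem_univ r
  simpa using hr

end klein

variable {S V : Type*} [Group S] [AddCommGroup V] {D : Mod S V}

/-- The image of `K₀` in `V/2V`. -/
abbrev Im (D : Mod S V) (K : Subgroup S) : AddSubgroup (Q V) := (pull D K).map (QuotientAddGroup.mk' _)

lemma card_K0 [Finite V] (K₀ : AddSubgroup V) :
    Nat.card K₀ = Nat.card (K₀ ⊓ Dbl 2 : AddSubgroup V) * Nat.card (K₀.map (QuotientAddGroup.mk' (Dbl 2 : AddSubgroup V))) := by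
  let f : K₀ →+ Q V := (QuotientAddGroup.mk' (Dbl 2 : AddSubgroup V)).comp K₀.subtype
  have h1 : Nat.card f.ker * Nat.card f.range = Nat.card K₀ := by
    rw [← AddSubgroup.index_ker]
    exact AddSubgroup.card_mul_index _
  have h2 : f.range = K₀.map (QuotientAddGroup.mk' (Dbl 2 : AddSubgroup V)) := by
    rw [AddMonoidHom.range_comp, AddSubgroup.range_subtype]
  have h3 : Nat.card f.ker = Nat.card (K₀ ⊓ Dbl 2 : AddSubgroup V) := by
    refine Nat.card_congr (Equiv.ofBijective (fun u : f.ker => (⟨((u : K₀) : V), (u : K₀).2, ?_⟩ : (K₀ ⊓ Dbl 2 : AddSubgroup V))) ⟨?_, ?_⟩)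
    · have := u.2
      rw [AddMonoidHom.mem_ker] at this
      exact mkQ_eq_zero.1 this
    · intro u v h
      exact Subtype.ext (Subtype.ext (congrArg (fun w : (K₀ ⊓ Dbl 2 : AddSubgroup V) => (w : V)) h))
    · rintro ⟨v, hv1, hv2⟩
      refine ⟨⟨⟨v, hv1⟩, ?_⟩, rfl⟩
      rw [AddMonoidHom.mem_ker]
      exact mkQ_eq_zero.2 hv2
  rw [← h1, h2, h3]

section count
variable [Finite S] [Finite V] {a : S} (C : TC D a)
include C

lemma T_count {H K : Subgroup S} (hs : ∀ x ∈ H, x * x ∈ K) {t : ℕ}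
    (hr : D.B.relIndex (T D ⊓ H) ≤ t * Nat.card (Im D K)) :
    Nat.card (T D ⊓ H : Subgroup S) ≤ 4 * t * Nat.card (T D ⊓ K : Subgroup S) := by
  have hBT : D.B ≤ T D := B_le_T
  have h1 : Nat.card (T D ⊓ H : Subgroup S) = D.B.relIndex (T D ⊓ H) * Nat.card (pull D H) := by
    rw [card_eq_relIndex_mul_inf D.B (T D ⊓ H), card_pull]
    congr 2
    rw [← inf_assoc, inf_of_le_left hBT]
  have h2 : Nat.card (pull D H) ≤ 4 * Nat.card (pull D K ⊓ Dbl 2 : AddSubgroup V) := by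
    rw [← C.hW]
    apply card_le_of_double
    intro v hv
    refine ⟨?_, ⟨v, rfl⟩⟩
    have h3 := hs _ hv
    change D.ι ((2 : ℕ) • v) ∈ K
    rw [two_nsmul, D.ι_add]
    exact h3
  have h3 := card_K0 (pull D K)
  have h4 : Nat.card (pull D K) ≤ Nat.card (T D ⊓ K : Subgroup S) := by
    rw [card_pull]
    exact Subgroup.card_le_of_le (inf_le_inf_right _ hBT)
  rw [h1]
  calc D.B.relIndex (T D ⊓ H) * Nat.card (pull D H)
      ≤ (t * Nat.card (Im D K)) * (4 * Nat.card (pull D K ⊓ Dbl 2 : AddSubgroup V)) := Nat.mul_le_mul hr h2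
    _ = 4 * t * (Nat.card (pull D K ⊓ Dbl 2 : AddSubgroup V) * Nat.card (Im D K)) := by ring
    _ = 4 * t * Nat.card (pull D K) := by rw [← h3]
    _ ≤ _ := Nat.mul_le_mul_left _ h4

/-- When `V[4] ≤ 2V` squares detect `T / B`. -/
lemma hr_Ω (hL : HL D a) (hΩ : ∀ f : V, (4 : ℕ) • f = 0 → f ∈ (Dbl 2 : AddSubgroup V)) {H K : Subgroup S}
    (hs : ∀ x ∈ H, x * x ∈ K) : D.B.relIndex (T D ⊓ H) ≤ Nat.card (Im D K) := by
  classical
  have hdata : ∀ x ∈ T D ⊓ H, ∃ b, x * x = D.ι b ∧ b ∈ pull D K := by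
    intro x hx
    obtain ⟨c, b, _, hb, _⟩ := T_data C hL hx.1
    exact ⟨b, hb, by rw [mem_pull, ← hb]; exact hs x hx.2⟩
  apply relIndex_le_of_fun D.B (T D ⊓ H) (X := Im D K) (fun x => if hx : x ∈ T D ⊓ H then
    ⟨mkQ (Classical.choose (hdata x hx)), _, (Classical.choose_spec (hdata x hx)).2, rfl⟩ else 0)
  intro x hx y hy hf
  simp only [hx, hy, dif_pos, Subtype.mk.injEq] at hf
  obtain ⟨h1, h2⟩ := Classical.choose_spec (hdata x hx)
  obtain ⟨h3, h4⟩ := Classical.choose_spec (hdata y hy)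
  set b := Classical.choose (hdata x hx)
  set b' := Classical.choose (hdata y hy)
  obtain ⟨c, b₁, hc, hb₁, h5⟩ := T_data C hL hx.1
  obtain ⟨d, b₂, hd, hb₂, h6⟩ := T_data C hL hy.1
  have e1 : b₁ = b := D.ι_inj (hb₁.symm.trans h1)
  have e2 : b₂ = b' := D.ι_inj (hb₂.symm.trans h3)
  subst e1 e2
  refine inv_mul_mem_B C hL hx.1 hy.1 hc hd ?_
  have h7 := hΩ _ h5
  have h8 := hΩ _ h6
  have h9 := mkQ_eq.1 (congrArg Subtype.val hf)
  have e : c - d = (b - b') - (b - c) + (b' - d) := by abel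
  change c - d ∈ (Dbl 2 : AddSubgroup V)
  rw [e]
  exact (Dbl 2).add_mem ((Dbl 2).sub_mem h9 h7) h8

end count

end Cfsg.Agent.Lib.SelfCentE8.TCount
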