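import Cfsg.Agent.Lib.TwoFusion.SecRank
import Cfsg.Agent.Lib.PGroups.MaximalClass

/-!
# Elementary abelian normal subgroups: fixed points of an involution
-/

set_option autoImplicit false

namespace Cfsg.Agent.Lib.SelfCentE8.Tools49

open Subgroup

variable {S : Type*} [Group S]

/-- Fixed points of conjugation by `x` in `W`. -/
def fix (W : Subgroup S) (x : S) : Subgroup S := W ⊓ centralizer ({x} : Set S)

lemma mem_fix {W : Subgroup S} {x e : S} : e ∈ fix W x ↔ e ∈ W ∧ x * e = e * x := by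
  unfold fix
  rw [mem_inf, mem_centralizer_singleton_iff]
  constructor
  · rintro ⟨h, h'⟩
    exact ⟨h, h'.symm⟩
  · rintro ⟨h, h'⟩
    exact ⟨h, h'.symm⟩

lemma fix_le {W : Subgroup S} {x : S} : fix W x ≤ W := inf_le_left

lemma fix_mono {W W' : Subgroup S} (h : W ≤ W') (x : S) : fix W x ≤ fix W' x :=
  inf_le_inf_right _ h

lemma inv_eq_self {W : Subgroup S} (hW : ∀ w ∈ W, w * w = 1) {w : S} (hw : w ∈ W) : w⁻¹ = w :=
  inv_eq_of_mul_eq_one_left (hW w hw)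

lemma comm_of_sq {W : Subgroup S} (hW : ∀ w ∈ W, w * w = 1) {u v : S} (hu : u ∈ W) (hv : v ∈ W) :
    u * v = v * u := by
  have h1 : (u * v)⁻¹ = u * v := inv_eq_self hW (W.mul_mem hu hv)
  rw [mul_inv_rev, inv_eq_self hW hu, inv_eq_self hW hv] at h1
  exact h1.symm

/-- The map `w ↦ w * (x * w * x⁻¹)` as a homomorphism on an elementary abelian subgroup
normalized by `x`. -/
def phi (W : Subgroup S) (x : S) (hW : ∀ w ∈ W, w * w = 1) (hx : ∀ w ∈ W, x * w * x⁻¹ ∈ W) :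
    W →* W where
  toFun w := ⟨w.1 * (x * w.1 * x⁻¹), W.mul_mem w.2 (hx _ w.2)⟩
  map_one' := by
    ext
    simp
  map_mul' := by
    rintro ⟨a, ha⟩ ⟨b, hb⟩
    ext
    have h1 : x * (a * b) * x⁻¹ = (x * a * x⁻¹) * (x * b * x⁻¹) := by group
    change a * b * (x * (a * b) * x⁻¹) = a * (x * a * x⁻¹) * (b * (x * b * x⁻¹))
    rw [h1]
    calc a * b * ((x * a * x⁻¹) * (x * b * x⁻¹))
        = a * (b * (x * a * x⁻¹)) * (x * b * x⁻¹) := by group
      _ = a * ((x * a * x⁻¹) * b) * (x * b * x⁻¹) := by rw [comm_of_sq hW hb (hx a ha)]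
      _ = _ := by group

lemma mem_ker_phi {W : Subgroup S} {x : S} (hW : ∀ w ∈ W, w * w = 1)
    (hx : ∀ w ∈ W, x * w * x⁻¹ ∈ W) (w : W) :
    w ∈ (phi W x hW hx).ker ↔ w.1 ∈ fix W x := by
  rw [MonoidHom.mem_ker, mem_fix]
  constructor
  · intro h
    have h1 : w.1 * (x * w.1 * x⁻¹) = 1 := congrArg Subtype.val h
    have h2 : x * w.1 * x⁻¹ = w.1 := by
      have h3 := eq_inv_of_mul_eq_one_right h1
      rw [h3, inv_eq_self hW w.2]
    refine ⟨w.2, ?_⟩
    calc x * w.1 = x * w.1 * x⁻¹ * x := by group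
      _ = w.1 * x := by rw [h2]
  · rintro ⟨_, h⟩
    ext
    change w.1 * (x * w.1 * x⁻¹) = 1
    rw [h, mul_inv_cancel_right]
    exact hW _ w.2

lemma card_ker_phi {W : Subgroup S} {x : S} (hW : ∀ w ∈ W, w * w = 1)
    (hx : ∀ w ∈ W, x * w * x⁻¹ ∈ W) :
    Nat.card (phi W x hW hx).ker = Nat.card (fix W x) := by
  refine Nat.card_congr ⟨fun w => ⟨w.1.1, (mem_ker_phi hW hx w.1).1 w.2⟩,
    fun w => ⟨⟨w.1, fix_le w.2⟩, (mem_ker_phi hW hx _).2 w.2⟩, ?_, ?_⟩
  · intro w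
    rfl
  · intro w
    rfl

lemma card_eq_ker_mul_range {W : Subgroup S} {x : S} (hW : ∀ w ∈ W, w * w = 1)
    (hx : ∀ w ∈ W, x * w * x⁻¹ ∈ W) :
    Nat.card W = Nat.card (fix W x) * Nat.card (phi W x hW hx).range := by
  rw [← card_ker_phi hW hx, ← Subgroup.index_ker]
  exact (Subgroup.card_mul_index _).symm

/-- If the `1 + x` image of `W` lies in `K`, then `|W| ≤ |C_W(x)| |K ∩ W|`. -/
theorem card_le_fix_mul [Finite S] {W K : Subgroup S} {x : S} (hW : ∀ w ∈ W, w * w = 1)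
    (hx : ∀ w ∈ W, x * w * x⁻¹ ∈ W) (hK : ∀ w ∈ W, w * (x * w * x⁻¹) ∈ K) :
    Nat.card W ≤ Nat.card (fix W x) * Nat.card (K ⊓ W : Subgroup S) := by
  rw [card_eq_ker_mul_range hW hx]
  apply Nat.mul_le_mul_left
  refine Nat.card_le_card_of_injective
    (fun y : (phi W x hW hx).range => (⟨y.1.1, ?_, y.1.2⟩ : (K ⊓ W : Subgroup S))) ?_
  · obtain ⟨w, hw⟩ := y.2
    rw [← hw]
    exact hK _ w.2
  · intro y y' h
    exact Subtype.ext (Subtype.ext (congrArg (fun t : (K ⊓ W : Subgroup S) => t.1) h))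

/-- For an involution `x`: `|W| ≤ |C_W(x)|²`. -/
theorem card_le_sq [Finite S] {W : Subgroup S} {x : S} (hW : ∀ w ∈ W, w * w = 1)
    (hx : ∀ w ∈ W, x * w * x⁻¹ ∈ W) (hxx : x * x = 1) :
    Nat.card W ≤ Nat.card (fix W x) ^ 2 := by
  have h := card_le_fix_mul (K := fix W x) hW hx (by
    intro w hw
    rw [mem_fix]
    refine ⟨W.mul_mem hw (hx w hw), ?_⟩
    have hxi : x⁻¹ = x := inv_eq_of_mul_eq_one_left hxx
    have h2 : x * (x * w * x⁻¹) * x⁻¹ = w := by
      rw [hxi]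
      calc x * (x * w * x) * x = (x * x) * w * (x * x) := by group
        _ = w := by rw [hxx]; group
    have h3 : x * (w * (x * w * x⁻¹)) = (x * w * x⁻¹) * w * x := by
      calc x * (w * (x * w * x⁻¹)) = (x * w * x⁻¹) * (x * (x * w * x⁻¹) * x⁻¹) * x := by group
        _ = _ := by rw [h2]
    rw [h3, comm_of_sq hW (hx w hw) hw])
  have h2 : fix W x ⊓ W = fix W x := inf_eq_left.2 fix_le
  rw [h2] at h
  rw [sq]
  exact h

/-- If `|W| = |C_W(x)|²` then `C_W(x)` is the `1 + x` image of `W`. -/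
theorem exists_of_card_eq [Finite S] {W : Subgroup S} {x : S} (hW : ∀ w ∈ W, w * w = 1)
    (hx : ∀ w ∈ W, x * w * x⁻¹ ∈ W) (hxx : x * x = 1)
    (hc : Nat.card W = Nat.card (fix W x) ^ 2) {f : S} (hf : f ∈ fix W x) :
    ∃ g ∈ W, f = g * (x * g * x⁻¹) := by
  classical
  have hxi : x⁻¹ = x := inv_eq_of_mul_eq_one_left hxx
  have h1 := card_eq_ker_mul_range (x := x) hW hx
  have hpos : 0 < Nat.card (fix W x) := Nat.card_pos
  have h2 : Nat.card (phi W x hW hx).range = Nat.card (fix W x) := by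
    rw [hc, sq] at h1
    exact (Nat.eq_of_mul_eq_mul_left hpos h1).symm
  -- the range is inside the fixed points
  let T : Subgroup W := (fix W x).subgroupOf W
  have hle : (phi W x hW hx).range ≤ T := by
    rintro _ ⟨w, rfl⟩
    rw [Subgroup.mem_subgroupOf, mem_fix]
    refine ⟨(phi W x hW hx w).2, ?_⟩
    change x * (w.1 * (x * w.1 * x⁻¹)) = (w.1 * (x * w.1 * x⁻¹)) * x
    have h5 : x * (x * w.1 * x⁻¹) * x⁻¹ = w.1 := by
      rw [hxi]
      calc x * (x * w.1 * x) * x = (x * x) * w.1 * (x * x) := by group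
        _ = w.1 := by rw [hxx]; group
    calc x * (w.1 * (x * w.1 * x⁻¹))
        = (x * w.1 * x⁻¹) * (x * (x * w.1 * x⁻¹) * x⁻¹) * x := by group
      _ = (x * w.1 * x⁻¹) * w.1 * x := by rw [h5]
      _ = _ := by rw [comm_of_sq hW (hx _ w.2) w.2]
  have hT : Nat.card T = Nat.card (fix W x) := by
    exact Nat.card_congr (Subgroup.subgroupOfEquivOfLe fix_le).toEquiv
  have heq : (phi W x hW hx).range = T :=
    Subgroup.eq_of_le_of_card_ge hle (by rw [hT, h2])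
  have hfT : (⟨f, fix_le hf⟩ : W) ∈ T := by
    rw [Subgroup.mem_subgroupOf]
    exact hf
  rw [← heq] at hfT
  obtain ⟨g, hg⟩ := hfT
  refine ⟨g.1, g.2, ?_⟩
  exact (congrArg Subtype.val hg).symm

end Cfsg.Agent.Lib.SelfCentE8.Tools49
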