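import Cfsg.Agent.Lib.SelfCentE8.Level

/-!
# The map `X̂ : S₁ → End (V / 2V)` when `V[4] ≤ 2V`
-/

set_option autoImplicit false
set_option linter.unusedSectionVars false

namespace Cfsg.Agent.Lib.SelfCentE8.Xhat

open Cfsg.Agent.Lib.TwoFusion.SecRank Cfsg.Agent.Lib.SelfCentE8.Setup Cfsg.Agent.Lib.SelfCentE8.Count
open Cfsg.Agent.Lib.SelfCentE8.TCore Cfsg.Agent.Lib.SelfCentE8.TCount Cfsg.Agent.Lib.SelfCentE8.Gamma
open Cfsg.Agent.Lib.SelfCentE8.Level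
open Mod

variable {S V : Type*} [Group S] [AddCommGroup V] {D : Mod S V}

lemma mkQ_add (u v : V) : mkQ (u + v) = mkQ u + mkQ v := rfl
lemma mkQ_neg (u : V) : mkQ (-u) = - mkQ u := rfl

open Classical in
/-- "Half of `δ y v`" modulo `2V`. -/
noncomputable def Xv (D : Mod S V) (y : S) (v : V) : Q V :=
  if h : ∃ u, (2 : ℕ) • u = D.δ y v then mkQ (Classical.choose h) else 0

/-- On the quotient. -/
noncomputable def XQ (D : Mod S V) (y : S) (q : Q V) : Q V := Xv D y (Quotient.out q)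

section
variable [Finite V]

lemma sub_mem_of_two (hW2 : ∀ w : V, (2 : ℕ) • w = 0 → ∃ u, (2 : ℕ) • u = w) {u u' : V}
    (h : (2 : ℕ) • u = (2 : ℕ) • u') : mkQ u = mkQ u' := by
  apply mkQ_eq.2
  apply hW2
  rw [smul_sub, h, sub_self]

variable (hW2 : ∀ w : V, (2 : ℕ) • w = 0 → ∃ u, (2 : ℕ) • u = w)
include hW2

lemma Xv_eq {y : S} {v u : V} (hu : (2 : ℕ) • u = D.δ y v) : Xv D y v = mkQ u := by
  have h : ∃ u, (2 : ℕ) • u = D.δ y v := ⟨u, hu⟩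
  rw [Xv, dif_pos h]
  exact sub_mem_of_two hW2 ((Classical.choose_spec h).trans hu.symm)

lemma XQ_eq {y : S} (hy : y ∈ S1 D) {v u : V} (hu : (2 : ℕ) • u = D.δ y v) : XQ D y (mkQ v) = mkQ u := by
  have h1 : mkQ (Quotient.out (mkQ v)) = mkQ v := Quotient.out_eq _
  obtain ⟨t, ht⟩ := mkQ_eq.1 h1
  have ht' : (2 : ℕ) • t = Quotient.out (mkQ v) - v := ht
  rw [XQ]
  refine (Xv_eq hW2 (u := u + D.δ y t) ?_).trans ?_
  · have e : Quotient.out (mkQ v) = v + (2 : ℕ) • t := by rw [ht']; abel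
    rw [e, D.δ_add, D.δ_nsmul, nsmul_add, hu]
  · apply mkQ_eq.2
    have : u + D.δ y t - u = D.δ y t := by abel
    rw [this]
    exact hy t trivial

lemma XQ_add {y : S} (hy : y ∈ S1 D) (q q' : Q V) : XQ D y (q + q') = XQ D y q + XQ D y q' := by
  obtain ⟨v, rfl⟩ := QuotientAddGroup.mk_surjective q
  obtain ⟨v', rfl⟩ := QuotientAddGroup.mk_surjective q'
  obtain ⟨u, hu⟩ := mem_S1.1 hy v
  obtain ⟨u', hu'⟩ := mem_S1.1 hy v'
  rw [← mkQ_add, XQ_eq hW2 hy (v := v + v') (u := u + u') (by rw [nsmul_add, hu, hu', D.δ_add]),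
    XQ_eq hW2 hy hu, XQ_eq hW2 hy hu', mkQ_add]

lemma XQ_zero {y : S} (hy : y ∈ S1 D) : XQ D y 0 = 0 := by
  have := XQ_add hW2 hy 0 0
  simpa using this

lemma XQ_mul {y y' : S} (hy : y ∈ S1 D) (hy' : y' ∈ S1 D) (q : Q V) :
    XQ D (y * y') q = XQ D y q + XQ D y' q := by
  obtain ⟨v, rfl⟩ := QuotientAddGroup.mk_surjective q
  obtain ⟨u, hu⟩ := mem_S1.1 hy v
  obtain ⟨u', hu'⟩ := mem_S1.1 hy' v
  have hm := (S1 D).mul_mem hy hy'
  rw [XQ_eq hW2 hm (v := v) (u := D.ρ y u' + u) (by rw [D.δ_mul, nsmul_add, ← map_nsmul, hu, hu']),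
    XQ_eq hW2 hy hu, XQ_eq hW2 hy' hu', mkQ_add, add_comm]
  congr 1
  apply mkQ_eq.2
  exact hy u' trivial

lemma XQ_one (q : Q V) : XQ D 1 q = 0 := by
  obtain ⟨v, rfl⟩ := QuotientAddGroup.mk_surjective q
  rw [XQ_eq hW2 (S1 D).one_mem (v := v) (u := 0) (by simp [δ])]
  rfl

lemma XQ_inv {y : S} (hy : y ∈ S1 D) (q : Q V) : XQ D y⁻¹ q = XQ D y q := by
  have h := XQ_mul hW2 ((S1 D).inv_mem hy) hy q
  rw [inv_mul_cancel, XQ_one hW2] at h
  have h2 := Q_two (XQ D y q)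
  exact add_right_cancel (h.symm.trans h2.symm)

lemma XQ_conj (g : S) {y : S} (hy : y ∈ S1 D) (q : Q V) :
    XQ D (g * y * g⁻¹) (ρQ D g q) = ρQ D g (XQ D y q) := by
  obtain ⟨v, rfl⟩ := QuotientAddGroup.mk_surjective q
  obtain ⟨u, hu⟩ := mem_S1.1 hy v
  have hm : g * y * g⁻¹ ∈ S1 D := S1_normal.conj_mem y hy g
  rw [ρQ_mk, XQ_eq hW2 hm (v := D.ρ g v) (u := D.ρ g u) (by rw [D.δ_conj, ρ_inv_ρ, ← map_nsmul, hu]),
    XQ_eq hW2 hy hu, ρQ_mk]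

lemma mem_S2_of_XQ {y : S} (hy : y ∈ S1 D) (h : ∀ q, XQ D y q = 0) : y ∈ S2 D := by
  refine mem_S2.2 (fun v => ?_)
  obtain ⟨u, hu⟩ := mem_S1.1 hy v
  have h1 := h (mkQ v)
  rw [XQ_eq hW2 hy hu] at h1
  obtain ⟨t, ht⟩ := mkQ_eq_zero.1 h1
  have ht' : (2 : ℕ) • t = u := ht
  refine ⟨t, 0, by simp, ?_⟩
  rw [← hu, ← ht', ← mul_nsmul', add_zero]

lemma XQ_of_T (hΩ : ∀ f : V, (4 : ℕ) • f = 0 → f ∈ (Dbl 2 : AddSubgroup V)) {y : S} (hy1 : y ∈ S1 D)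
    (hy : y ∈ T D) (q : Q V) : XQ D y q = 0 := by
  obtain ⟨v, rfl⟩ := QuotientAddGroup.mk_surjective q
  obtain ⟨u, hu⟩ := mem_S1.1 hy1 v
  rw [XQ_eq hW2 hy1 hu]
  apply mkQ_eq_zero.2 (hΩ u _)
  have h1 := mem_T.1 hy v
  rw [← hu, ← mul_nsmul'] at h1
  exact h1

end

section main
variable [Finite S] [Finite V] {a : S} (C : TC D a) (hL : HL D a)
  (hΩ : ∀ f : V, (4 : ℕ) • f = 0 → f ∈ (Dbl 2 : AddSubgroup V))
include C hL hΩ

lemma a_mem_S1 : a ∈ S1 D := by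
  refine mem_S1.2 (fun v => ?_)
  obtain ⟨t, ht⟩ := C.hW2 _ (two_θ C.toInv2 v)
  refine ⟨t - v, ?_⟩
  rw [smul_sub, ht, δ_def, two_nsmul]
  abel

lemma XQ_a (q : Q V) : XQ D a q = q := by
  obtain ⟨v, rfl⟩ := QuotientAddGroup.mk_surjective q
  obtain ⟨t, ht⟩ := C.hW2 _ (two_θ C.toInv2 v)
  have hu : (2 : ℕ) • (t - v) = D.δ a v := by
    rw [smul_sub, ht, δ_def, two_nsmul]
    abel
  rw [XQ_eq C.hW2 (a_mem_S1 C hL hΩ) hu]
  have h4 : (4 : ℕ) • t = 0 := by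
    have h1 := two_θ C.toInv2 v
    rw [← ht, ← mul_nsmul'] at h1
    exact h1
  have ht0 := mkQ_eq_zero.2 (hΩ t h4)
  rw [sub_eq_add_neg, mkQ_add, ht0, zero_add, mkQ_neg]
  exact neg_eq_of_add_eq_zero_left (Q_two _)

/-- Elements of `Y` with trivial `XQ` lie in `T`. -/
lemma mem_T_of_XQ {y : S} (hX : y ∈ X D) (h1 : y ∈ S1 D) (h : ∀ q, XQ D y q = 0) : y ∈ T D :=
  mem_T_of_S2 C hL hX (mem_S2_of_XQ C.hW2 h1 h)

/-- Squares of elements of `Y` lie in `B`. -/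
lemma sq_mem_B_Y {y : S} (hX : y ∈ X D) (h1 : y ∈ S1 D) : y * y ∈ D.B := by
  have hXX := (X D).mul_mem hX hX
  have h11 := (S1 D).mul_mem h1 h1
  have hS2 : y * y ∈ S2 D := by
    apply mem_S2_of_XQ C.hW2 h11
    intro q
    rw [XQ_mul C.hW2 h1 h1, Q_two]
  obtain ⟨c, hc⟩ := exists_c C.toInv2 (comm_of_Y C hX h1)
  refine mem_B_of_c C hL hXX hS2 (c_mul hc hc) ?_
  obtain ⟨u, hu⟩ := mem_S1.1 h1 c
  refine ⟨c + u, ?_⟩
  rw [nsmul_add, hu, D.ρ_eq y c, two_nsmul]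
  abel

/-- Idempotency. -/
lemma XQ_idem {y : S} (hX : y ∈ X D) (h1 : y ∈ S1 D) (q : Q V) : XQ D y (XQ D y q) = XQ D y q := by
  obtain ⟨v, rfl⟩ := QuotientAddGroup.mk_surjective q
  obtain ⟨u, hu⟩ := mem_S1.1 h1 v
  obtain ⟨u', hu'⟩ := mem_S1.1 h1 u
  rw [XQ_eq C.hW2 h1 hu, XQ_eq C.hW2 h1 hu']
  have hsq := D.mem_B_iff.1 (sq_mem_B_Y C hL hΩ hX h1) v
  rw [D.ρ_mul, D.ρ_eq y v, map_add, D.ρ_eq y v, D.ρ_eq y (D.δ y v), ← hu, D.δ_nsmul, ← hu'] at hsq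
  have h4 : (4 : ℕ) • (u + u') = 0 := by
    have e : (4 : ℕ) • (u + u') = v + (2 : ℕ) • u + ((2 : ℕ) • u + (2 : ℕ) • (2 : ℕ) • u') - v := by
      simp only [nsmul_add, smul_smul]
      norm_num
      abel
    rw [e, hsq, sub_self]
  have h5 := hΩ _ h4
  have h6 : mkQ u' = mkQ u := by
    apply mkQ_eq.2
    have e : u' - u = (u + u') - (2 : ℕ) • u := by rw [two_nsmul]; abel
    rw [e]
    exact (Dbl 2).sub_mem h5 ⟨u, rfl⟩
  exact h6

/-- Two elements of `Y`: their `XQ` commute. -/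
lemma XQ_comm {y y₀ : S} (hX : y ∈ X D) (h1 : y ∈ S1 D) (hX₀ : y₀ ∈ X D) (h1₀ : y₀ ∈ S1 D) (q : Q V) :
    XQ D y₀ (XQ D y q) = XQ D y (XQ D y₀ q) := by
  have hmX := (X D).mul_mem hX₀ hX
  have hm1 := (S1 D).mul_mem h1₀ h1
  have h := XQ_idem C hL hΩ hmX hm1 q
  rw [XQ_mul C.hW2 h1₀ h1 (XQ D (y₀ * y) q), XQ_mul C.hW2 h1₀ h1 q, XQ_add C.hW2 h1₀, XQ_add C.hW2 h1,
    XQ_idem C hL hΩ hX₀ h1₀, XQ_idem C hL hΩ hX h1] at h
  have h2 : XQ D y₀ (XQ D y q) + XQ D y (XQ D y₀ q) = 0 := by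
    have e : ∀ A B E F : Q V, A + E + (F + B) = A + B → E + F = 0 := by
      intro A B E F h'
      have : A + B + (E + F) = A + B := by
        rw [show A + B + (E + F) = A + E + (F + B) by abel]
        exact h'
      simpa using this
    exact e _ _ _ _ h
  have h3 := Q_two (XQ D y (XQ D y₀ q))
  exact add_right_cancel (h2.trans h3.symm)

/-- The dichotomy for `Y/T`. -/
lemma index_Y_T_two (hall : ∀ y ∈ X D ⊓ S1 D, (∀ q, XQ D y q = 0) ∨ ∀ q, XQ D y q = q) :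
    (T D).relIndex (X D ⊓ S1 D) ≤ 2 := by
  classical
  have := relIndex_le_of_fun (T D) (X D ⊓ S1 D) (X := Bool) (fun y => decide (∀ q, XQ D y q = 0)) (by
    intro y hy y' hy' hf
    have hiff : (∀ q, XQ D y q = 0) ↔ (∀ q, XQ D y' q = 0) := by simpa using hf
    have h1 := (S1 D).inv_mem hy.2
    have hm1 := (S1 D).mul_mem h1 hy'.2
    have hmX := (X D).mul_mem ((X D).inv_mem hy.1) hy'.1
    apply mem_T_of_XQ C hL hΩ hmX hm1
    intro q
    rw [XQ_mul C.hW2 h1 hy'.2, XQ_inv C.hW2 hy.2]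
    rcases hall y hy with h | h
    · rw [h q, hiff.1 h q, add_zero]
    · rcases hall y' hy' with h' | h'
      · have := hiff.2 h'
        have h0 : q = 0 := (h q).symm.trans (this q)
        rw [h q, h' q, h0, add_zero]
      · rw [h q, h' q, Q_two])
  simpa using this

/-- The dichotomy for `Y/T`, with an exceptional element. -/
lemma index_Y_T_four {y₀ : S} (hy₀ : y₀ ∈ X D ⊓ S1 D) (h0 : ¬ ∀ q, XQ D y₀ q = 0) (hI : ¬ ∀ q, XQ D y₀ q = q) :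
    (T D).relIndex (X D ⊓ S1 D) ≤ 4 := by
  classical
  push Not at h0 hI
  obtain ⟨q₁, hq₁⟩ := h0
  obtain ⟨q₂, hq₂⟩ := hI
  set d := XQ D y₀ with hd
  have hidem : ∀ q, d (d q) = d q := XQ_idem C hL hΩ hy₀.1 hy₀.2
  have hadd : ∀ q q', d (q + q') = d q + d q' := XQ_add C.hW2 hy₀.2
  set i := d q₁ with hi
  set k := q₂ + d q₂ with hk
  have hdi : d i = i := hidem q₁
  have hdk : d k = 0 := by rw [hk, hadd, hidem, Q_two]
  have hi0 : i ≠ 0 := hq₁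
  have hk0 : k ≠ 0 := by
    intro h
    apply hq₂
    have h2 := Q_two (d q₂)
    exact (add_right_cancel (h.trans h2.symm)).symm
  have hik : k ≠ i := by
    intro h
    rw [h, hdi] at hdk
    exact hi0 hdk
  have hcov := klein_cover (card_Q C.hW) Q_two hk0 hi0 hik
  have hker : ∀ q, d q = 0 → q = 0 ∨ q = k := by
    intro q hq
    rcases hcov q with h | h | h | h
    · exact Or.inl h
    · exact Or.inr h
    · rw [h, hdi] at hq; exact absurd hq hi0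
    · rw [h, hadd, hdk, hdi, zero_add] at hq; exact absurd hq hi0
  have him : ∀ q, d q = q → q = 0 ∨ q = i := by
    intro q hq
    rcases hcov q with h | h | h | h
    · exact Or.inl h
    · rw [h, hdk] at hq; exact absurd hq.symm hk0
    · exact Or.inr h
    · exfalso
      rw [h, hadd, hdk, hdi, zero_add] at hq
      have : k = 0 := by
        have h3 : i + k = i + 0 := by rw [add_zero, add_comm]; exact hq.symm
        exact add_left_cancel h3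
      exact hk0 this
  have hY : ∀ y ∈ X D ⊓ S1 D, (XQ D y k = 0 ∨ XQ D y k = k) ∧ (XQ D y i = 0 ∨ XQ D y i = i) := by
    intro y hy
    have hc := XQ_comm C hL hΩ hy.1 hy.2 hy₀.1 hy₀.2
    constructor
    · apply hker
      rw [hd, hc, ← hd, hdk, XQ_zero C.hW2 hy.2]
    · apply him
      rw [hd, hc, ← hd, hdi]
  have := relIndex_le_of_fun (T D) (X D ⊓ S1 D) (X := Bool × Bool)
    (fun y => (decide (XQ D y k = 0), decide (XQ D y i = 0))) (by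
    intro y hy y' hy' hf
    have hf1 : XQ D y k = 0 ↔ XQ D y' k = 0 := by simpa using congrArg Prod.fst hf
    have hf2 : XQ D y i = 0 ↔ XQ D y' i = 0 := by simpa using congrArg Prod.snd hf
    have e1 : XQ D y k = XQ D y' k := by
      rcases (hY y hy).1 with h | h
      · rw [h, hf1.1 h]
      · rcases (hY y' hy').1 with h' | h'
        · have := hf1.2 h'
          rw [h] at this
          exact absurd this hk0
        · rw [h, h']
    have e2 : XQ D y i = XQ D y' i := by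
      rcases (hY y hy).2 with h | h
      · rw [h, hf2.1 h]
      · rcases (hY y' hy').2 with h' | h'
        · have := hf2.2 h'
          rw [h] at this
          exact absurd this hi0
        · rw [h, h']
    have h1 := (S1 D).inv_mem hy.2
    have hm1 := (S1 D).mul_mem h1 hy'.2
    have hmX := (X D).mul_mem ((X D).inv_mem hy.1) hy'.1
    apply mem_T_of_XQ C hL hΩ hmX hm1
    have hk' : XQ D (y⁻¹ * y') k = 0 := by
      rw [XQ_mul C.hW2 h1 hy'.2, XQ_inv C.hW2 hy.2, e1, Q_two]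
    have hi' : XQ D (y⁻¹ * y') i = 0 := by
      rw [XQ_mul C.hW2 h1 hy'.2, XQ_inv C.hW2 hy.2, e2, Q_two]
    intro q
    rcases hcov q with h | h | h | h
    · rw [h, XQ_zero C.hW2 hm1]
    · rw [h, hk']
    · rw [h, hi']
    · rw [h, XQ_add C.hW2 hm1, hk', hi', add_zero])
  simpa using this

/-- `g` outside `S₁` cannot commute with the exceptional element modulo `T`. -/
lemma comm_not_mem_T {y₀ g : S} (hy₀ : y₀ ∈ X D ⊓ S1 D) (h0 : ¬ ∀ q, XQ D y₀ q = 0) (hI : ¬ ∀ q, XQ D y₀ q = q)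
    (hg : g ∉ S1 D) : g * y₀ * g⁻¹ * y₀⁻¹ ∉ T D := by
  intro hT
  apply hg
  push Not at h0 hI
  obtain ⟨q₁, hq₁⟩ := h0
  obtain ⟨q₂, hq₂⟩ := hI
  set d := XQ D y₀ with hd
  have hidem : ∀ q, d (d q) = d q := XQ_idem C hL hΩ hy₀.1 hy₀.2
  have hadd : ∀ q q', d (q + q') = d q + d q' := XQ_add C.hW2 hy₀.2
  set i := d q₁ with hi
  set k := q₂ + d q₂ with hk
  have hdi : d i = i := hidem q₁
  have hdk : d k = 0 := by rw [hk, hadd, hidem, Q_two]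
  have hi0 : i ≠ 0 := hq₁
  have hk0 : k ≠ 0 := by
    intro h
    apply hq₂
    have h2 := Q_two (d q₂)
    exact (add_right_cancel (h.trans h2.symm)).symm
  have hik : k ≠ i := by
    intro h
    rw [h, hdi] at hdk
    exact hi0 hdk
  have hcov := klein_cover (card_Q C.hW) Q_two hk0 hi0 hik
  have hker : ∀ q, d q = 0 → q = 0 ∨ q = k := by
    intro q hq
    rcases hcov q with h | h | h | h
    · exact Or.inl h
    · exact Or.inr h
    · rw [h, hdi] at hq; exact absurd hq hi0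
    · rw [h, hadd, hdk, hdi, zero_add] at hq; exact absurd hq hi0
  have him : ∀ q, d q = q → q = 0 ∨ q = i := by
    intro q hq
    rcases hcov q with h | h | h | h
    · exact Or.inl h
    · rw [h, hdk] at hq; exact absurd hq.symm hk0
    · exact Or.inr h
    · exfalso
      rw [h, hadd, hdk, hdi, zero_add] at hq
      have : k = 0 := by
        have h3 : i + k = i + 0 := by rw [add_zero, add_comm]; exact hq.symm
        exact add_left_cancel h3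
      exact hk0 this
  -- conjugation by `g`
  have hc1 : g * y₀ * g⁻¹ ∈ S1 D := S1_normal.conj_mem y₀ hy₀.2 g
  have hconj : ∀ q, d (ρQ D g q) = ρQ D g (d q) := by
    intro q
    have h1 := XQ_conj C.hW2 g hy₀.2 q
    have h2 : XQ D (g * y₀ * g⁻¹) (ρQ D g q) = XQ D ((g * y₀ * g⁻¹ * y₀⁻¹) * y₀) (ρQ D g q) := by
      congr 1; group
    rw [h2, XQ_mul C.hW2 ((S1 D).mul_mem hc1 ((S1 D).inv_mem hy₀.2)) hy₀.2,
      XQ_of_T C.hW2 hΩ ((S1 D).mul_mem hc1 ((S1 D).inv_mem hy₀.2)) hT, zero_add] at h1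
    exact h1
  have hinj : ∀ q, ρQ D g q = 0 → q = 0 := by
    intro q hq
    have := congrArg (ρQ D g⁻¹) hq
    rw [← ρQ_mul, inv_mul_cancel, ρQ_one, map_zero] at this
    exact this
  have hgk : ρQ D g k = k := by
    rcases hker (ρQ D g k) (by rw [hconj, hdk, map_zero]) with h | h
    · exact absurd (hinj _ h) hk0
    · exact h
  have hgi : ρQ D g i = i := by
    rcases him (ρQ D g i) (by rw [hconj, hdi]) with h | h
    · exact absurd (hinj _ h) hi0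
    · exact h
  refine mem_S1_iff_Q.2 (fun q => ?_)
  rcases hcov q with h | h | h | h
  · rw [h, map_zero]
  · rw [h, hgk]
  · rw [h, hgi]
  · rw [h, map_add, hgk, hgi]

omit hL hΩ in
/-- Elements of `T` commute with everything on `2V`. -/
lemma comm_on_two {τ g : S} (h : τ * g * τ⁻¹ * g⁻¹ ∈ T D) {x : V} (hx : x ∈ (Dbl 2 : AddSubgroup V)) :
    D.ρ τ (D.ρ g x) = D.ρ g (D.ρ τ x) := by
  have hx' : D.ρ g (D.ρ τ x) ∈ (Dbl 2 : AddSubgroup V) := D.inv_Dbl 2 _ _ (D.inv_Dbl 2 _ _ hx)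
  obtain ⟨u, hu⟩ := hx'
  have hu' : (2 : ℕ) • u = D.ρ g (D.ρ τ x) := hu
  have h1 : τ * g = (τ * g * τ⁻¹ * g⁻¹) * (g * τ) := by group
  have h2 := mem_T.1 h u
  have h3 : D.ρ (τ * g) x = D.ρ (g * τ) x := by
    rw [h1, D.ρ_mul, D.ρ_mul g τ x, ← hu', map_nsmul, D.ρ_eq _ u, nsmul_add, h2, add_zero]
  simpa using h3

/-- The exceptional element excludes elements of `S₁` moving `V[2]`. -/
lemma S1_le_X {k : ℕ} (L : Lev V k) (hk : 2 ≤ k) {M : ℕ} (hM : ∀ v : V, (2 ^ M : ℕ) • v = 0)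
    {y₀ : S} (hy₀ : y₀ ∈ X D ⊓ S1 D) (h0 : ¬ ∀ q, XQ D y₀ q = 0) (hI : ¬ ∀ q, XQ D y₀ q = q) :
    S1 D ≤ X D := by
  classical
  intro τ hτ1
  by_contra hτ2
  obtain ⟨z, e, c, p, H⟩ := exists_LD L C.hW hM hτ1 hτ2
  obtain ⟨v₁, hv₁⟩ := H.pP
  have hv₁' : (2 ^ k : ℕ) • v₁ = p := hv₁
  obtain ⟨v₂, hv₂⟩ := L.le e H.e2
  have hv₂' : (2 ^ k : ℕ) • v₂ = e := hv₂
  obtain ⟨j, rfl⟩ : ∃ j, k = j + 2 := ⟨k - 2, by omega⟩
  have hyX := hy₀.1
  have hy1 := hy₀.2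
  -- the order of `c`
  have hc0 : c ≠ 0 := by
    intro h
    obtain ⟨n, hn⟩ := H.gen z H.zC
    rw [h, smul_zero] at hn
    exact H.z0 hn
  have hex : ∃ t, (2 ^ t : ℕ) • c = 0 := ⟨M, hM c⟩
  obtain ⟨t', ht'0, ht'⟩ : ∃ t', (2 ^ t' : ℕ) • c ≠ 0 ∧ (2 ^ (t' + 1) : ℕ) • c = 0 := by
    have h1 : Nat.find hex ≠ 0 := by
      intro h
      have := Nat.find_spec hex
      rw [h] at this
      simp at this
      exact hc0 this
    obtain ⟨t', ht'⟩ := Nat.exists_eq_succ_of_ne_zero h1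
    refine ⟨t', Nat.find_min hex (by omega), ?_⟩
    have := Nat.find_spec hex
    rw [ht'] at this
    exact this
  have hCinvM : ∀ n : ℕ, ∀ u ∈ (Dbl (2 ^ (j + 2 + 1)) : AddSubgroup V), (n • u) ∈ (Dbl (2 ^ (j + 2 + 1)) : AddSubgroup V) :=
    fun n u hu => AddSubgroup.nsmul_mem _ hu n
  have hzc : (2 ^ t' : ℕ) • c = z := by
    have h2 : (2 : ℕ) • ((2 ^ t' : ℕ) • c) = 0 := by
      rw [← mul_nsmul', ← pow_succ']
      exact ht'
    rcases H.cov _ h2 with h | h | h | h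
    · exact absurd h ht'0
    · exact h
    · exact absurd (h ▸ hCinvM _ c H.cC) H.eC
    · exfalso
      apply H.eC
      have h3 : e = (2 ^ t' : ℕ) • c - z := by rw [h]; abel
      rw [h3]
      exact AddSubgroup.sub_mem _ (hCinvM _ c H.cC) H.zC
  -- the functional
  let π : V → V := fun v => (2 ^ t' * 2 ^ (j + 2 + 1) : ℕ) • v
  have hπadd : ∀ u v, π (u + v) = π u + π v := fun u v => smul_add _ u v
  have hπsub : ∀ u v, π (u - v) = π u - π v := fun u v => smul_sub _ u v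
  have hπval : ∀ v, π v = 0 ∨ π v = z := by
    intro v
    obtain ⟨n, hn⟩ := H.gen ((2 ^ (j + 2 + 1) : ℕ) • v) ⟨v, rfl⟩
    have h2 : π v = n • z := by
      change (2 ^ t' * 2 ^ (j + 2 + 1) : ℕ) • v = _
      rw [mul_nsmul', hn, smul_comm, hzc]
    rw [h2]
    rcases Int.even_or_odd' n with ⟨m, rfl | rfl⟩
    · left
      rw [mul_comm, mul_zsmul, two_zsmul, ← two_nsmul, H.z2, smul_zero]
    · right
      rw [add_zsmul, one_zsmul, mul_comm, mul_zsmul, two_zsmul, ← two_nsmul, H.z2, smul_zero, zero_add]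
  have hπ2 : ∀ u, π ((2 : ℕ) • u) = 0 := by
    intro u
    change (2 ^ t' * 2 ^ (j + 2 + 1) : ℕ) • (2 : ℕ) • u = 0
    obtain ⟨n, hn⟩ := H.gen ((2 ^ (j + 2 + 1) : ℕ) • u) ⟨u, rfl⟩
    have e1 : (2 ^ t' * 2 ^ (j + 2 + 1) : ℕ) • (2 : ℕ) • u = (2 ^ (t' + 1) : ℕ) • (2 ^ (j + 2 + 1) : ℕ) • u := by
      rw [smul_smul, smul_smul]
      congr 1
      rw [pow_succ]
      ring
    rw [e1, hn, smul_comm, ht', smul_zero]
  have hπv₁ : π v₁ = z := by
    change (2 ^ t' * 2 ^ (j + 2 + 1) : ℕ) • v₁ = z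
    rw [← hzc, H.cp, ← hv₁', smul_smul, smul_smul]
    congr 1
    rw [pow_succ]
    ring
  have hπv₂ : π v₂ = 0 := by
    change (2 ^ t' * 2 ^ (j + 2 + 1) : ℕ) • v₂ = 0
    have e1 : (2 ^ t' * 2 ^ (j + 2 + 1) : ℕ) • v₂ = (2 ^ t' : ℕ) • (2 : ℕ) • (2 ^ (j + 2) : ℕ) • v₂ := by
      rw [smul_smul, smul_smul]
      congr 1
      rw [pow_succ]
      ring
    rw [e1, hv₂', H.e2, smul_zero]
  have hπclass : ∀ u v, mkQ u = mkQ v → π u = π v := by
    intro u v h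
    obtain ⟨r, hr⟩ := mkQ_eq.1 h
    have hr' : (2 : ℕ) • r = u - v := hr
    have := hπ2 r
    rw [hr', hπsub, sub_eq_zero] at this
    exact this
  -- classes
  have hq₁ : mkQ v₁ ≠ 0 := by
    intro h
    have h2 := hπclass v₁ 0 (by rw [h]; rfl)
    rw [hπv₁] at h2
    have : π 0 = 0 := smul_zero _
    rw [this] at h2
    exact H.z0 h2
  have hq₂ : mkQ v₂ ≠ 0 := by
    intro h
    obtain ⟨r, hr⟩ := mkQ_eq_zero.1 h
    have hr' : (2 : ℕ) • r = v₂ := hr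
    apply H.eC
    refine ⟨r, ?_⟩
    change (2 ^ (j + 2 + 1) : ℕ) • r = e
    rw [← hv₂', ← hr', ← mul_nsmul', pow_succ]
  have hq₁₂ : mkQ v₁ ≠ mkQ v₂ := by
    intro h
    have h2 := hπclass _ _ h
    rw [hπv₁, hπv₂] at h2
    exact H.z0 h2
  have hcov := klein_cover (card_Q C.hW) Q_two hq₁ hq₂ hq₁₂
  -- the halves
  obtain ⟨u₁, hu₁⟩ := mem_S1.1 hy1 v₁
  obtain ⟨u₂, hu₂⟩ := mem_S1.1 hy1 v₂
  have hX₁ := XQ_eq C.hW2 hy1 hu₁
  have hX₂ := XQ_eq C.hW2 hy1 hu₂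
  have hidem₁ := XQ_idem C hL hΩ hyX hy1 (mkQ v₁)
  rw [hX₁] at hidem₁
  -- the element `ζ` lies in `T`
  have hζ : τ * y₀ * τ⁻¹ * y₀⁻¹ ∈ T D := by
    have hc1 : τ * y₀ * τ⁻¹ ∈ S1 D := S1_normal.conj_mem y₀ hy1 τ
    have hcX : τ * y₀ * τ⁻¹ ∈ X D := X_normal.conj_mem y₀ hyX τ
    apply mem_T_of_XQ C hL hΩ ((X D).mul_mem hcX ((X D).inv_mem hyX)) ((S1 D).mul_mem hc1 ((S1 D).inv_mem hy1))
    intro q
    rw [XQ_mul C.hW2 hc1 ((S1 D).inv_mem hy1), XQ_inv C.hW2 hy1]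
    have hτq : ∀ r, ρQ D τ r = r := mem_S1_iff_Q.1 hτ1
    have h3 := XQ_conj C.hW2 τ hy1 q
    rw [hτq, hτq] at h3
    rw [h3, Q_two]
  -- computation on `f₂`
  set f₂ : V := (2 ^ (j + 1) : ℕ) • v₂ with hf₂
  set f₁ : V := (2 ^ t' * 2 ^ (j + 2) : ℕ) • v₁ with hf₁
  have h2f₂ : (2 : ℕ) • f₂ = e := by
    rw [hf₂, ← hv₂', ← mul_nsmul', ← pow_succ']
  have h2f₁ : (2 : ℕ) • f₁ = z := by
    rw [hf₁, ← hπv₁, ← mul_nsmul']
    change _ = (2 ^ t' * 2 ^ (j + 2 + 1) : ℕ) • v₁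
    congr 1
    rw [pow_succ 2 (j + 2)]
    ring
  have hf₂2 : f₂ ∈ (Dbl 2 : AddSubgroup V) := ⟨(2 ^ j : ℕ) • v₂, by
    change (2 : ℕ) • (2 ^ j : ℕ) • v₂ = f₂
    rw [hf₂, ← mul_nsmul', ← pow_succ']⟩
  have hcomm := comm_on_two C hζ hf₂2
  have hq₀ : (2 : ℕ) • D.δ τ f₂ = z := by
    rw [← D.δ_nsmul, h2f₂, δ_def, H.τe]
    abel
  have hw₂ : D.δ y₀ f₂ = (2 ^ (j + 2) : ℕ) • u₂ := by
    rw [hf₂, D.δ_nsmul, ← hu₂, ← mul_nsmul', ← pow_succ]
  have hw₂2 : (2 : ℕ) • D.δ y₀ f₂ = 0 := by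
    rw [← D.δ_nsmul, h2f₂, δ_def, mem_X.1 hyX e H.e2, sub_self]
  have hδf₁ : D.δ y₀ f₁ = π u₁ := by
    rw [hf₁, D.δ_nsmul, ← hu₁, ← mul_nsmul']
    change _ = (2 ^ t' * 2 ^ (j + 2 + 1) : ℕ) • u₁
    congr 1
    rw [pow_succ 2 (j + 2)]
    ring
  have hδq₀ : D.δ y₀ (D.δ τ f₂) = π u₁ := by
    have h3 : (2 : ℕ) • (D.δ τ f₂ - f₁) = 0 := by
      rw [smul_sub, hq₀, h2f₁, sub_self]
    have h4 : D.δ y₀ (D.δ τ f₂ - f₁) = 0 := by
      rw [δ_def, mem_X.1 hyX _ h3, sub_self]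
    rw [D.δ_sub, sub_eq_zero] at h4
    rw [h4, hδf₁]
  have hrel : D.ρ τ (D.δ y₀ f₂) = D.δ y₀ f₂ + π u₁ := by
    have h3 : D.ρ τ f₂ = f₂ + D.δ τ f₂ := D.ρ_eq τ f₂
    have h4 : D.ρ y₀ f₂ = f₂ + D.δ y₀ f₂ := D.ρ_eq y₀ f₂
    rw [h4, map_add, h3] at hcomm
    rw [map_add, h4, D.ρ_eq y₀ (D.δ τ f₂), hδq₀] at hcomm
    have h5 : f₂ + D.δ τ f₂ + D.ρ τ (D.δ y₀ f₂) = f₂ + D.δ τ f₂ + (D.δ y₀ f₂ + π u₁) := by
      rw [hcomm]; abel
    exact add_left_cancel h5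
  -- cases
  have hC2 : ∀ t ∈ (Dbl (2 ^ (j + 2 + 1)) : AddSubgroup V), (2 ^ (j + 2) : ℕ) • u₂ = t → u₂ ∈ (Dbl 2 : AddSubgroup V) := by
    intro t ht h
    exact inj_level L (h ▸ ht)
  have hC3 : ∀ t ∈ (Dbl (2 ^ (j + 2 + 1)) : AddSubgroup V), (2 ^ (j + 2) : ℕ) • u₂ = t + e → mkQ u₂ = mkQ v₂ := by
    intro t ht h
    apply mkQ_eq.2
    apply inj_level L
    rw [smul_sub, h, hv₂']
    have : t + e - e = t := by abel
    rw [this]
    exact ht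
  have hcases : (mkQ u₂ = 0 ∧ π u₁ = 0) ∨ (mkQ u₂ = mkQ v₂ ∧ π u₁ = z) := by
    rcases H.cov _ hw₂2 with h | h | h | h
    · left
      refine ⟨mkQ_eq_zero.2 (hC2 0 (zero_mem _) (hw₂.symm.trans h)), ?_⟩
      rw [h, map_zero, zero_add] at hrel
      exact hrel.symm
    · left
      refine ⟨mkQ_eq_zero.2 (hC2 z H.zC (hw₂.symm.trans h)), ?_⟩
      rw [h, H.zfix] at hrel
      have h3 : z + 0 = z + π u₁ := by rw [add_zero]; exact hrel
      exact (add_left_cancel h3).symm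
    · right
      refine ⟨hC3 0 (zero_mem _) (by rw [← hw₂, h, zero_add]), ?_⟩
      rw [h, H.τe] at hrel
      exact (add_left_cancel hrel).symm
    · right
      refine ⟨hC3 z H.zC (hw₂.symm.trans h), ?_⟩
      rw [h, map_add, H.zfix, H.τe] at hrel
      have h3 : z + e + z = z + e + π u₁ := by
        rw [← hrel]; abel
      exact (add_left_cancel h3).symm
  rcases hcases with ⟨h1, h2⟩ | ⟨h1, h2⟩
  · apply h0
    have hu₁0 : mkQ u₁ = 0 := by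
      rcases hcov (mkQ u₁) with h | h | h | h
      · exact h
      · have := hπclass _ _ h
        rw [h2, hπv₁] at this
        exact absurd this.symm H.z0
      · exfalso
        rw [h, hX₂, h1] at hidem₁
        exact hq₂ hidem₁.symm
      · have := hπclass _ _ (h.trans (mkQ_add v₁ v₂).symm)
        rw [h2, hπadd, hπv₁, hπv₂, add_zero] at this
        exact absurd this.symm H.z0
    intro q
    rcases hcov q with h | h | h | h
    · rw [h, XQ_zero C.hW2 hy1]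
    · rw [h, hX₁, hu₁0]
    · rw [h, hX₂, h1]
    · rw [h, XQ_add C.hW2 hy1, hX₁, hX₂, hu₁0, h1, add_zero]
  · apply hI
    have hu₁1 : mkQ u₁ = mkQ v₁ := by
      rcases hcov (mkQ u₁) with h | h | h | h
      · exfalso
        have := hπclass u₁ 0 h
        rw [h2] at this
        have h00 : π 0 = 0 := smul_zero _
        rw [h00] at this
        exact H.z0 this
      · exact h
      · exfalso
        have := hπclass _ _ h
        rw [h2, hπv₂] at this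
        exact H.z0 this
      · exfalso
        rw [h, XQ_add C.hW2 hy1, hX₁, hX₂, h1, h] at hidem₁
        have h3 : mkQ v₁ + mkQ v₂ + mkQ v₂ = mkQ v₁ + mkQ v₂ + 0 := by rw [add_zero]; exact hidem₁
        exact hq₂ (add_left_cancel h3)
    intro q
    rcases hcov q with h | h | h | h
    · rw [h, XQ_zero C.hW2 hy1]
    · rw [h, hX₁, hu₁1]
    · rw [h, hX₂, h1]
    · rw [h, XQ_add C.hW2 hy1, hX₁, hX₂, hu₁1, h1]

end main

end Cfsg.Agent.Lib.SelfCentE8.Xhat
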