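import Cfsg.Agent.Lib.SelfCentE8.K1

/-!
# The branch `4V = 0`, `V[2] = 2V`
-/

set_option autoImplicit false
set_option linter.unusedSectionVars false

namespace Cfsg.Agent.Lib.SelfCentE8.Z44

open Cfsg.Agent.Lib.TwoFusion.SecRank Cfsg.Agent.Lib.SelfCentE8.Setup Cfsg.Agent.Lib.SelfCentE8.Count
open Cfsg.Agent.Lib.SelfCentE8.TCore Cfsg.Agent.Lib.SelfCentE8.TCount Cfsg.Agent.Lib.SelfCentE8.Gamma
open Cfsg.Agent.Lib.SelfCentE8.Level Cfsg.Agent.Lib.SelfCentE8.Xhat Cfsg.Agent.Lib.SelfCentE8.K2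
open Cfsg.Agent.Lib.SelfCentE8.K1
open Mod

variable {S V : Type*} [Group S] [AddCommGroup V] {D : Mod S V}

/-- The kernel of `x ↦ [x, a]` modulo `2V`. -/
def Mg (D : Mod S V) (a : S) : Subgroup S where
  carrier := {x | x ∈ T D ∧ ∃ c, x * a * x⁻¹ * a⁻¹ = D.ι c ∧ c ∈ (Dbl 2 : AddSubgroup V)}
  mul_mem' := by
    rintro x y ⟨hx, c, hc, hc2⟩ ⟨hy, d, hd, hd2⟩
    exact ⟨(T D).mul_mem hx hy, _, c_mul hc hd, (Dbl 2).add_mem (D.inv_Dbl 2 _ _ hd2) hc2⟩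
  one_mem' := ⟨(T D).one_mem, 0, by simp, zero_mem _⟩
  inv_mem' := by
    rintro x ⟨hx, c, hc, hc2⟩
    refine ⟨(T D).inv_mem hx, - D.ρ x⁻¹ c, ?_, (Dbl 2).neg_mem (D.inv_Dbl 2 _ _ hc2)⟩
    rw [D.ι_neg, ← D.conj, ← hc]
    group

/-- `B ∪ aB`. -/
def AB (D : Mod S V) (a : S) (haa : a * a = 1) : Subgroup S where
  carrier := {x | x ∈ D.B ∨ a * x ∈ D.B}
  mul_mem' := by
    rintro x y (hx | hx) (hy | hy)
    · exact Or.inl (D.B.mul_mem hx hy)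
    · right
      have e : a * (x * y) = (a * x * a⁻¹) * (a * y) := by group
      rw [e]
      exact D.B.mul_mem (D.B_normal.conj_mem x hx a) hy
    · right
      have e : a * (x * y) = (a * x) * y := by group
      rw [e]
      exact D.B.mul_mem hx hy
    · left
      have e : x * y = (a⁻¹ * (a * x) * a⁻¹⁻¹) * (a * y) := by
        rw [inv_inv]
        calc x * y = x * (a * a) * y := by rw [haa, mul_one]
          _ = _ := by group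
      rw [e]
      exact D.B.mul_mem (D.B_normal.conj_mem _ hx a⁻¹) hy
  one_mem' := Or.inl (one_mem _)
  inv_mem' := by
    rintro x (hx | hx)
    · exact Or.inl (D.B.inv_mem hx)
    · right
      have e : a * x⁻¹ = a * (a * x)⁻¹ * a⁻¹ := by
        have ainv : a⁻¹ = a := inv_eq_of_mul_eq_one_left haa
        rw [mul_inv_rev, ainv]
        calc a * x⁻¹ = a * x⁻¹ * (a * a) := by rw [haa, mul_one]
          _ = _ := by group
      rw [e]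
      exact D.B_normal.conj_mem _ (D.B.inv_mem hx) a

lemma B_le_AB {a : S} (haa : a * a = 1) : D.B ≤ AB D a haa := fun _ h => Or.inl h

/-- The relation of the commutator of two elements of `T` with their `c`'s. -/
lemma comm_T_rel [Finite S] [Finite V] {a : S} (C : TC D a) {x t : S} (hx : x ∈ T D) (ht : t ∈ T D) {p q r : V}
    (hp : x * a * x⁻¹ * a⁻¹ = D.ι p) (hq : t * a * t⁻¹ * a⁻¹ = D.ι q) (hr : x * t * x⁻¹ * t⁻¹ = D.ι r) :
    D.ρ a r - r = D.δ t p - D.δ x q := by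
  have ainv := a_inv C.toInv2
  have hx' : a * x * a⁻¹ = D.ι (-p) * x := by
    rw [D.ι_neg, ← hp]
    group
  have ht' : a * t * a⁻¹ = D.ι (-q) * t := by
    rw [D.ι_neg, ← hq]
    group
  have hρ : D.ρ (x * t * x⁻¹) p = D.ρ t p := by
    have e : x * t * x⁻¹ = D.ι r * t := by
      rw [← hr]
      group
    rw [e, D.ρ_mul, D.ρ_ι]
  have key : D.ι (D.ρ a r) = D.ι (-p + D.ρ x (-q) + D.ρ t p + r + q) := by
    calc D.ι (D.ρ a r) = a * D.ι r * a⁻¹ := (D.conj a r).symm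
      _ = (a * x * a⁻¹) * (a * t * a⁻¹) * (a * x * a⁻¹)⁻¹ * (a * t * a⁻¹)⁻¹ := by
        rw [← hr]; group
      _ = D.ι (-p) * x * (D.ι (-q) * t) * (D.ι (-p) * x)⁻¹ * (D.ι (-q) * t)⁻¹ := by rw [hx', ht']
      _ = D.ι (-p) * (x * D.ι (-q) * x⁻¹) * (x * t * x⁻¹ * D.ι p * (x * t * x⁻¹)⁻¹) * (x * t * x⁻¹ * t⁻¹) * D.ι q := by
        simp only [D.ι_neg]
        group
      _ = D.ι (-p) * D.ι (D.ρ x (-q)) * D.ι (D.ρ (x * t * x⁻¹) p) * D.ι r * D.ι q := by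
        rw [D.conj, D.conj, hr]
      _ = _ := by
        rw [hρ]
        simp only [D.ι_add]
  have h1 := D.ι_inj key
  rw [h1, δ_def, δ_def, map_neg]
  abel

section z44
variable [Finite S] [Finite V] {a : S} (C : TC D a) (h4 : ∀ v : V, (4 : ℕ) • v = 0)
include C h4

omit C in
lemma two_of_dbl {v : V} (hv : v ∈ (Dbl 2 : AddSubgroup V)) : (2 : ℕ) • v = 0 := by
  obtain ⟨t, ht⟩ := hv
  have ht' : (2 : ℕ) • t = v := ht
  rw [← ht', ← mul_nsmul']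
  exact h4 t

lemma dbl_of_two {v : V} (hv : (2 : ℕ) • v = 0) : v ∈ (Dbl 2 : AddSubgroup V) := C.hW2 v hv

lemma X_le_T : X D ≤ T D := by
  intro x hx
  refine mem_T.2 (fun v => ?_)
  rw [← D.δ_nsmul, δ_def, mem_X.1 hx _ (two_of_dbl h4 (v := (2 : ℕ) • v) ⟨v, rfl⟩), sub_self]

lemma index_T_le : (T D).index ≤ 2 := by
  have h : T D = X D := le_antisymm (T_le_X C) (X_le_T C h4)
  rw [h]
  exact index_X_le C.hS C.hW

lemma δ_mem {x : S} (hx : x ∈ T D) (v : V) : D.δ x v ∈ (Dbl 2 : AddSubgroup V) :=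
  dbl_of_two C h4 (mem_T.1 hx v)

omit h4 in
lemma δ_dbl {x : S} (hx : x ∈ T D) {u : V} (hu : u ∈ (Dbl 2 : AddSubgroup V)) : D.δ x u = 0 := by
  obtain ⟨t, ht⟩ := hu
  have ht' : (2 : ℕ) • t = u := ht
  rw [← ht', D.δ_nsmul]
  exact mem_T.1 hx t

lemma a_mem_T : a ∈ T D := X_le_T C h4 (a_mem_X C.toInv2)

lemma a_mem_Mg : a ∈ Mg D a := by
  refine ⟨a_mem_T C h4, 0, ?_, zero_mem _⟩
  rw [D.ι_zero]
  group

lemma B_le_Mg : D.B ≤ Mg D a := by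
  rintro _ ⟨b, rfl⟩
  refine ⟨B_le_T (D.ι_mem b), b - D.ρ a b, c_ι C.toInv2 b, ?_⟩
  have h := δ_mem C h4 (a_mem_T C h4) b
  have e : b - D.ρ a b = - D.δ a b := by rw [δ_def]; abel
  rw [e]
  exact (Dbl 2).neg_mem h

omit h4 in
lemma a_not_B : a ∉ D.B := by
  intro h
  have h1 : ∀ v : V, (2 : ℕ) • v = 0 := fun v => (C.hfix v).1 (D.mem_B_iff.1 h v)
  have h2 : ∀ w : V, (2 : ℕ) • w = 0 → w = 0 := by
    intro w hw
    obtain ⟨u, hu⟩ := C.hW2 w hw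
    rw [← hu]
    exact h1 u
  have h3 : Nat.card (Tor 2 : AddSubgroup V) = 1 := by
    have : (Tor 2 : AddSubgroup V) = ⊥ := by
      rw [eq_bot_iff]
      intro w hw
      exact h2 w hw
    rw [this]
    exact AddSubgroup.card_bot
  have := C.hW
  omega

lemma exists_cT {x : S} (hx : x ∈ T D) : ∃ c, x * a * x⁻¹ * a⁻¹ = D.ι c :=
  exists_c_of_S2 C (T_le_X C hx) (T_le_S2 C hx)

omit h4 C in
lemma mem_Mg_iff {x : S} {c : V} (hx : x ∈ T D) (hc : x * a * x⁻¹ * a⁻¹ = D.ι c) :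
    x ∈ Mg D a ↔ c ∈ (Dbl 2 : AddSubgroup V) := by
  constructor
  · rintro ⟨_, d, hd, hd2⟩
    have : c = d := D.ι_inj (hc.symm.trans hd)
    rwa [this]
  · intro h
    exact ⟨hx, c, hc, h⟩

omit h4 C in
lemma inv_mul_mem_Mg {x y : S} {c d : V} (hx : x ∈ T D) (hy : y ∈ T D) (hc : x * a * x⁻¹ * a⁻¹ = D.ι c)
    (hd : y * a * y⁻¹ * a⁻¹ = D.ι d) (hcd : mkQ c = mkQ d) : x⁻¹ * y ∈ Mg D a := by
  have hc' : x⁻¹ * a * x⁻¹⁻¹ * a⁻¹ = D.ι (- D.ρ x⁻¹ c) := by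
    rw [D.ι_neg, ← D.conj, ← hc]
    group
  refine (mem_Mg_iff ((T D).mul_mem ((T D).inv_mem hx) hy) (c_mul hc' hd)).2 ?_
  have h := D.inv_Dbl 2 x⁻¹ _ (mkQ_eq.1 hcd)
  have e : D.ρ x⁻¹ d + - D.ρ x⁻¹ c = - D.ρ x⁻¹ (c - d) := by
    rw [map_sub]; abel
  rw [e]
  exact (Dbl 2).neg_mem h

/-- All classes occur among the `c`'s. -/
def PsiAll (D : Mod S V) (a : S) (H : Subgroup S) : Prop :=
  ∀ q : Q V, ∃ x ∈ T D ⊓ H, ∃ c, x * a * x⁻¹ * a⁻¹ = D.ι c ∧ mkQ c = q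

lemma psi_le_four (H : Subgroup S) : (Mg D a).relIndex (T D ⊓ H) ≤ 4 := by
  classical
  have hdata : ∀ x ∈ T D ⊓ H, ∃ c, x * a * x⁻¹ * a⁻¹ = D.ι c := fun x hx => exists_cT C h4 hx.1
  have := relIndex_le_of_fun (Mg D a) (T D ⊓ H) (X := Q V) (fun x => if hx : x ∈ T D ⊓ H then
    mkQ (Classical.choose (hdata x hx)) else 0) (by
    intro x hx y hy hf
    simp only [hx, hy, dif_pos] at hf
    exact inv_mul_mem_Mg hx.1 hy.1 (Classical.choose_spec (hdata x hx)) (Classical.choose_spec (hdata y hy)) hf)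
  rwa [card_Q C.hW] at this

lemma psi_le_two {H : Subgroup S} (hP : ¬ PsiAll D a H) : (Mg D a).relIndex (T D ⊓ H) ≤ 2 := by
  classical
  have := relIndex_le_of_fun (Mg D a) (T D ⊓ H) (X := Bool) (fun x => decide (x ∈ Mg D a)) (by
    intro x hx y hy hf
    have hiff : x ∈ Mg D a ↔ y ∈ Mg D a := by simpa using hf
    by_cases h1 : x ∈ Mg D a
    · exact (Mg D a).mul_mem ((Mg D a).inv_mem h1) (hiff.1 h1)
    · have h2 : y ∉ Mg D a := fun h => h1 (hiff.2 h)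
      obtain ⟨c, hc⟩ := exists_cT C h4 hx.1
      obtain ⟨d, hd⟩ := exists_cT C h4 hy.1
      have hc2 : c ∉ (Dbl 2 : AddSubgroup V) := fun h => h1 ((mem_Mg_iff hx.1 hc).2 h)
      have hd2 : d ∉ (Dbl 2 : AddSubgroup V) := fun h => h2 ((mem_Mg_iff hy.1 hd).2 h)
      refine inv_mul_mem_Mg hx.1 hy.1 hc hd ?_
      by_contra hne
      apply hP
      intro q
      have hp : mkQ c ≠ 0 := fun h => hc2 (mkQ_eq_zero.1 h)
      have hq' : mkQ d ≠ 0 := fun h => hd2 (mkQ_eq_zero.1 h)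
      rcases klein_cover (card_Q C.hW) Q_two hp hq' hne q with h | h | h | h
      · exact ⟨1, one_mem _, 0, by simp, by rw [h]; rfl⟩
      · exact ⟨x, hx, c, hc, h.symm⟩
      · exact ⟨y, hy, d, hd, h.symm⟩
      · refine ⟨x * y, (T D ⊓ H).mul_mem hx hy, _, c_mul hc hd, ?_⟩
        rw [h, mkQ_add, add_comm]
        congr 1
        exact mkQ_eq.2 (δ_mem C h4 hx.1 d))
  simpa using this

/-- A function into the image. -/
lemma psi_le_Im {H K : Subgroup S} (hA : ∀ x ∈ T D ⊓ H, ∀ c, x * a * x⁻¹ * a⁻¹ = D.ι c → mkQ c ∈ Im D K) :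
    (Mg D a).relIndex (T D ⊓ H) ≤ Nat.card (Im D K) := by
  classical
  have hdata : ∀ x ∈ T D ⊓ H, ∃ q : Im D K, ∃ c, x * a * x⁻¹ * a⁻¹ = D.ι c ∧ mkQ c = q := by
    intro x hx
    obtain ⟨c, hc⟩ := exists_cT C h4 hx.1
    exact ⟨⟨_, hA x hx c hc⟩, c, hc, rfl⟩
  apply relIndex_le_of_fun (Mg D a) (T D ⊓ H) (X := Im D K) (fun x => if hx : x ∈ T D ⊓ H then
    Classical.choose (hdata x hx) else 0)
  intro x hx y hy hf
  simp only [hx, hy, dif_pos] at hf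
  obtain ⟨c, hc, hc2⟩ := Classical.choose_spec (hdata x hx)
  obtain ⟨d, hd, hd2⟩ := Classical.choose_spec (hdata y hy)
  refine inv_mul_mem_Mg hx.1 hy.1 hc hd ?_
  rw [hc2, hd2, hf]

/-- Scenario A: `H` meets `aB`. -/
lemma mem_Im_of_A {H K : Subgroup S} (hc : ∀ x ∈ H, ∀ y ∈ H, x * y * x⁻¹ * y⁻¹ ∈ K) {a' : S} (ha' : a' ∈ H)
    (haB : a * a' ∈ D.B) : ∀ x ∈ T D ⊓ H, ∀ c, x * a * x⁻¹ * a⁻¹ = D.ι c → mkQ c ∈ Im D K := by
  intro x hx c hxc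
  obtain ⟨b, hb⟩ := D.mem_B.1 haB
  have ainv := a_inv C.toInv2
  have ha'' : a' = a * D.ι b := by
    rw [← hb, ← mul_assoc, ← ainv]
    rw [ainv]
    rw [C.haa, one_mul]
  have h1 := hc x hx.2 a' ha'
  have hδ := δ_mem C h4 hx.1 b
  have hfix : D.ρ a (D.δ x b) = D.δ x b := (C.hfix _).2 (two_of_dbl h4 hδ)
  have e : x * a' * x⁻¹ * a'⁻¹ = D.ι (c + D.δ x b) := by
    rw [ha'']
    calc x * (a * D.ι b) * x⁻¹ * (a * D.ι b)⁻¹
        = (x * a * x⁻¹ * a⁻¹) * (a * (x * D.ι b * x⁻¹ * (D.ι b)⁻¹) * a⁻¹) := by group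
      _ = D.ι c * (a * D.ι (D.δ x b) * a⁻¹) := by
        rw [hxc, D.conj x b, ← D.ι_sub]
        rfl
      _ = D.ι c * D.ι (D.ρ a (D.δ x b)) := by rw [D.conj]
      _ = D.ι c * D.ι (D.δ x b) := by rw [hfix]
      _ = _ := (D.ι_add _ _).symm
  rw [e] at h1
  refine ⟨c + D.δ x b, h1, ?_⟩
  exact mkQ_eq.2 (by simpa using hδ)

/-- The count of `B₀`. -/
lemma card_B_mul_Im {H K : Subgroup S} (hs : ∀ x ∈ H, x * x ∈ K) :
    Nat.card (D.B ⊓ H : Subgroup S) * Nat.card (Im D K) ≤ 4 * Nat.card (D.B ⊓ K : Subgroup S) := by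
  have h2 : Nat.card (pull D H) ≤ 4 * Nat.card (pull D K ⊓ Dbl 2 : AddSubgroup V) := by
    rw [← C.hW]
    apply card_le_of_double
    intro v hv
    refine ⟨?_, ⟨v, rfl⟩⟩
    have h3 := hs _ hv
    change D.ι ((2 : ℕ) • v) ∈ K
    rw [two_nsmul, D.ι_add]
    exact h3
  have h3 := card_K0 (pull D K)
  rw [← card_pull, ← card_pull, h3]
  calc Nat.card (pull D H) * Nat.card (Im D K)
      ≤ (4 * Nat.card (pull D K ⊓ Dbl 2 : AddSubgroup V)) * Nat.card (Im D K) := Nat.mul_le_mul_right _ h2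
    _ = _ := by ring

end z44

section rho
variable [Finite S] [Finite V] {a : S} (C : TC D a) (h4 : ∀ v : V, (4 : ℕ) • v = 0)
  (Z1 : ∀ l ∈ T D, l * a = a * l → l ∉ D.B → a * l ∉ D.B → ∀ τ, τ ∉ T D → a * (τ * l * τ⁻¹ * l⁻¹) ∈ D.B)
  (Z2 : ∀ l ∈ T D, l * a = a * l → l ∉ D.B → a * l ∉ D.B → ∀ l' ∈ T D, l' * a = a * l' → l' ∉ D.B → a * l' ∉ D.B →
    l⁻¹ * l' ∈ D.B ∨ a * (l⁻¹ * l') ∈ D.B)
include C h4

/-- Writing an element of `Mg` as `ι u * l` with `l` commuting with `a`. -/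
lemma Mg_decomp {m : S} (hm : m ∈ Mg D a) : ∃ u, (D.ι u * m) * a = a * (D.ι u * m) := by
  obtain ⟨hT, c, hc, hc2⟩ := hm
  obtain ⟨u, hu⟩ := surj_sub C hc2
  refine ⟨u, ?_⟩
  have h1 := c_ι_mul C.toInv2 hc u
  have h0 : c + (u - D.ρ a u) = 0 := by rw [← hu]; abel
  rw [h0, D.ι_zero] at h1
  exact comm_of_c C.toInv2 h1

lemma not_AB_of_ι {u : V} {m : S} (h1 : m ∉ D.B) (h2 : a * m ∉ D.B) : D.ι u * m ∉ D.B ∧ a * (D.ι u * m) ∉ D.B := by
  constructor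
  · intro h
    apply h1
    have : m = (D.ι u)⁻¹ * (D.ι u * m) := by group
    rw [this]
    exact D.B.mul_mem (D.B.inv_mem (D.ι_mem u)) h
  · intro h
    apply h2
    have e : a * m = (a * D.ι u * a⁻¹)⁻¹ * (a * (D.ι u * m)) := by group
    rw [e]
    exact D.B.mul_mem (D.B.inv_mem (D.B_normal.conj_mem _ (D.ι_mem u) a)) h

include Z1 in
/-- The commutator relation on `Mg`. -/
lemma M1 {m : S} (hm : m ∈ Mg D a) (h1 : m ∉ D.B) (h2 : a * m ∉ D.B) {τ : S} (hτ : τ ∉ T D) :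
    a * (τ * m * τ⁻¹ * m⁻¹) ∈ D.B := by
  obtain ⟨u, hu⟩ := Mg_decomp C h4 hm
  have hlT : D.ι u * m ∈ T D := (T D).mul_mem (B_le_T (D.ι_mem u)) hm.1
  obtain ⟨h3, h4'⟩ := not_AB_of_ι C h4 (u := u) h1 h2
  have h5 := Z1 _ hlT hu h3 h4' τ hτ
  have e : a * (τ * m * τ⁻¹ * m⁻¹) =
      (a * (τ * (D.ι u)⁻¹ * τ⁻¹) * a⁻¹) * (a * (τ * (D.ι u * m) * τ⁻¹ * (D.ι u * m)⁻¹)) * D.ι u := by
    group
  rw [e]
  exact D.B.mul_mem (D.B.mul_mem (D.B_normal.conj_mem _ (D.B_normal.conj_mem _ (D.B.inv_mem (D.ι_mem u)) τ) a) h5)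
    (D.ι_mem u)

include Z2 in
lemma M2 {m m' : S} (hm : m ∈ Mg D a) (h1 : m ∉ D.B) (h2 : a * m ∉ D.B) (hm' : m' ∈ Mg D a) (h1' : m' ∉ D.B)
    (h2' : a * m' ∉ D.B) : m⁻¹ * m' ∈ AB D a C.haa := by
  obtain ⟨u, hu⟩ := Mg_decomp C h4 hm
  obtain ⟨u', hu'⟩ := Mg_decomp C h4 hm'
  have hlT : D.ι u * m ∈ T D := (T D).mul_mem (B_le_T (D.ι_mem u)) hm.1
  have hlT' : D.ι u' * m' ∈ T D := (T D).mul_mem (B_le_T (D.ι_mem u')) hm'.1
  obtain ⟨h3, h4'⟩ := not_AB_of_ι C h4 (u := u) h1 h2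
  obtain ⟨h3', h4''⟩ := not_AB_of_ι C h4 (u := u') h1' h2'
  have h5 := Z2 _ hlT hu h3 h4' _ hlT' hu' h3' h4''
  have hA : (D.ι u * m)⁻¹ * (D.ι u' * m') ∈ AB D a C.haa := h5
  have hlT2 : (D.ι u * m)⁻¹ * D.ι (u - u') * (D.ι u * m) ∈ D.B :=
    by
      have := D.B_normal.conj_mem _ (D.ι_mem (u - u')) (D.ι u * m)⁻¹
      simpa using this
  have e : m⁻¹ * m' = ((D.ι u * m)⁻¹ * D.ι (u - u') * (D.ι u * m)) * ((D.ι u * m)⁻¹ * (D.ι u' * m')) := by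
    rw [D.ι_sub]
    group
  rw [e]
  exact (AB D a C.haa).mul_mem (B_le_AB C.haa hlT2) hA

omit h4 in
lemma B_rel_AB_le_two (G : Subgroup S) : D.B.relIndex (AB D a C.haa ⊓ G) ≤ 2 := by
  classical
  have := relIndex_le_of_fun D.B (AB D a C.haa ⊓ G) (X := Bool) (fun x => decide (x ∈ D.B)) (by
    intro x hx y hy hf
    have hiff : x ∈ D.B ↔ y ∈ D.B := by simpa using hf
    by_cases h1 : x ∈ D.B
    · exact D.B.mul_mem (D.B.inv_mem h1) (hiff.1 h1)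
    · have h2 : y ∉ D.B := fun h => h1 (hiff.2 h)
      have hx2 := hx.1.resolve_left h1
      have hy2 := hy.1.resolve_left h2
      have e : x⁻¹ * y = (a * x)⁻¹ * (a * y) := by group
      rw [e]
      exact D.B.mul_mem (D.B.inv_mem hx2) hy2)
  simpa using this

include Z2 in
lemma AB_rel_le_two {G : Subgroup S} (hG : G ≤ Mg D a) : (AB D a C.haa).relIndex G ≤ 2 := by
  classical
  have := relIndex_le_of_fun (AB D a C.haa) G (X := Bool) (fun x => decide (x ∈ AB D a C.haa)) (by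
    intro x hx y hy hf
    have hiff : x ∈ AB D a C.haa ↔ y ∈ AB D a C.haa := by simpa using hf
    by_cases h1 : x ∈ AB D a C.haa
    · exact (AB D a C.haa).mul_mem ((AB D a C.haa).inv_mem h1) (hiff.1 h1)
    · have h2 : y ∉ AB D a C.haa := fun h => h1 (hiff.2 h)
      have hx1 : x ∉ D.B := fun h => h1 (Or.inl h)
      have hx2 : a * x ∉ D.B := fun h => h1 (Or.inr h)
      have hy1 : y ∉ D.B := fun h => h2 (Or.inl h)
      have hy2 : a * y ∉ D.B := fun h => h2 (Or.inr h)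
      exact M2 C h4 Z2 (hG hx) hx1 hx2 (hG hy) hy1 hy2)
  simpa using this

omit h4 in
lemma rho_split (G : Subgroup S) :
    D.B.relIndex G = D.B.relIndex (AB D a C.haa ⊓ G) * (AB D a C.haa).relIndex G := by
  have h := relIndex_eq_mul D.B G (AB D a C.haa)
  rwa [sup_of_le_left (B_le_AB C.haa)] at h

include Z2 in
lemma rho_le_four {G : Subgroup S} (hG : G ≤ Mg D a) : D.B.relIndex G ≤ 4 := by
  rw [rho_split C G]
  calc _ ≤ 2 * 2 := Nat.mul_le_mul (B_rel_AB_le_two C G) (AB_rel_le_two C h4 Z2 hG)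
    _ = 4 := by norm_num

omit h4 in
lemma rho_le_two_of_le {G : Subgroup S} (hG : G ≤ AB D a C.haa) : D.B.relIndex G ≤ 2 := by
  rw [rho_split C G, Subgroup.relIndex_eq_one.2 hG, mul_one]
  exact B_rel_AB_le_two C G

include Z2 in
/-- Scenario B. -/
lemma rho_le_two_B {G : Subgroup S} (hG : G ≤ Mg D a) (hB : ∀ x ∈ G, a * x ∉ D.B) : D.B.relIndex G ≤ 2 := by
  classical
  have := relIndex_le_of_fun D.B G (X := Bool) (fun x => decide (x ∈ D.B)) (by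
    intro x hx y hy hf
    have hiff : x ∈ D.B ↔ y ∈ D.B := by simpa using hf
    by_cases h1 : x ∈ D.B
    · exact D.B.mul_mem (D.B.inv_mem h1) (hiff.1 h1)
    · have h2 : y ∉ D.B := fun h => h1 (hiff.2 h)
      have h3 := M2 C h4 Z2 (hG hx) h1 (hB x hx) (hG hy) h2 (hB y hy)
      exact h3.resolve_right (hB _ (G.mul_mem (G.inv_mem hx) hy)))
  simpa using this

omit h4 in
lemma alpha_of_PsiAll {H : Subgroup S} (hP : PsiAll D a H) (v : V) : D.ρ a v = - v := by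
  obtain ⟨x, _, c, hc, hq⟩ := hP (mkQ v)
  have h1 := ρ_a_c C.toInv2 hc
  obtain ⟨t, ht⟩ := mkQ_eq.1 hq
  have ht' : (2 : ℕ) • t = c - v := ht
  have h2 := ρ_a_two C.toInv2 t
  rw [ht', map_sub, h1] at h2
  have h3 : D.ρ a v = -c - (-(c - v)) := by
    rw [← h2]; abel
  rw [h3]; abel

omit Z1 Z2 in
lemma one_lt_Im' {K : Subgroup S} {q : Q V} (hq : q ∈ Im D K) (h0 : q ≠ 0) : 2 ≤ Nat.card (Im D K) := by
  have h1 : Nontrivial (Im D K) := ⟨⟨⟨q, hq⟩, 0, fun h => h0 (congrArg Subtype.val h)⟩⟩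
  exact Finite.one_lt_card_iff_nontrivial.2 h1

/-- A non-trivial element of `Mg` makes `K₀` big. -/
lemma Im_two_of_l {H K : Subgroup S} (hc : ∀ x ∈ H, ∀ y ∈ H, x * y * x⁻¹ * y⁻¹ ∈ K) (hP : PsiAll D a H) {l : S}
    (hl : l ∈ Mg D a) (hlH : l ∈ H) (hlB : l ∉ D.B) : 2 ≤ Nat.card (Im D K) := by
  obtain ⟨hlT, q, hq, hq2⟩ := hl
  obtain ⟨v, hv⟩ : ∃ v, D.δ l v ≠ 0 := by
    by_contra h
    push Not at h
    exact hlB (D.mem_B_iff.2 (fun v => by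
      have := h v
      rwa [δ_def, sub_eq_zero] at this))
  obtain ⟨x, hx, c, hxc, hcv⟩ := hP (mkQ v)
  have hδ : D.δ l c = D.δ l v := by
    have := δ_dbl C hlT (mkQ_eq.1 hcv)
    rwa [D.δ_sub, sub_eq_zero] at this
  obtain ⟨s, hs, _⟩ := comm_T C hx.1 hlT
  have h1 := comm_T_rel C hx.1 hlT hxc hq hs
  rw [δ_dbl C hx.1 hq2, sub_zero, hδ, alpha_of_PsiAll C hP s] at h1
  have hsK : s ∈ pull D K := by
    rw [mem_pull, ← hs]
    exact hc x hx.2 l hlH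
  apply one_lt_Im' C h4 (q := mkQ s) ⟨s, hsK, rfl⟩
  intro h0
  have h2 := two_of_dbl h4 (mkQ_eq_zero.1 h0)
  apply hv
  rw [← h1]
  have e : -s - s = -((2 : ℕ) • s) := by rw [two_nsmul]; abel
  rw [e, h2, neg_zero]

/-- Elements outside `T` give elements of `K` outside `Mg`. -/
lemma exists_K_not_Mg {H K : Subgroup S} (hc : ∀ x ∈ H, ∀ y ∈ H, x * y * x⁻¹ * y⁻¹ ∈ K) (hKH : K ≤ H)
    (hP : PsiAll D a H) {τ : S} (hτH : τ ∈ H) (hτ : τ ∉ T D) : ∃ k ∈ T D ⊓ K, k ∉ Mg D a := by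
  have hα := alpha_of_PsiAll C hP
  have hτX : τ ∉ X D := fun h => hτ (X_le_T C h4 h)
  obtain ⟨w, hw, hne⟩ : ∃ w : V, (2 : ℕ) • w = 0 ∧ D.ρ τ w ≠ w := by
    by_contra h
    push Not at h
    exact hτX (mem_X.2 h)
  obtain ⟨v, hv⟩ := C.hW2 w hw
  have hδv : D.δ τ v ∉ (Dbl 2 : AddSubgroup V) := by
    intro h
    apply hne
    have h1 := two_of_dbl h4 h
    rw [← D.δ_nsmul, hv, δ_def, sub_eq_zero] at h1
    exact h1
  obtain ⟨x, hx, c, hxc, hcv⟩ := hP (mkQ v)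
  have hδc : D.δ τ c ∉ (Dbl 2 : AddSubgroup V) := by
    intro h
    apply hδv
    obtain ⟨t, ht⟩ := mkQ_eq.1 hcv
    have ht' : (2 : ℕ) • t = c - v := ht
    have e : D.δ τ v = D.δ τ c - (2 : ℕ) • D.δ τ t := by
      rw [← D.δ_nsmul, ht', D.δ_sub]; abel
    rw [e]
    exact (Dbl 2).sub_mem h ⟨_, rfl⟩
  -- `τ a τ⁻¹ a⁻¹ ∈ B`
  obtain ⟨m, hm⟩ : ∃ m, τ * a * τ⁻¹ * a⁻¹ = D.ι m := by
    apply D.cent
    intro u
    simp only [ρ_mul]
    rw [a_inv C.toInv2, hα, map_neg, hα, map_neg]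
    simp
  have hm' : τ * a * τ⁻¹ = D.ι m * a := by
    rw [← hm]; group
  have hx' : τ * x * τ⁻¹ ∈ T D := T_normal.conj_mem x hx.1 τ
  obtain ⟨c', hc'⟩ := exists_cT C h4 hx'
  have hrel : D.ρ τ c = D.δ (τ * x * τ⁻¹) m + c' := by
    apply D.ι_inj
    have e : D.δ (τ * x * τ⁻¹) m + c' = D.ρ (τ * x * τ⁻¹) m + c' - m := by rw [δ_def]; abel
    rw [e, D.ι_sub, D.ι_add, ← D.conj _ m, ← hc', ← D.conj τ c, ← hxc]
    calc τ * (x * a * x⁻¹ * a⁻¹) * τ⁻¹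
        = (τ * x * τ⁻¹) * (τ * a * τ⁻¹) * (τ * x * τ⁻¹)⁻¹ * (τ * a * τ⁻¹)⁻¹ := by group
      _ = (τ * x * τ⁻¹) * (D.ι m * a) * (τ * x * τ⁻¹)⁻¹ * (D.ι m * a)⁻¹ := by rw [hm']
      _ = _ := by group
  have hk : τ * x * τ⁻¹ * x⁻¹ ∈ T D := (T D).mul_mem hx' ((T D).inv_mem hx.1)
  refine ⟨τ * x * τ⁻¹ * x⁻¹, ⟨hk, hc τ hτH x hx.2⟩, ?_⟩
  have hxi : x⁻¹ * a * x⁻¹⁻¹ * a⁻¹ = D.ι (- D.ρ x⁻¹ c) := by
    rw [D.ι_neg, ← D.conj, ← hxc]
    group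
  have hck := c_mul hc' hxi
  rw [mem_Mg_iff hk hck]
  intro hin
  apply hδc
  have e : D.δ τ c = (D.ρ (τ * x * τ⁻¹) (- D.ρ x⁻¹ c) + c') + D.δ (τ * x * τ⁻¹ * x⁻¹) c + D.δ (τ * x * τ⁻¹) m := by
    have e2 : D.ρ (τ * x * τ⁻¹) (- D.ρ x⁻¹ c) = - D.ρ (τ * x * τ⁻¹ * x⁻¹) c := by
      rw [map_neg, D.ρ_mul (τ * x * τ⁻¹) x⁻¹ c]
    rw [e2, D.δ_def (τ * x * τ⁻¹ * x⁻¹) c, D.δ_def τ c, hrel]
    abel
  rw [e]
  exact (Dbl 2).add_mem ((Dbl 2).add_mem hin (δ_mem C h4 hk c)) (δ_mem C h4 hx' m)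

include Z1 Z2 in
/-- The key inequality. -/
lemma star {H K : Subgroup S} (hKH : K ≤ H) (hc : ∀ x ∈ H, ∀ y ∈ H, x * y * x⁻¹ * y⁻¹ ∈ K) :
    (T D).relIndex H * (Mg D a).relIndex (T D ⊓ H) * D.B.relIndex (Mg D a ⊓ (T D ⊓ H)) ≤
      4 * ((Mg D a).relIndex (T D ⊓ K) * D.B.relIndex (Mg D a ⊓ (T D ⊓ K))) * Nat.card (Im D K) := by
  have hBM := B_le_Mg C h4
  have hε : (T D).relIndex H ≤ 2 := by
    have h1 : (T D).relIndex H ∣ (T D).index := Subgroup.relIndex_dvd_index_of_normal _ _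
    have h2 : (T D).index ≠ 0 := Subgroup.index_ne_zero_of_finite
    exact (Nat.le_of_dvd (Nat.pos_of_ne_zero h2) h1).trans (index_T_le C h4)
  have hψ4 := psi_le_four C h4 H
  have hG : Mg D a ⊓ (T D ⊓ H) ≤ Mg D a := inf_le_left
  have hρ4 := rho_le_four C h4 Z2 hG
  have hψK : 1 ≤ (Mg D a).relIndex (T D ⊓ K) := Nat.pos_of_ne_zero Subgroup.index_ne_zero_of_finite
  have hρK : 1 ≤ D.B.relIndex (Mg D a ⊓ (T D ⊓ K)) := Nat.pos_of_ne_zero Subgroup.index_ne_zero_of_finite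
  have hIm : 1 ≤ Nat.card (Im D K) := Nat.card_pos
  by_cases hA : ∃ a' ∈ H, a * a' ∈ D.B
  · obtain ⟨a', ha', haB⟩ := hA
    have hψIm := psi_le_Im C h4 (mem_Im_of_A C h4 hc ha' haB)
    have hmain : (T D).relIndex H * D.B.relIndex (Mg D a ⊓ (T D ⊓ H)) ≤
        4 * ((Mg D a).relIndex (T D ⊓ K) * D.B.relIndex (Mg D a ⊓ (T D ⊓ K))) := by
      by_cases h1 : H ≤ T D
      · rw [Subgroup.relIndex_eq_one.2 h1, one_mul]
        calc _ ≤ 4 * (1 * 1) := by simpa using hρ4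
          _ ≤ _ := Nat.mul_le_mul_left _ (Nat.mul_le_mul hψK hρK)
      by_cases h2 : Mg D a ⊓ (T D ⊓ H) ≤ AB D a C.haa
      · have h3 := rho_le_two_of_le C h2
        calc _ ≤ 2 * 2 := Nat.mul_le_mul hε h3
          _ = 4 * (1 * 1) := by norm_num
          _ ≤ _ := Nat.mul_le_mul_left _ (Nat.mul_le_mul hψK hρK)
      obtain ⟨τ, hτH, hτ⟩ := SetLike.not_le_iff_exists.1 h1
      obtain ⟨l, hl, hlAB⟩ := SetLike.not_le_iff_exists.1 h2
      have hl1 : l ∉ D.B := fun h => hlAB (Or.inl h)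
      have hl2 : a * l ∉ D.B := fun h => hlAB (Or.inr h)
      have h3 := M1 C h4 Z1 hl.1 hl1 hl2 hτ
      have hcK : τ * l * τ⁻¹ * l⁻¹ ∈ K := hc τ hτH l hl.2.2
      obtain ⟨b, hb⟩ := D.mem_B.1 h3
      have ainv := a_inv C.toInv2
      have hca : τ * l * τ⁻¹ * l⁻¹ = a * D.ι b := by
        rw [← hb, ← mul_assoc, C.haa, one_mul]
      have hcM : τ * l * τ⁻¹ * l⁻¹ ∈ Mg D a := by
        rw [hca]
        exact (Mg D a).mul_mem (a_mem_Mg C h4) (hBM (D.ι_mem b))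
      have hcB : τ * l * τ⁻¹ * l⁻¹ ∉ D.B := by
        intro h
        apply a_not_B C
        rw [hca] at h
        have e : a = (a * D.ι b) * (D.ι b)⁻¹ := by group
        rw [e]
        exact D.B.mul_mem h (D.B.inv_mem (D.ι_mem b))
      have hρK2 : 2 ≤ D.B.relIndex (Mg D a ⊓ (T D ⊓ K)) := by
        have h4' : D.B.relIndex (Mg D a ⊓ (T D ⊓ K)) ≠ 1 := by
          intro h
          exact hcB (Subgroup.relIndex_eq_one.1 h ⟨hcM, hcM.1, hcK⟩)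
        omega
      calc _ ≤ 2 * 4 := Nat.mul_le_mul hε hρ4
        _ = 4 * (1 * 2) := by norm_num
        _ ≤ _ := Nat.mul_le_mul_left _ (Nat.mul_le_mul hψK hρK2)
    calc (T D).relIndex H * (Mg D a).relIndex (T D ⊓ H) * D.B.relIndex (Mg D a ⊓ (T D ⊓ H))
        = ((T D).relIndex H * D.B.relIndex (Mg D a ⊓ (T D ⊓ H))) * (Mg D a).relIndex (T D ⊓ H) := by ring
      _ ≤ _ := Nat.mul_le_mul hmain hψIm
  · push Not at hA
    have hGB : ∀ x ∈ Mg D a ⊓ (T D ⊓ H), a * x ∉ D.B := fun x hx => hA x hx.2.2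
    have hρ2 := rho_le_two_B C h4 Z2 hG hGB
    have hNT : ¬ H ≤ T D → ¬ (Mg D a ⊓ (T D ⊓ H) ≤ D.B) → False := by
      intro h1 h2
      obtain ⟨τ, hτH, hτ⟩ := SetLike.not_le_iff_exists.1 h1
      obtain ⟨l, hl, hlB⟩ := SetLike.not_le_iff_exists.1 h2
      have h3 := M1 C h4 Z1 hl.1 hlB (hGB l hl) hτ
      exact hA _ (hKH (hc τ hτH l hl.2.2)) h3
    have hR : 4 ≤ 4 * ((Mg D a).relIndex (T D ⊓ K) * D.B.relIndex (Mg D a ⊓ (T D ⊓ K))) * Nat.card (Im D K) := by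
      calc 4 = 4 * (1 * 1) * 1 := by norm_num
        _ ≤ _ := Nat.mul_le_mul (Nat.mul_le_mul_left _ (Nat.mul_le_mul hψK hρK)) hIm
    by_cases hP : PsiAll D a H
    · by_cases h1 : H ≤ T D
      · rw [Subgroup.relIndex_eq_one.2 h1, one_mul]
        by_cases h2 : Mg D a ⊓ (T D ⊓ H) ≤ D.B
        · rw [Subgroup.relIndex_eq_one.2 h2, mul_one]
          exact hψ4.trans hR
        · obtain ⟨l, hl, hlB⟩ := SetLike.not_le_iff_exists.1 h2
          have h3 := Im_two_of_l C h4 hc hP hl.1 hl.2.2 hlB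
          calc _ ≤ 4 * 2 := Nat.mul_le_mul hψ4 hρ2
            _ = 4 * (1 * 1) * 2 := by norm_num
            _ ≤ _ := Nat.mul_le_mul (Nat.mul_le_mul_left _ (Nat.mul_le_mul hψK hρK)) h3
      · have h2 : Mg D a ⊓ (T D ⊓ H) ≤ D.B := by
          by_contra h
          exact hNT h1 h
        rw [Subgroup.relIndex_eq_one.2 h2, mul_one]
        obtain ⟨τ, hτH, hτ⟩ := SetLike.not_le_iff_exists.1 h1
        obtain ⟨k, hk, hkM⟩ := exists_K_not_Mg C h4 hc hKH hP hτH hτ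
        have hψK2 : 2 ≤ (Mg D a).relIndex (T D ⊓ K) := by
          have h4' : (Mg D a).relIndex (T D ⊓ K) ≠ 1 := by
            intro h
            exact hkM (Subgroup.relIndex_eq_one.1 h hk)
          omega
        calc _ ≤ 2 * 4 := Nat.mul_le_mul hε hψ4
          _ = 4 * (2 * 1) * 1 := by norm_num
          _ ≤ _ := Nat.mul_le_mul (Nat.mul_le_mul_left _ (Nat.mul_le_mul hψK2 hρK)) hIm
    · have hψ2 := psi_le_two C h4 hP
      have hερ : (T D).relIndex H * D.B.relIndex (Mg D a ⊓ (T D ⊓ H)) ≤ 2 := by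
        by_cases h1 : H ≤ T D
        · rw [Subgroup.relIndex_eq_one.2 h1, one_mul]
          exact hρ2
        · have h2 : Mg D a ⊓ (T D ⊓ H) ≤ D.B := by
            by_contra h
            exact hNT h1 h
          rw [Subgroup.relIndex_eq_one.2 h2, mul_one]
          exact hε
      calc (T D).relIndex H * (Mg D a).relIndex (T D ⊓ H) * D.B.relIndex (Mg D a ⊓ (T D ⊓ H))
          = ((T D).relIndex H * D.B.relIndex (Mg D a ⊓ (T D ⊓ H))) * (Mg D a).relIndex (T D ⊓ H) := by ring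
        _ ≤ 2 * 2 := Nat.mul_le_mul hερ hψ2
        _ = 4 := by norm_num
        _ ≤ _ := hR

include Z1 Z2 in
theorem secBd_z44 : SecBd 4 S := by
  intro H K hKH hc hs
  have hBM := B_le_Mg C h4
  have hBT : D.B ≤ T D := B_le_T
  have eG : ∀ G : Subgroup S, D.B ⊓ (Mg D a ⊓ (T D ⊓ G)) = D.B ⊓ G := by
    intro G
    ext x
    constructor
    · rintro ⟨h1, _, _, h2⟩
      exact ⟨h1, h2⟩
    · rintro ⟨h1, h2⟩
      exact ⟨h1, hBM h1, hBT h1, h2⟩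
  have hH := card_eq_relIndex_mul_inf (T D) H
  have hH1 := card_eq_relIndex_mul_inf (Mg D a) (T D ⊓ H)
  have hH2 := card_eq_relIndex_mul_inf D.B (Mg D a ⊓ (T D ⊓ H))
  have hK := card_eq_relIndex_mul_inf (T D) K
  have hK1 := card_eq_relIndex_mul_inf (Mg D a) (T D ⊓ K)
  have hK2 := card_eq_relIndex_mul_inf D.B (Mg D a ⊓ (T D ⊓ K))
  rw [eG] at hH2 hK2
  have hB := card_B_mul_Im C h4 hs
  have hstar := star C h4 Z1 Z2 hKH hc
  have hpos : 1 ≤ (T D).relIndex K := Nat.pos_of_ne_zero Subgroup.index_ne_zero_of_finite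
  rw [hH, hH1, hH2, hK, hK1, hK2]
  generalize (T D).relIndex H = ε at *
  generalize (Mg D a).relIndex (T D ⊓ H) = ψ at *
  generalize D.B.relIndex (Mg D a ⊓ (T D ⊓ H)) = ρ at *
  generalize (T D).relIndex K = ε' at *
  generalize (Mg D a).relIndex (T D ⊓ K) = ψ' at *
  generalize D.B.relIndex (Mg D a ⊓ (T D ⊓ K)) = ρ' at *
  generalize Nat.card (D.B ⊓ H : Subgroup S) = u at *
  generalize Nat.card (D.B ⊓ K : Subgroup S) = w at *
  generalize Nat.card (Im D K) = m at *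
  calc ε * (ψ * (ρ * u)) = (ε * ψ * ρ) * u := by ring
    _ ≤ (4 * (ψ' * ρ') * m) * u := Nat.mul_le_mul_right _ hstar
    _ = 4 * (ψ' * ρ') * (u * m) := by ring
    _ ≤ 4 * (ψ' * ρ') * (4 * w) := Nat.mul_le_mul_left _ hB
    _ = 2 ^ 4 * (ψ' * (ρ' * w)) := by ring
    _ ≤ 2 ^ 4 * (ε' * (ψ' * (ρ' * w))) := Nat.mul_le_mul_left _ (Nat.le_mul_of_pos_left _ hpos)

end rho

end Cfsg.Agent.Lib.SelfCentE8.Z44
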